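import Cfsg.Agent.FT.BG06
import Cfsg.Agent.FT.PLen

/-! A solvable group of odd order whose Sylow `p`-subgroup has a cyclic derived group has `p`-length one. -/

set_option autoImplicit false
set_option linter.unusedSectionVars false
set_option linter.unusedVariables false

namespace Cfsg.Agent.H23

open Cfsg Cfsg.Agent.FT Subgroup
open scoped commutatorElement

variable {G : Type*} [Group G] [Finite G] {p : ℕ} {M S K : Subgroup G}

theorem p'core_quo_Phi (hp : p.Prime) (hs : Sol M) (hO : O[{p}ᶜ](M) = ⊥) (hn : M ≤ N(K)) (hK : K ≤ Phi M) :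
    O[{p}ᶜ](M /ₛ K) = ⊥ := by
  have e : F(M /ₛ K) = O[{p}](M) /ₛ K := by rw [← quo_fitting_of_le_Phi hn hK, fitting_eq_pcore hO]
  have h1 : O[{p}ᶜ](M /ₛ K) ≤ F(M /ₛ K) := (le_inf (pcore_le _ _)
    ((pcore_cents' {p} _).trans (cen_anti (e ▸ quo_pcore_le _ _ _)))).trans (cent_sub_Fitting (hs.quo K))
  exact (((pcore_pi {p} M).quo K).mono (e ▸ h1)).eq_bot (pcore_pi _ _)

theorem plen1_of_der_cyc_aux (hp : p.Prime) (ho : Odd #M) (hs : Sol M) (hS : Syl p S M) (hc : Cyc ⁅S, S⁆)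
    (hO : O[{p}ᶜ](M) = ⊥) (hV : Abelem p O[{p}](M)) : PLen1 p M := by
  have hn := (pcore_nml {p} M).nrm
  have h1 : ⁅⁅O[{p}](M), S⁆, S⁆ = ⊥ := by
    by_cases h0 : ⁅O[{p}](M), S⁆ = ⊥
    · rw [h0, commutator_bot_left]
    · exact comm_eq_bot'.2 (hS.pi.cents_of_prime ((hV.mono (comm_le_left (hS.le.trans hn))).card_of_cyc hp
        (hc.mono (commSS (pcore_le_syl hS) le_rfl)) h0) hp (norm_comm_right _ _))
  have h2 := odd_p_stable hp ho hs (pcore_le _ _) (pcore_pi _ _) hS.le (hS.le.trans hn) h1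
  have e : M ⊓ C(O[{p}](M)) = O[{p}](M) :=
    le_antisymm (by rw [← fitting_eq_pcore hO]; exact cent_sub_Fitting hs) (le_inf (pcore_le _ _) hV.ab.le_cen)
  rw [e, inf_eq_left.2 hn, pcore_quo_pcore, le_bot_iff, quo_eq_bot (hS.le.trans hn)] at h2
  exact plen1_of_syl_le hp hS (h2.trans (pcore_le_ppCore hp M))

theorem plen1_of_der_cyc_aux' (hp : p.Prime) (ho : Odd #M) (hs : Sol M) (hS : Syl p S M) (hc : Cyc ⁅S, S⁆)
    (hO : O[{p}ᶜ](M) = ⊥) : PLen1 p M := by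
  have hK := (pcore_nml {p} M).Phi
  have hKp := (pcore_pi {p} M).mono (Phi_le _)
  have h1 := p'core_quo_Phi hp hs hO hK.nrm (Phi_mono_nml (pcore_nml _ _))
  refine plen1_of_quo_p hp hKp hK h1 (plen1_of_der_cyc_aux hp (odd_quo ho _) (hs.quo _) (hS.quo hK.nrm) ?_ h1 ?_)
  · rw [← quo_comm (hS.le.trans hK.nrm) (hS.le.trans hK.nrm)]; exact hc.quo _
  · rw [← quo_pcore hKp hK.nrm]; exact (pcore_pi {p} M).abelem_quo_Phi

theorem plen1_of_der_cyc (hp : p.Prime) (ho : Odd #M) (hs : Sol M) (hS : Syl p S M) (hc : Cyc ⁅S, S⁆) :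
    PLen1 p M := by
  have hK := pcore_nml {p}ᶜ M
  refine plen1_of_quo_p' hp (pcore_pi _ _) hK
    (plen1_of_der_cyc_aux' hp (odd_quo ho _) (hs.quo _) (hS.quo hK.nrm) ?_ (pcore_quo_pcore _ _))
  rw [← quo_comm (hS.le.trans hK.nrm) (hS.le.trans hK.nrm)]; exact hc.quo _

end Cfsg.Agent.H23
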