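import Mathlib

/-! Central extensions of alternating groups: canonical lifts of three-cycles. -/

set_option autoImplicit false
set_option linter.unusedSectionVars false
set_option linter.unusedVariables false

namespace Cfsg.Agent.H23.Wg

open Equiv Equiv.Perm

variable {α : Type*} [Fintype α] [DecidableEq α] {G : Type*} [Group G]

/-- the three-cycle `a ↦ b ↦ c ↦ a` -/
def c3 (a b c : α) : Perm α := swap a c * swap a b

theorem c3_apply (a b c x : α) : c3 a b c x = swap a c (swap a b x) := rfl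

theorem c3_1 {a b c : α} (h1 : a ≠ b) (h2 : b ≠ c) : c3 a b c a = b := by
  rw [c3_apply, swap_apply_left, swap_apply_of_ne_of_ne h1.symm h2]

theorem c3_2 (a b c : α) : c3 a b c b = c := by
  rw [c3_apply, swap_apply_right, swap_apply_left]

theorem c3_3 {a b c : α} (h1 : a ≠ c) (h2 : b ≠ c) : c3 a b c c = a := by
  rw [c3_apply, swap_apply_of_ne_of_ne h1.symm h2.symm, swap_apply_right]

theorem c3_o {a b c x : α} (h1 : x ≠ a) (h2 : x ≠ b) (h3 : x ≠ c) : c3 a b c x = x := by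
  rw [c3_apply, swap_apply_of_ne_of_ne h1 h2, swap_apply_of_ne_of_ne h1 h3]

theorem sign_c3 {a b c : α} (h1 : a ≠ b) (h2 : a ≠ c) : sign (c3 a b c) = 1 := by
  rw [c3, Perm.sign_mul, sign_swap h1, sign_swap h2]; rfl

theorem swap_conj (g : Perm α) (a b : α) : g * swap a b * g⁻¹ = swap (g a) (g b) :=
  (swap_apply_apply g a b).symm

theorem c3_conj (g : Perm α) (a b c : α) : g * c3 a b c * g⁻¹ = c3 (g a) (g b) (g c) := by
  rw [c3, c3, ← swap_conj, ← swap_conj]; group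

theorem c3_rot {a b c : α} (h1 : a ≠ b) (h2 : a ≠ c) (h3 : b ≠ c) : c3 a b c = c3 b c a := by
  ext x; simp only [c3_apply, swap_apply_def]; grind

theorem c3_inv {a b c : α} (h1 : a ≠ b) (h2 : a ≠ c) (h3 : b ≠ c) : (c3 a b c)⁻¹ = c3 a c b := by
  rw [inv_eq_iff_mul_eq_one]
  ext x; simp only [Perm.mul_apply, c3_apply, swap_apply_def, Perm.one_apply]; grind

theorem c3_sq {a b c : α} (h1 : a ≠ b) (h2 : a ≠ c) (h3 : b ≠ c) : c3 a b c ^ 2 = c3 a c b := by
  rw [sq]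
  ext x; simp only [Perm.mul_apply, c3_apply, swap_apply_def]; grind

theorem c3_cube {a b c : α} (h1 : a ≠ b) (h2 : a ≠ c) (h3 : b ≠ c) : c3 a b c ^ 3 = 1 := by
  rw [pow_succ', c3_sq h1 h2 h3, ← c3_inv h1 h2 h3, mul_inv_cancel]

theorem fresh (l : List α) (h : l.length < Fintype.card α) : ∃ x, x ∉ l := by
  by_contra! H
  have : Finset.univ ⊆ l.toFinset := fun x _ => List.mem_toFinset.2 (H x)
  have := (Finset.card_le_card this).trans (List.toFinset_card_le l)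
  rw [Finset.card_univ] at this
  omega

theorem gen3 (S : α → Prop) (P : Perm α → Prop) (h1 : P 1) (hm : ∀ x y, P x → P y → P (x * y))
    (h3 : ∀ u v w, u ≠ v → u ≠ w → v ≠ w → ¬ S u → ¬ S v → ¬ S w → P (c3 u v w)) (h : Perm α)
    (hs : sign h = 1) (hS : ∀ s, S s → h s = s) : P h := by
  induction hn : h.support.card using Nat.strong_induction_on generalizing h with
  | _ n ih =>
  by_cases e : h = 1
  · exact e ▸ h1
  obtain ⟨u, hu⟩ : ∃ u, h u ≠ u := by
    by_contra! H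
    exact e (Equiv.ext H)
  have hv : h (h u) ≠ h u := fun e => hu (h.injective e)
  obtain ⟨w, w1, w2, w3⟩ : ∃ w, h w ≠ w ∧ w ≠ u ∧ w ≠ h u := by
    by_contra! H
    have : h.support = {u, h u} := by
      ext x
      simp only [mem_support, Finset.mem_insert, Finset.mem_singleton]
      refine ⟨fun hx => ?_, ?_⟩
      · by_cases e : x = u
        · exact Or.inl e
        · exact Or.inr (H x hx e)
      · rintro (rfl | rfl) <;> assumption
    have := (card_support_eq_two.1 (by rw [this, Finset.card_pair hu.symm])).sign_eq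
    rw [hs] at this
    exact absurd this (by decide)
  have nS : ∀ x, h x ≠ x → ¬ S x := fun x hx s => hx (hS x s)
  have key : h = c3 u (h u) w * ((c3 u (h u) w)⁻¹ * h) := by group
  rw [key]
  refine hm _ _ (h3 _ _ _ hu.symm w2.symm w3.symm (nS _ hu) (nS _ hv) (nS _ w1)) (ih _ ?_ _ ?_ ?_ rfl)
  · rw [← hn]
    refine Finset.card_lt_card ⟨fun x hx => ?_, fun H => ?_⟩
    · rw [mem_support] at hx ⊢
      intro e
      refine hx ?_
      rw [Perm.mul_apply, e, Perm.inv_eq_iff_eq, c3_o] <;> rintro rfl <;> contradiction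
    · have := mem_support.1 (H (mem_support.2 hu))
      rw [Perm.mul_apply, Ne, Perm.inv_eq_iff_eq, c3_1 hu.symm w3.symm] at this
      exact this rfl
  · rw [Perm.sign_mul, sign_inv, sign_c3 hu.symm w2.symm, hs]; rfl
  · intro s hs'
    have := hS s hs'
    rw [Perm.mul_apply, this, Perm.inv_eq_iff_eq, c3_o] <;> rintro rfl <;> contradiction

theorem exists_even {m : ℕ} (f g : Fin m → α) (hf : Function.Injective f) (hg : Function.Injective g)
    (h : m + 2 ≤ Fintype.card α) : ∃ σ : Perm α, sign σ = 1 ∧ ∀ i, σ (f i) = g i := by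
  obtain ⟨σ, hσ⟩ := Perm.exists_extending_pair f g hf hg
  rcases Int.units_eq_one_or (sign σ) with e | e
  · exact ⟨σ, e, hσ⟩
  obtain ⟨x, hx⟩ := fresh (List.ofFn f) (by simp; omega)
  obtain ⟨y, hy⟩ := fresh (x :: List.ofFn f) (by simp; omega)
  simp only [List.mem_cons, List.mem_ofFn, not_or, not_exists] at hx hy
  refine ⟨σ * swap y x, by rw [Perm.sign_mul, sign_swap hy.1, e]; rfl, fun i => ?_⟩
  rw [Perm.mul_apply, swap_apply_of_ne_of_ne (hy.2 i) (hx i), hσ]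

/-- a central extension of the alternating group -/
structure CE (π : G →* Perm α) : Prop where
  surj : ∀ σ, sign σ = 1 → ∃ g, π g = σ
  sgn : ∀ g, sign (π g) = 1
  cen : ∀ z, π z = 1 → ∀ g, Commute z g

variable {π : G →* Perm α}

theorem CE.comm_pow (h : CE π) {g k : G} (e : Commute (π g) (π k)) (m : ℕ) :
    g ^ m * k * (g ^ m)⁻¹ = (g * k * g⁻¹ * k⁻¹) ^ m * k := by
  have hz := h.cen (g * k * g⁻¹ * k⁻¹) (by simp [e.eq])
  generalize hz' : g * k * g⁻¹ * k⁻¹ = z at hz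
  have e1 : g * k * g⁻¹ = z * k := by rw [← hz']; group
  induction m with
  | zero => simp
  | succ m ih =>
    rw [pow_succ' g, mul_inv_rev, show ∀ u v : G, g * u * k * (v * g⁻¹) = g * (u * k * v) * g⁻¹ by
      intros; group, ih, ← mul_assoc, ← ((hz g).pow_left m).eq, mul_assoc (z ^ m), mul_assoc (z ^ m), e1,
      pow_succ, mul_assoc]

theorem CE.comm_pow_eq_one (h : CE π) {g k : G} (e : Commute (π g) (π k)) {m : ℕ} (hm : π g ^ m = 1) :
    (g * k * g⁻¹ * k⁻¹) ^ m = 1 := by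
  have := h.comm_pow e m
  rw [(h.cen (g ^ m) (by rw [map_pow, hm]) k).eq, mul_inv_cancel_right] at this
  simpa using this.symm

theorem CE.comm_of_coprime (h : CE π) {g k : G} (e : Commute (π g) (π k)) {m n : ℕ} (hm : π g ^ m = 1)
    (hn : π k ^ n = 1) (hc : m.Coprime n) : Commute g k := by
  have h1 := h.comm_pow_eq_one e hm
  have h2 := h.comm_pow_eq_one e.symm hn
  rw [show k * g * k⁻¹ * g⁻¹ = (g * k * g⁻¹ * k⁻¹)⁻¹ by group, inv_pow, inv_eq_one] at h2
  have := pow_gcd_eq_one.2 ⟨h1, h2⟩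
  rw [hc, pow_one, mul_inv_eq_one, mul_inv_eq_iff_eq_mul] at this
  exact this

theorem CE.exists_can (h : CE π) {x g : G} {l m : ℕ} (hl : π x ^ l = 1)
    (hg : π g * π x * (π g)⁻¹ = π x ^ (m + 1)) :
    ∃ X, π X = π x ^ m ∧ X ^ l = 1 ∧ g * X * g⁻¹ = X ^ (m + 1) := by
  have hz := h.cen ((x ^ (m + 1))⁻¹ * (g * x * g⁻¹)) (by simp [hg])
  have hz1 : π ((x ^ (m + 1))⁻¹ * (g * x * g⁻¹)) = 1 := by simp [hg]
  generalize hz' : (x ^ (m + 1))⁻¹ * (g * x * g⁻¹) = z at hz hz1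
  have e1 : g * x * g⁻¹ = x ^ (m + 1) * z := by rw [← hz']; group
  have hxl := h.cen (x ^ l) (by rw [map_pow, hl])
  refine ⟨x ^ m * z, by rw [map_mul, hz1, mul_one, map_pow], ?_, ?_⟩
  · have e2 : (g * x * g⁻¹) ^ l = x ^ l := by rw [conj_pow, ← (hxl g).eq, mul_inv_cancel_right]
    rw [e1, (hz _).symm.mul_pow, ← pow_mul, mul_comm (m + 1), pow_mul, pow_succ', mul_assoc,
      mul_eq_left] at e2
    rw [(hz _).symm.mul_pow, ← pow_mul, mul_comm m, pow_mul, e2]
  · rw [show g * (x ^ m * z) * g⁻¹ = g * x ^ m * (z * g⁻¹) by group, (hz _).eq, ← mul_assoc, ← conj_pow, e1,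
      (hz _).symm.mul_pow, (hz _).symm.mul_pow, mul_assoc, ← pow_succ, ← pow_mul, ← pow_mul, mul_comm m]

theorem CE.comm_c3 (h : CE π) (h8 : 8 ≤ Fintype.card α) {a b c u v w : α} (h1 : a ≠ b) (h2 : a ≠ c)
    (h3 : b ≠ c) (h4 : u ≠ v) (h5 : u ≠ w) (h6 : v ≠ w) (hu : u ∉ [a, b, c]) (hv : v ∉ [a, b, c])
    (hw : w ∉ [a, b, c]) {g k : G} (hg : π g = c3 a b c) (hk : π k = c3 u v w) : Commute g k := by
  obtain ⟨m, hm⟩ := fresh [a, b, c, u, v, w] (by simp; omega)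
  obtain ⟨n, hn⟩ := fresh [m, a, b, c, u, v, w] (by simp; omega)
  simp only [List.mem_cons, List.not_mem_nil, or_false, not_or] at hu hv hw hm hn
  have e : Commute (π g) (π k) := by
    rw [hg, hk, Commute, SemiconjBy, ← mul_inv_eq_iff_eq_mul, c3_conj, c3_o, c3_o, c3_o] <;> tauto
  have h7 := h.comm_pow_eq_one e (m := 3) (by rw [hg, c3_cube h1 h2 h3])
  obtain ⟨y, hy⟩ := h.surj (swap b c * swap n m) (by rw [Perm.sign_mul, sign_swap h3, sign_swap hn.1]; rfl)
  have y1 := h.cen (y * g * y⁻¹ * g) (by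
    simp only [map_mul, map_inv, hy, hg, c3_conj]
    rw [mul_eq_one_iff_eq_inv, c3_inv h1 h2 h3]
    congr 1 <;> simp only [Perm.mul_apply, swap_apply_def] <;> grind)
  have y2 := h.cen (y * k * y⁻¹ * k⁻¹) (by
    simp only [map_mul, map_inv, hy, hk, c3_conj]
    rw [mul_inv_eq_one]
    congr 1 <;> simp only [Perm.mul_apply, swap_apply_def] <;> grind)
  have hz := h.cen (g * k * g⁻¹ * k⁻¹) (by simp [e.eq])
  generalize e1 : y * g * y⁻¹ * g = s at y1
  generalize e2 : y * k * y⁻¹ * k⁻¹ = t at y2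
  generalize e3 : g * k * g⁻¹ * k⁻¹ = z at hz h7
  have f1 : y * g * y⁻¹ = s * g⁻¹ := by rw [← e1]; group
  have f2 : y * k * y⁻¹ = t * k := by rw [← e2]; group
  have f3 : g * k = z * k * g := by rw [← e3]; group
  have f4 : (y * g * y⁻¹) * (y * k * y⁻¹) = z * (y * k * y⁻¹) * (y * g * y⁻¹) := by
    calc _ = y * (g * k) * y⁻¹ := by group
      _ = y * z * (k * g * y⁻¹) := by rw [f3]; group
      _ = _ := by rw [← (hz y).eq]; group
  rw [f1, f2] at f4
  have f5 : g⁻¹ * k = z * k * g⁻¹ := by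
    have : s * g⁻¹ * (t * k) = s * t * (g⁻¹ * k) := by
      rw [mul_assoc, ← mul_assoc g⁻¹, ← (y2 g⁻¹).eq]; group
    rw [this, show z * (t * k) * (s * g⁻¹) = z * t * (k * s) * g⁻¹ by group, ← (y1 k).eq, (hz t).eq,
      show t * z * (s * k) * g⁻¹ = t * (z * s) * k * g⁻¹ by group, (hz s).eq, ← mul_assoc t, ← (y1 t).eq,
      mul_assoc (s * t), mul_assoc (s * t), mul_right_inj] at f4
    exact f4
  have f6 : z ^ 2 = 1 := by
    have : k * g = z * z * (k * g) := by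
      calc k * g = g * (g⁻¹ * k) * g := by group
        _ = g * z * k := by rw [f5]; group
        _ = z * (g * k) := by rw [← (hz g).eq]; group
        _ = _ := by rw [f3]; group
    rw [sq]; simpa using this.symm
  have : z = 1 := by rw [pow_succ, f6, one_mul] at h7; exact h7
  rw [this, one_mul] at f3
  exact f3

theorem CE.gen (h : CE π) (S : α → Prop) (Φ : Subgroup G) (h0 : ∀ z, π z = 1 → z ∈ Φ)
    (h3 : ∀ u v w, u ≠ v → u ≠ w → v ≠ w → ¬ S u → ¬ S v → ¬ S w → ∃ k ∈ Φ, π k = c3 u v w) {k : G}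
    (hk : ∀ s, S s → π k s = s) : k ∈ Φ := by
  obtain ⟨k', h1, h2⟩ := gen3 S (fun σ => ∃ k ∈ Φ, π k = σ) ⟨1, one_mem _, map_one _⟩
    (by rintro _ _ ⟨x, hx, rfl⟩ ⟨y, hy, rfl⟩; exact ⟨x * y, mul_mem hx hy, map_mul _ _ _⟩) h3 (π k) (h.sgn k) hk
  simpa using mul_mem h1 (h0 (k'⁻¹ * k) (by simp [h2]))

theorem CE.cent_c3 (h : CE π) (h8 : 8 ≤ Fintype.card α) {a b c : α} (h1 : a ≠ b) (h2 : a ≠ c)
    (h3 : b ≠ c) {g k : G} (hg : π g = c3 a b c) (e : Commute (π g) (π k)) : Commute g k := by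
  have key : ∀ k, Commute (π g) (π k) → π k a = a → Commute g k := fun k e k1 => by
    have k2 : π k b = b := by
      have := congrArg (· a) e.eq
      simpa only [Perm.mul_apply, k1, hg, c3_1 h1 h3, eq_comm] using this
    have k3 : π k c = c := by
      have := congrArg (· b) e.eq
      simpa only [Perm.mul_apply, k2, hg, c3_2, eq_comm] using this
    refine (Subgroup.mem_centralizer_singleton_iff.1 (h.gen (· ∈ [a, b, c]) (Subgroup.centralizer {g})
      (fun z hz => Subgroup.mem_centralizer_singleton_iff.2 (h.cen z hz g))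
      (fun u v w e1 e2 e3 e4 e5 e6 => ?_) (by simp [k1, k2, k3]))).symm
    obtain ⟨k, hk⟩ := h.surj _ (sign_c3 e1 e2)
    exact ⟨k, Subgroup.mem_centralizer_singleton_iff.2
      (h.comm_c3 h8 h1 h2 h3 e1 e2 e3 e4 e5 e6 hg hk).symm, hk⟩
  have h4 : π k a = a ∨ π k a = b ∨ π k a = c := by
    by_contra! H
    have := congrArg (· a) e.eq
    simp only [Perm.mul_apply, hg, c3_o H.1 H.2.1 H.2.2, c3_1 h1 h3] at this
    exact h1 ((π k).injective this)
  rcases h4 with h4 | h4 | h4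
  · exact key k e h4
  · have := key (g⁻¹ * k) (by rw [map_mul, map_inv]; exact (Commute.refl _).inv_right.mul_right e)
      (by rw [map_mul, map_inv, Perm.mul_apply, h4, Perm.inv_eq_iff_eq, hg, c3_1 h1 h3])
    simpa using (Commute.refl g).mul_right this
  · have := key (g * k) (by rw [map_mul]; exact (Commute.refl _).mul_right e)
      (by rw [map_mul, Perm.mul_apply, h4, hg, c3_3 h2 h3])
    simpa using (Commute.refl g).inv_right.mul_right this

/-- canonical lifts of three-cycles -/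
structure TS (π : G →* Perm α) (T : α → α → α → G) : Prop where
  pi : ∀ {a b c}, a ≠ b → a ≠ c → b ≠ c → π (T a b c) = c3 a b c
  cube : ∀ {a b c}, a ≠ b → a ≠ c → b ≠ c → T a b c ^ 3 = 1
  conj : ∀ (g) {a b c}, a ≠ b → a ≠ c → b ≠ c → g * T a b c * g⁻¹ = T (π g a) (π g b) (π g c)
  inv : ∀ {a b c}, a ≠ b → a ≠ c → b ≠ c → T a c b = (T a b c)⁻¹

theorem CE.exists_TS (h : CE π) (h8 : 8 ≤ Fintype.card α) : ∃ T, TS π T := by
  let Can : Perm α → G → Prop := fun x X => π X = x ∧ X ^ 3 = 1 ∧ ∀ y, π y * x * (π y)⁻¹ = x⁻¹ → y * X * y⁻¹ = X⁻¹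
  have hi : ∀ {a b c : α}, a ≠ b → a ≠ c → b ≠ c → ∃ y, π y * c3 a b c * (π y)⁻¹ = (c3 a b c)⁻¹ := by
    intro a b c h1 h2 h3
    obtain ⟨m, hm⟩ := fresh [a, b, c] (by simp; omega)
    obtain ⟨n, hn⟩ := fresh [m, a, b, c] (by simp; omega)
    simp only [List.mem_cons, List.not_mem_nil, or_false, not_or] at hm hn
    obtain ⟨y, hy⟩ := h.surj (swap b c * swap n m) (by rw [Perm.sign_mul, sign_swap h3, sign_swap hn.1]; rfl)
    refine ⟨y, ?_⟩
    rw [hy, c3_conj, c3_inv h1 h2 h3]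
    congr 1 <;> simp only [Perm.mul_apply, swap_apply_def] <;> grind
  have ex : ∀ a b c : α, ∃ X, a ≠ b → a ≠ c → b ≠ c → Can (c3 a b c) X := by
    intro a b c
    by_cases H : a ≠ b ∧ a ≠ c ∧ b ≠ c
    swap
    · exact ⟨1, by tauto⟩
    obtain ⟨h1, h2, h3⟩ := H
    obtain ⟨y, hy⟩ := hi h1 h2 h3
    obtain ⟨x, hx⟩ := h.surj _ (sign_c3 h1 h2)
    obtain ⟨X, x1, x2, x3⟩ := h.exists_can (x := x) (g := y) (l := 3) (m := 1) (by rw [hx, c3_cube h1 h2 h3])
      (by rw [hx, hy, c3_sq h1 h2 h3, c3_inv h1 h2 h3])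
    rw [pow_one, hx] at x1
    refine ⟨X, fun _ _ _ => ⟨x1, x2, fun y' hy' => ?_⟩⟩
    have := h.cent_c3 h8 h1 h2 h3 x1 (k := y⁻¹ * y') (by
      rw [x1, map_mul, map_inv, Commute, SemiconjBy, eq_comm, ← mul_inv_eq_iff_eq_mul,
        show ∀ p q r : Perm α, p⁻¹ * q * r * (p⁻¹ * q)⁻¹ = p⁻¹ * (q * r * q⁻¹) * p by intros; group, hy', ← hy]
      group)
    calc y' * X * y'⁻¹ = y * (y⁻¹ * y' * X) * y'⁻¹ := by group
      _ = y * X * y⁻¹ := by rw [← this.eq]; group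
      _ = X⁻¹ := by rw [x3, eq_inv_iff_mul_eq_one, ← pow_succ, x2]
  have un : ∀ {a b c : α}, a ≠ b → a ≠ c → b ≠ c → ∀ X Y, Can (c3 a b c) X → Can (c3 a b c) Y → X = Y := by
    intro a b c h1 h2 h3 X Y hX hY
    obtain ⟨y, hy⟩ := hi h1 h2 h3
    have hz := h.cen (X * Y⁻¹) (by simp [hX.1, hY.1])
    obtain ⟨z, rfl⟩ : ∃ z, X = z * Y := ⟨X * Y⁻¹, by group⟩
    rw [mul_inv_cancel_right] at hz
    have e1 := hX.2.1
    rw [(hz _).mul_pow, hY.2.1, mul_one] at e1
    have e2 := hX.2.2 y hy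
    rw [← mul_assoc, ← (hz y).eq, mul_assoc z, mul_assoc z, hY.2.2 y hy, (hz _).eq, mul_inv_rev, mul_right_inj,
      eq_inv_iff_mul_eq_one] at e2
    rw [pow_succ, sq, e2, one_mul] at e1
    rw [e1, one_mul]
  choose T hT using ex
  refine ⟨T, fun h1 h2 h3 => (hT _ _ _ h1 h2 h3).1, fun h1 h2 h3 => (hT _ _ _ h1 h2 h3).2.1,
    fun g a b c h1 h2 h3 => ?_, fun {a b c} h1 h2 h3 => ?_⟩
  · have i := (π g).injective
    obtain ⟨x1, x2, x3⟩ := hT _ _ _ h1 h2 h3
    refine un (i.ne h1) (i.ne h2) (i.ne h3) _ _ ⟨by simp [x1, c3_conj], by rw [conj_pow, x2]; simp,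
      fun y hy => ?_⟩ (hT _ _ _ (i.ne h1) (i.ne h2) (i.ne h3))
    have := x3 (g⁻¹ * y * g) (by
      rw [← c3_conj] at hy
      simp only [map_mul, map_inv]
      calc _ = (π g)⁻¹ * (π y * (π g * c3 a b c * (π g)⁻¹) * (π y)⁻¹) * π g := by group
        _ = _ := by rw [hy]; group)
    calc _ = g * (g⁻¹ * y * g * T a b c * (g⁻¹ * y * g)⁻¹) * g⁻¹ := by group
      _ = _ := by rw [this]; group
  · obtain ⟨x1, x2, x3⟩ := hT _ _ _ h1 h2 h3
    refine un h2 h1 h3.symm _ _ (hT _ _ _ h2 h1 h3.symm) ⟨by rw [map_inv, x1, c3_inv h1 h2 h3],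
      by rw [inv_pow, x2, inv_one], fun y hy => ?_⟩
    rw [← c3_inv h1 h2 h3] at hy
    have := x3 y (by rw [← inv_inj, ← hy]; group)
    rw [← congrArg (·⁻¹) this]; group

variable {T : α → α → α → G}

theorem TS.rot (t : TS π T) {a b c : α} (h1 : a ≠ b) (h2 : a ≠ c) (h3 : b ≠ c) : T a b c = T b c a := by
  have := t.conj (T a b c) h1 h2 h3
  rwa [mul_inv_cancel_right, t.pi h1 h2 h3, c3_1 h1 h3, c3_2, c3_3 h2 h3] at this

theorem TS.conj' (t : TS π T) (g : G) {a b c : α} (h1 : a ≠ b) (h2 : a ≠ c) (h3 : b ≠ c) :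
    g * T a b c = T (π g a) (π g b) (π g c) * g := by
  rw [← t.conj g h1 h2 h3, inv_mul_cancel_right]

theorem TS.comm (t : TS π T) {g : G} {a b c : α} (h1 : a ≠ b) (h2 : a ≠ c) (h3 : b ≠ c) (ha : π g a = a)
    (hb : π g b = b) (hc : π g c = c) : Commute g (T a b c) := by
  have := t.conj' g h1 h2 h3
  rwa [ha, hb, hc] at this

theorem TS.sq (t : TS π T) {a b c : α} (h1 : a ≠ b) (h2 : a ≠ c) (h3 : b ≠ c) : T a c b = T a b c ^ 2 := by
  rw [t.inv h1 h2 h3, inv_eq_iff_mul_eq_one, ← pow_succ', t.cube h1 h2 h3]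

theorem exists_res {β : Type*} [Fintype β] [DecidableEq β] (h : CE π) (e : β ↪ α) :
    ∃ (H : Subgroup G) (π' : H →* Perm β), CE π' ∧ (∀ g : H, ∀ x, π g (e x) = e (π' g x)) ∧
      (∀ g, g ∈ H ↔ ∀ x, x ∉ Set.range e → π g x = x) := by
  let ι := viaEmbeddingHom e
  have hι := viaEmbeddingHom_injective e
  have hs : ∀ s, sign (ι s) = sign s := fun s => by
    classical
    convert @Equiv.Perm.sign_extendDomain _ _ _ _ _ _ s _ (_) _
    rfl
  let π' := (MonoidHom.ofInjective hι).symm.toMonoidHom.comp (π.subgroupComap ι.range)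
  have key : ∀ g, ι (π' g) = π g := fun g =>
    congrArg Subtype.val ((MonoidHom.ofInjective hι).apply_symm_apply (π.subgroupComap ι.range g))
  refine ⟨ι.range.comap π, π', ⟨fun σ hσ => ?_, fun g => by rw [← hs, key, h.sgn], fun z hz g => ?_⟩,
    fun g x => ?_, fun g => ⟨fun hg x hx => ?_, fun hg => h.gen (· ∉ Set.range e) (ι.range.comap π)
      (fun z hz => ⟨1, by rw [map_one, hz]⟩) (fun u v w h1 h2 h3 h4 h5 h6 => ?_) hg⟩⟩
  · obtain ⟨g, hg⟩ := h.surj (ι σ) (by rw [hs, hσ])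
    exact ⟨⟨g, σ, hg.symm⟩, hι ((key _).trans hg)⟩
  · exact Subtype.ext (h.cen z (by rw [← key, hz, map_one]) g)
  · rw [← key]; exact viaEmbedding_apply _ _ _
  · rw [← key ⟨g, hg⟩]; exact viaEmbedding_apply_of_notMem _ _ _ hx
  · obtain ⟨u, rfl⟩ := not_not.1 h4
    obtain ⟨v, rfl⟩ := not_not.1 h5
    obtain ⟨w, rfl⟩ := not_not.1 h6
    obtain ⟨k, hk⟩ := h.surj _ (sign_c3 h1 h2)
    refine ⟨k, ⟨c3 u v w, ?_⟩, hk⟩
    rw [hk]
    ext x
    by_cases hx : x ∈ Set.range e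
    · obtain ⟨x, rfl⟩ := hx
      refine (viaEmbedding_apply _ _ _).trans ?_
      simp only [c3_apply, e.injective.swap_apply]
    · refine (viaEmbedding_apply_of_notMem _ _ _ hx).trans (c3_o ?_ ?_ ?_).symm <;> rintro rfl <;>
        exact hx ⟨_, rfl⟩

theorem CE.exists_lift {β : Type*} [Fintype β] [DecidableEq β] (h : CE π) (e : β ↪ α) (σ : Perm β)
    (hσ : sign σ = 1) : ∃ g, (∀ x, π g (e x) = e (σ x)) ∧ ∀ x, x ∉ Set.range e → π g x = x := by
  obtain ⟨H, π', h1, h2, h3⟩ := exists_res h e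
  obtain ⟨g, rfl⟩ := h1.surj σ hσ
  exact ⟨g, h2 g, (h3 g).1 g.2⟩

theorem exists_emb {m : ℕ} (h : m ≤ Fintype.card α) : Nonempty (Fin m ↪ α) :=
  Function.Embedding.nonempty_of_card_le (by simpa using h)

end Cfsg.Agent.H23.Wg
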