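import Mathlib
import Cfsg.Agent.H23.Wg1

/-! Projective representations of alternating groups: linear algebra. -/

set_option autoImplicit false
set_option linter.unusedSectionVars false
set_option linter.unusedVariables false

namespace Cfsg.Agent.H23.Wg

open Equiv Equiv.Perm Module

section LA

variable {k V : Type*} [Field k] [AddCommGroup V] [Module k V] [FiniteDimensional k V]

theorem sum_le_of_wt {ι β : Type*} [Fintype β] (X : ι → End k V) (f : β → ι → k) (hf : Function.Injective f)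
    (U : β → Submodule k V) (h : ∀ b, ∀ v ∈ U b, ∀ i, X i v = f b i • v) :
    ∑ b, finrank k (U b) ≤ finrank k V := by
  classical
  have key : ∀ (s : Finset β) (v : β → V), (∀ b ∈ s, v b ∈ U b) → ∑ b ∈ s, v b = 0 → ∀ b ∈ s, v b = 0 := by
    intro s
    induction s using Finset.induction_on with
    | empty => simp
    | insert b s hb ih =>
      intro v h1 h2
      rw [Finset.sum_insert hb] at h2
      have h3 : ∀ j ∈ s, v j = 0 := fun j hj => by
        obtain ⟨i, hi⟩ := Function.ne_iff.1 (hf.ne (show j ≠ b by rintro rfl; exact hb hj))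
        have := ih (fun c => (f c i - f b i) • v c)
          (fun c hc => (U c).smul_mem _ (h1 c (Finset.mem_insert_of_mem hc))) (by
            have e := congrArg (X i) h2
            rw [map_add, map_sum, map_zero, h b _ (h1 b (Finset.mem_insert_self _ _)),
              Finset.sum_congr rfl fun c hc => h c _ (h1 c (Finset.mem_insert_of_mem hc)) i] at e
            simp only [sub_smul, Finset.sum_sub_distrib, ← Finset.smul_sum]
            rw [eq_neg_of_add_eq_zero_right e, eq_neg_of_add_eq_zero_right h2]; simp) j hj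
        exact (smul_eq_zero.1 this).resolve_left (sub_ne_zero.2 hi)
      intro j hj
      rcases Finset.mem_insert.1 hj with rfl | hj
      · rwa [Finset.sum_eq_zero h3, add_zero] at h2
      · exact h3 j hj
  rw [← finrank_pi_fintype]
  refine LinearMap.finrank_le_finrank_of_injective
    (f := ∑ b, (U b).subtype ∘ₗ LinearMap.proj (φ := fun b => U b) b) ((injective_iff_map_eq_zero _).2 fun x hx => ?_)
  funext b
  exact Subtype.ext (key Finset.univ (fun b => x b) (fun b _ => (x b).2) (by simpa using hx) b (Finset.mem_univ _))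

theorem card_le_of_wt {ι β : Type*} [Fintype β] (X : ι → End k V) (f : β → ι → k) (hf : Function.Injective f)
    (h : ∀ b, ∃ v ≠ 0, ∀ i, X i v = f b i • v) : Fintype.card β ≤ finrank k V := by
  choose v h1 h2 using h
  have := sum_le_of_wt X f hf (fun b => k ∙ v b) fun b w hw i => by
    obtain ⟨c, rfl⟩ := Submodule.mem_span_singleton.1 hw
    rw [map_smul, h2, smul_comm]
  simpa [finrank_span_singleton (h1 _)] using this

theorem finrank_le_of_map {U W : Submodule k V} (X : End k V) (hX : Function.Injective X)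
    (h : ∀ v ∈ U, X v ∈ W) : finrank k U ≤ finrank k W :=
  LinearMap.finrank_le_finrank_of_injective (f := X.restrict h) fun a b e =>
    Subtype.ext (hX (congrArg Subtype.val e))

variable [IsAlgClosed k]

theorem exists_eig {U : Submodule k V} (hU : U ≠ ⊥) {X : End k V} (hX : ∀ u ∈ U, X u ∈ U) :
    ∃ c : k, ∃ v ∈ U, v ≠ 0 ∧ X v = c • v := by
  have := Submodule.nontrivial_iff_ne_bot.2 hU
  obtain ⟨c, hc⟩ := End.exists_eigenvalue (X.restrict hX)
  obtain ⟨v, hv⟩ := hc.exists_hasEigenvector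
  exact ⟨c, v, v.2, fun e => hv.2 (Subtype.ext e), congrArg Subtype.val hv.apply_eq_smul⟩

omit [IsAlgClosed k] [FiniteDimensional k V] in
theorem pow_apply_eig {X : End k V} {c : k} {v : V} (h : X v = c • v) (m : ℕ) : (X ^ m) v = c ^ m • v := by
  induction m with
  | zero => simp
  | succ m ih => rw [pow_succ', End.mul_apply, ih, map_smul, h, smul_smul, pow_succ]

omit [IsAlgClosed k] [FiniteDimensional k V] in
theorem eig_pow {X : End k V} {c : k} {v : V} (h : X v = c • v) (hv : v ≠ 0) {m : ℕ} (hm : X ^ m = 1) :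
    c ^ m = 1 := by
  have := pow_apply_eig h m
  rw [hm, End.one_apply] at this
  exact smul_left_injective k hv (this.symm.trans (one_smul k v).symm)

theorem exists_eig_ne {U : Submodule k V} {X : End k V} (hX : ∀ u ∈ U, X u ∈ U) {m : ℕ} (hm : (m : k) ≠ 0)
    (h : X ^ m = 1) (hn : ∃ v ∈ U, X v ≠ v) : ∃ c : k, c ≠ 1 ∧ c ^ m = 1 ∧ ∃ v ∈ U, v ≠ 0 ∧ X v = c • v := by
  obtain ⟨c, v, ⟨u, hu, rfl⟩, h1, h2⟩ := exists_eig (U := U.map (X - 1)) (X := X) (by
    obtain ⟨v, h1, h2⟩ := hn
    exact (Submodule.ne_bot_iff _).2 ⟨_, ⟨v, h1, rfl⟩, sub_ne_zero.2 h2⟩) (by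
    rintro _ ⟨u, hu, rfl⟩
    exact ⟨X u, hX u hu, by simp⟩)
  refine ⟨c, ?_, eig_pow h2 h1 h, _, U.sub_mem (hX u hu) hu, h1, h2⟩
  rintro rfl
  have e : (∑ i ∈ Finset.range m, X ^ i) ((X - 1) u) = 0 := by
    rw [← End.mul_apply, geom_sum_mul, h, sub_self, LinearMap.zero_apply]
  simp only [LinearMap.coe_sum, Finset.sum_apply, pow_apply_eig h2, one_pow, one_smul, Finset.sum_const,
    Finset.card_range] at e
  rw [← Nat.cast_smul_eq_nsmul k] at e
  exact h1 ((smul_eq_zero.1 e).resolve_left hm)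

theorem exists_joint {ι : Type*} [Fintype ι] {U : Submodule k V} (hU : U ≠ ⊥) (X : ι → End k V)
    (hc : ∀ i j, Commute (X i) (X j)) (hX : ∀ i, ∀ u ∈ U, X i u ∈ U) :
    ∃ c : ι → k, ∃ v ∈ U, v ≠ 0 ∧ ∀ i, X i v = c i • v := by
  classical
  suffices h : ∀ s : Finset ι, ∃ c : ι → k, ∃ v ∈ U, v ≠ 0 ∧ ∀ i ∈ s, X i v = c i • v by
    obtain ⟨c, v, h1, h2, h3⟩ := h Finset.univ
    exact ⟨c, v, h1, h2, fun i => h3 i (Finset.mem_univ _)⟩
  intro s
  induction s using Finset.induction_on with
  | empty =>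
    obtain ⟨v, h1, h2⟩ := (Submodule.ne_bot_iff _).1 hU
    exact ⟨0, v, h1, h2, by simp⟩
  | insert j s hj ih =>
    obtain ⟨c, v, h1, h2, h3⟩ := ih
    obtain ⟨d, w, w1, w2, w3⟩ := exists_eig (U := U ⊓ ⨅ i ∈ s, (X i).eigenspace (c i)) (X := X j)
      ((Submodule.ne_bot_iff _).2 ⟨v, ⟨h1, by simpa using h3⟩, h2⟩) (by
        simp only [Submodule.mem_inf, Submodule.mem_iInf, End.mem_eigenspace_iff]
        exact fun u hu => ⟨hX j u hu.1, fun i hi => by
          rw [← End.mul_apply, (hc i j).eq, End.mul_apply, hu.2 i hi, map_smul]⟩)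
    simp only [Submodule.mem_inf, Submodule.mem_iInf, End.mem_eigenspace_iff] at w1
    refine ⟨Function.update c j d, w, w1.1, w2, fun i hi => ?_⟩
    rcases Finset.mem_insert.1 hi with rfl | hi'
    · simpa using w3
    · rw [Function.update_of_ne (by rintro rfl; exact hj hi'), w1.2 i hi']

theorem two_pow_le [Nontrivial V] {m : ℕ} (g e : Fin m → End k V) (a b : k) (hc : ∀ i j, Commute (g i) (g j))
    (he : ∀ i, Function.Injective (e i)) (h1 : ∀ i j, i ≠ j → Commute (g i) (e j))
    (h2 : ∀ i, g i * e i = e i * (a • g i + b • 1))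
    (h3 : ∀ i c v, v ≠ 0 → g i v = c • v → a * c + b ≠ c) : 2 ^ m ≤ finrank k V := by
  obtain ⟨c, v, -, v1, v2⟩ := exists_joint (U := ⊤) top_ne_bot g hc (by simp)
  have := card_le_of_wt g (fun (s : Finset (Fin m)) i => if i ∈ s then a * c i + b else c i) (fun s t e => by
    ext i
    have := congrFun e i
    have h4 := h3 i _ v v1 (v2 i)
    by_cases hs : i ∈ s <;> by_cases ht : i ∈ t <;> simp only [hs, ht, if_true, if_false] at this ⊢
    exacts [absurd this h4, absurd this.symm h4]) (fun s => by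
    induction s using Finset.induction_on with
    | empty => exact ⟨v, v1, by simpa using v2⟩
    | insert j s hj ih =>
      obtain ⟨w, w1, w2⟩ := ih
      refine ⟨e j w, fun e0 => w1 (he j (e0.trans (map_zero _).symm)), fun i => ?_⟩
      by_cases hi : i = j
      · subst hi
        have := w2 i
        rw [if_neg hj] at this
        rw [← End.mul_apply, h2, End.mul_apply, if_pos (Finset.mem_insert_self _ _), ← map_smul]
        simp [this, add_smul, smul_smul]
      · rw [← End.mul_apply, (h1 i j hi).eq, End.mul_apply, w2, map_smul]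
        simp [hi])
  simpa using this

end LA

section Rep

variable {α : Type*} [Fintype α] [DecidableEq α] {G : Type*} [Group G] {π : G →* Perm α}
  {k V : Type*} [Field k] [AddCommGroup V] [Module k V] [FiniteDimensional k V] {ρ : G →* End k V}

/-- the kernel acts by scalars -/
def SC (π : G →* Perm α) (ρ : G →* End k V) : Prop := ∀ z, π z = 1 → ∃ c : k, ∀ v, ρ z v = c • v

/-- not everything acts by scalars -/
def NT (ρ : G →* End k V) : Prop := ∃ g, ¬ ∃ c : k, ∀ v, ρ g v = c • v

theorem r_inv (ρ : G →* End k V) (g : G) (v : V) : ρ g⁻¹ (ρ g v) = v := by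
  rw [← End.mul_apply, ← map_mul, inv_mul_cancel, map_one, End.one_apply]

theorem r_inv' (ρ : G →* End k V) (g : G) (v : V) : ρ g (ρ g⁻¹ v) = v := by
  rw [← End.mul_apply, ← map_mul, mul_inv_cancel, map_one, End.one_apply]

theorem r_inj (ρ : G →* End k V) (g : G) : Function.Injective (ρ g) :=
  Function.LeftInverse.injective (r_inv ρ g)

theorem r_ne (ρ : G →* End k V) (g : G) {v : V} (hv : v ≠ 0) : ρ g v ≠ 0 :=
  fun e => hv (r_inj ρ g (e.trans (map_zero _).symm))

theorem r_mul (ρ : G →* End k V) (g h : G) (v : V) : ρ (g * h) v = ρ g (ρ h v) := by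
  rw [map_mul, End.mul_apply]

theorem r_comm {g h : G} (e : Commute g h) (v : V) : ρ g (ρ h v) = ρ h (ρ g v) := by
  rw [← r_mul, e.eq, r_mul]

/-- the elements stabilising every line of a subspace -/
def scal (ρ : G →* End k V) (U : Submodule k V) : Subgroup G where
  carrier := {g | ∃ c : k, ∀ v ∈ U, ρ g v = c • v}
  one_mem' := ⟨1, by simp⟩
  mul_mem' := by
    rintro a b ⟨c, hc⟩ ⟨d, hd⟩
    exact ⟨d * c, fun v hv => by rw [r_mul, hd v hv, map_smul, hc v hv, smul_smul]⟩
  inv_mem' := by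
    rintro a ⟨c, hc⟩
    refine ⟨c⁻¹, fun v hv => ?_⟩
    by_cases h : c = 0
    · have := hc v hv
      rw [h, zero_smul] at this
      rw [show v = 0 by by_contra h'; exact r_ne ρ a h' this]; simp
    · apply r_inj ρ a
      rw [r_inv', map_smul, hc v hv, smul_smul, inv_mul_cancel₀ h, one_smul]

/-- the elements fixing a set of vectors -/
def fixs (ρ : G →* End k V) (S : Set V) : Subgroup G where
  carrier := {g | ∀ v ∈ S, ρ g v = v}
  one_mem' := by simp
  mul_mem' := fun {a b} ha hb v hv => by rw [r_mul, hb v hv, ha v hv]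
  inv_mem' := fun {a} ha v hv => by
    conv_lhs => rw [← ha v hv]
    exact r_inv ρ a v

theorem NT.ne (hn : NT ρ) (h : CE π) (hs : SC π ρ) (h5 : 5 ≤ Fintype.card α) {g : G} (hg : π g ≠ 1) :
    ¬ ∃ c : k, ∀ v, ρ g v = c • v := by
  intro hc
  have := alternatingGroup.isSimpleGroup (α := α) (by simpa using h5)
  let π' := π.codRestrict (alternatingGroup α) fun g => mem_alternatingGroup.2 (h.sgn g)
  have hπ : Function.Surjective π' := fun σ => by
    obtain ⟨g, hg⟩ := h.surj σ (mem_alternatingGroup.1 σ.2)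
    exact ⟨g, Subtype.ext hg⟩
  have hN : (scal ρ ⊤).Normal := ⟨by
    rintro a ⟨c, hc⟩ b
    exact ⟨c, fun v _ => by rw [r_mul, r_mul, hc _ trivial, map_smul, r_inv']⟩⟩
  rcases (hN.map π' hπ).eq_bot_or_eq_top with e | e
  · have : π' g ∈ (scal ρ ⊤).map π' := ⟨g, by simpa [scal] using hc, rfl⟩
    rw [e, Subgroup.mem_bot] at this
    exact hg (congrArg Subtype.val this)
  · obtain ⟨x, hx⟩ := hn
    obtain ⟨y, h1, h2⟩ : π' x ∈ (scal ρ ⊤).map π' := e ▸ Subgroup.mem_top _
    have h3 : y⁻¹ * x ∈ scal ρ ⊤ := by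
      simpa [scal] using hs (y⁻¹ * x) (by
        rw [map_mul, map_inv, show π y = π x from congrArg Subtype.val h2, inv_mul_cancel])
    exact hx (by simpa [scal] using mul_mem h1 h3)

end Rep

universe u v

/-- lower bound for the degrees of non-trivial projective representations -/
def Low (k : Type*) [Field k] (β : Type*) [Fintype β] [DecidableEq β] (B : ℕ) : Prop :=
  ∀ (G : Type u) [Group G] (π : G →* Perm β) (V : Type v) [AddCommGroup V] [Module k V] [FiniteDimensional k V]
    (ρ : G →* End k V), CE π → SC π ρ → NT ρ → B ≤ finrank k V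

section Rep2

variable {α : Type*} [Fintype α] [DecidableEq α] {G : Type u} [Group G] {π : G →* Perm α}
  {k : Type*} {V : Type v} [Field k] [AddCommGroup V] [Module k V] [FiniteDimensional k V] {ρ : G →* End k V}

theorem Low.use {β : Type*} [Fintype β] [DecidableEq β] {B : ℕ} (hL : Low.{u, v} k β B) (h : CE π)
    (hs : SC π ρ) (e : β ↪ α) (U : Submodule k V)
    (hU : ∀ g, (∀ x, x ∉ Set.range e → π g x = x) → ∀ v ∈ U, ρ g v ∈ U) {g : G}
    (hg : ∀ x, x ∉ Set.range e → π g x = x) (hn : g ∉ scal ρ U) : B ≤ finrank k U := by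
  obtain ⟨H, π', h1, h2, h3⟩ := exists_res h e
  refine hL H π' U (Representation.subrepresentation (ρ.comp H.subtype) U fun g v hv =>
    hU g ((h3 g).1 g.2) v hv) h1 (fun z hz => ?_) ⟨⟨g, (h3 g).2 hg⟩, fun ⟨c, hc⟩ =>
      hn ⟨c, fun v hv => congrArg Subtype.val (hc ⟨v, hv⟩)⟩⟩
  obtain ⟨c, hc⟩ := hs z (Equiv.ext fun x => by
    by_cases hx : x ∈ Set.range e
    · obtain ⟨x, rfl⟩ := hx
      rw [h2, hz]; rfl
    · exact (h3 z).1 z.2 x hx)
  exact ⟨c, fun v => Subtype.ext (hc v)⟩

theorem Low.use' (s : Finset α) {B : ℕ} (hL : Low.{u, v} k {x // x ∉ s} B) (h : CE π)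
    (hs : SC π ρ) (U : Submodule k V) (hU : ∀ g, (∀ x ∈ s, π g x = x) → ∀ v ∈ U, ρ g v ∈ U) {g : G}
    (hg : ∀ x ∈ s, π g x = x) (hn : g ∉ scal ρ U) : B ≤ finrank k U :=
  hL.use h hs (Function.Embedding.subtype _) U (fun g hg => hU g (by simpa using hg)) (by simpa using hg) hn

theorem Low.emb {β : Type*} [Fintype β] [DecidableEq β] {B : ℕ} (hL : Low.{u, v} k β B) (e : β ↪ α)
    (h5 : 5 ≤ Fintype.card β) : Low.{u, v} k α B := by
  intro G _ π V _ _ _ ρ h hs hn
  obtain ⟨a, ha⟩ := fresh ([] : List β) (by simp; omega)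
  obtain ⟨b, hb⟩ := fresh [a] (by simp; omega)
  obtain ⟨c, hc⟩ := fresh [a, b] (by simp; omega)
  simp only [List.mem_cons, List.not_mem_nil, or_false, not_or] at hb hc
  obtain ⟨g, g1, g2⟩ := h.exists_lift e (c3 a b c) (sign_c3 (Ne.symm hb) (Ne.symm hc.1))
  rw [← finrank_top]
  refine hL.use h hs e ⊤ (by simp) g2 fun hg => hn.ne h hs
    (h5.trans (Fintype.card_le_of_embedding e)) (g := g) (fun e1 => ?_) (by simpa [scal] using hg)
  have := g1 a
  rw [e1, c3_1 (Ne.symm hb) (Ne.symm hc.2)] at this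
  exact hb (e.injective this).symm

theorem card_compl (s : Finset α) : Fintype.card {x // x ∉ s} = Fintype.card α - s.card := by
  rw [Fintype.card_subtype_compl]; simp

end Rep2

end Cfsg.Agent.H23.Wg
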