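import Mathlib
import Cfsg.Agent.H23.Wg2

/-! Projective representations of alternating groups with a system of root lines. -/

set_option autoImplicit false
set_option linter.unusedSectionVars false
set_option linter.unusedVariables false

namespace Cfsg.Agent.H23.Wg

open Equiv Equiv.Perm Module

variable {α : Type*} [Fintype α] [DecidableEq α] {G : Type*} [Group G] {π : G →* Perm α}
  {k V : Type*} [Field k] [AddCommGroup V] [Module k V] [FiniteDimensional k V] {ρ : G →* End k V}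
  {T : α → α → α → G} {ℓ : α → α → Submodule k V}

theorem line_smul {L : Submodule k V} (h : finrank k L = 1) {v w : V} (hv : v ∈ L) (h0 : v ≠ 0) (hw : w ∈ L) :
    ∃ c : k, w = c • v := by
  rw [eq_span_singleton_of_mem_of_finrank_eq_one h hv h0] at hw
  obtain ⟨c, rfl⟩ := Submodule.mem_span_singleton.1 hw
  exact ⟨c, rfl⟩

theorem line_eq {L M : Submodule k V} (h : finrank k L = 1) (h' : finrank k M = 1) {v : V} (hv : v ∈ L)
    (hw : v ∈ M) (h0 : v ≠ 0) : L = M := by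
  rw [eq_span_singleton_of_mem_of_finrank_eq_one h hv h0, eq_span_singleton_of_mem_of_finrank_eq_one h' hw h0]

theorem line_ex {L : Submodule k V} (h : finrank k L = 1) : ∃ v ∈ L, v ≠ 0 :=
  (Submodule.ne_bot_iff _).1 (by rintro rfl; simp at h)

theorem TS.r (t : TS π T) (g : G) {a b c : α} (h1 : a ≠ b) (h2 : a ≠ c) (h3 : b ≠ c) (v : V) :
    ρ g (ρ (T a b c) v) = ρ (T (π g a) (π g b) (π g c)) (ρ g v) := by
  rw [← r_mul, t.conj' g h1 h2 h3, r_mul]

theorem TS.eig_one (t : TS π T) {a b c : α} (h1 : a ≠ b) (h2 : a ≠ c) (h3 : b ≠ c) {v : V} {l m : k} {y : G}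
    (y1 : π y a = a) (y2 : π y b = c) (y3 : π y c = b) (hl : ρ (T a b c) v = l • v) (hm : ρ y v = m • v) :
    ρ (T a b c) v = v := by
  by_cases h0 : v = 0
  · simp [h0]
  have e1 := t.r (ρ := ρ) y h1 h2 h3 v
  rw [y1, y2, y3, t.sq h1 h2 h3, map_pow, hm, hl, map_smul, map_smul, hm, pow_apply_eig hl, smul_smul,
    smul_smul] at e1
  have e2 := smul_left_injective k h0 e1
  have e3 := eig_pow hl h0 (m := 3) (by rw [← map_pow, t.cube h1 h2 h3, map_one])
  have e4 : m ≠ 0 := by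
    rintro rfl
    exact r_ne ρ y h0 (by rw [hm, zero_smul])
  have e5 : l = 1 := by
    have : l = l ^ 2 := mul_left_cancel₀ e4 (by rw [mul_comm]; exact e2)
    grind
  rw [hl, e5, one_smul]

theorem CE.exists_inv (h : CE π) (l : List α) (hl : l.length + 5 ≤ Fintype.card α) {x y z : α} (h1 : x ≠ y)
    (h2 : x ≠ z) (h3 : y ≠ z) :
    ∃ g, π g x = x ∧ π g y = z ∧ π g z = y ∧ ∀ a ∈ l, a ≠ y → a ≠ z → π g a = a := by
  obtain ⟨m, hm⟩ := fresh (x :: y :: z :: l) (by simp; omega)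
  obtain ⟨n, hn⟩ := fresh (m :: x :: y :: z :: l) (by simp; omega)
  simp only [List.mem_cons, not_or] at hm hn
  obtain ⟨g, hg⟩ := h.surj (swap y z * swap n m) (by rw [Perm.sign_mul, sign_swap h3, sign_swap hn.1]; rfl)
  refine ⟨g, ?_, ?_, ?_, fun a ha _ _ => ?_⟩ <;> simp only [hg, Perm.mul_apply, swap_apply_def] <;> grind

/-- a system of root lines -/
structure LN (π : G →* Perm α) (ρ : G →* End k V) (ℓ : α → α → Submodule k V) : Prop where
  one : ∀ {a b}, a ≠ b → finrank k (ℓ a b) = 1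
  symm : ∀ {a b}, a ≠ b → ℓ a b = ℓ b a
  eqv : ∀ (g) {a b}, a ≠ b → ∀ v ∈ ℓ a b, ρ g v ∈ ℓ (π g a) (π g b)

theorem LN.fix (L : LN π ρ ℓ) (h : CE π) (t : TS π T) (h9 : 9 ≤ Fintype.card α) {a b x y z : α} (hab : a ≠ b)
    (h1 : x ≠ y) (h2 : x ≠ z) (h3 : y ≠ z) (ha : a ∉ [x, y, z]) (hb : b ∉ [x, y, z]) {v : V} (hv : v ∈ ℓ a b) :
    ρ (T x y z) v = v := by
  by_cases h0 : v = 0
  · simp [h0]
  simp only [List.mem_cons, List.not_mem_nil, or_false, not_or] at ha hb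
  obtain ⟨g, g1, g2, g3, g4⟩ := h.exists_inv [a, b] (by simp; omega) h1 h2 h3
  have e1 := L.eqv g hab v hv
  rw [g4 a (by simp) ha.2.1 ha.2.2, g4 b (by simp) hb.2.1 hb.2.2] at e1
  have e2 := L.eqv (T x y z) hab v hv
  rw [t.pi h1 h2 h3, c3_o ha.1 ha.2.1 ha.2.2, c3_o hb.1 hb.2.1 hb.2.2] at e2
  obtain ⟨m, hm⟩ := line_smul (L.one hab) hv h0 e1
  obtain ⟨l, hl⟩ := line_smul (L.one hab) hv h0 e2
  exact t.eig_one h1 h2 h3 g1 g2 g3 hl hm

theorem LN.bound (L : LN π ρ ℓ) (h : CE π) (t : TS π T) (h9 : 9 ≤ Fintype.card α)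
    (hne : ∀ {a b c}, a ≠ b → a ≠ c → b ≠ c → ℓ a b ≠ ℓ a c)
    (htri : ∀ {a b c}, a ≠ b → a ≠ c → b ≠ c → ℓ b c ≤ ℓ a b ⊔ ℓ a c) :
    Fintype.card α - 2 ≤ finrank k V ∧ ((Fintype.card α : k) ≠ 0 → Fintype.card α - 1 ≤ finrank k V) := by
  obtain ⟨o, -⟩ := fresh ([] : List α) (by simp; omega)
  have ib : ∀ {a b c : α} {u : V}, a ≠ b → a ≠ c → b ≠ c → u ∈ ℓ a b → u ∈ ℓ a c → u = 0 :=
    fun h1 h2 h3 u1 u2 => by_contra fun h0 => hne h1 h2 h3 (line_eq (L.one h1) (L.one h2) u1 u2 h0)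
  have c1 : ∀ {a b c : α} {u : V}, a ≠ o → b ≠ o → c ≠ o → b ≠ a → b ≠ c → u ∈ ℓ o b → u ∈ ℓ o a ⊔ ℓ o c →
      u = 0 := by
    intro a b c u h1 h2 h3 h4 h5 u1 u2
    obtain ⟨x, hx⟩ := fresh [o, a, b, c] (by simp; omega)
    obtain ⟨y, hy⟩ := fresh [x, o, a, b, c] (by simp; omega)
    simp only [List.mem_cons, List.not_mem_nil, or_false, not_or] at hx hy
    have e1 := L.eqv (T b x y) h2.symm u u1
    rw [t.pi (by grind) (by grind) (by grind), c3_o (by grind) (by grind) (by grind),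
      c3_1 (by grind) (by grind)] at e1
    obtain ⟨p, hp, q, hq, rfl⟩ := Submodule.mem_sup.1 u2
    rw [map_add, L.fix h t h9 h1.symm (by grind) (by grind) (by grind) (by simp; grind) (by simp; grind) hp,
      L.fix h t h9 h3.symm (by grind) (by grind) (by grind) (by simp; grind) (by simp; grind) hq] at e1
    exact ib h2.symm (by grind) (by grind) u1 e1
  let S := Finset.univ.erase o
  have hS : ∀ {x}, x ∈ S ↔ x ≠ o := by simp [S]
  have cS : S.card = Fintype.card α - 1 := by simp [S]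
  have dif : ∀ (v : α → V), (∀ j, j ≠ o → v j ∈ ℓ o j) → ∑ j ∈ S, v j = 0 → ∀ {x y z : α}, x ≠ o → y ≠ o →
      z ≠ o → x ≠ y → x ≠ z → y ≠ z → ρ (T x y z) (v x) + ρ (T x y z) (v y) + ρ (T x y z) (v z) =
        v x + v y + v z := by
    intro v h1 h2 x y z x0 y0 z0 e1 e2 e3
    have e4 : ∑ j ∈ S, (ρ (T x y z) (v j) - v j) = 0 := by
      rw [Finset.sum_sub_distrib, ← map_sum, h2, map_zero, sub_zero]
    rw [← Finset.sum_subset (s₁ := {x, y, z}) (by intro j; simp only [hS, Finset.mem_insert, Finset.mem_singleton]; grind)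
      (fun j hj hj' => by
        rw [L.fix h t h9 (hS.1 hj).symm e1 e2 e3 (by simp; grind) (by simpa using hj') (h1 j (hS.1 hj)), sub_self]),
      Finset.sum_insert (by simp; grind), Finset.sum_pair e3] at e4
    rw [← sub_eq_zero, ← e4]; abel
  have mv : ∀ {x y z : α} {u : V}, x ≠ o → y ≠ o → z ≠ o → x ≠ y → x ≠ z → y ≠ z → u ∈ ℓ o x →
      ρ (T x y z) u ∈ ℓ o y := by
    intro x y z u x0 y0 z0 e1 e2 e3 hu
    have := L.eqv (T x y z) x0.symm u hu
    rwa [t.pi e1 e2 e3, c3_o x0.symm y0.symm z0.symm, c3_1 e1 e3] at this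
  have c2 : ∀ (v : α → V), (∀ j, j ≠ o → v j ∈ ℓ o j) → ∑ j ∈ S, v j = 0 → ∀ b, b ≠ o → v b = 0 →
      ∀ a, a ≠ o → v a = 0 := by
    intro v h1 h2 b b0 hb a a0
    by_cases hab : a = b
    · exact hab ▸ hb
    obtain ⟨c, hc⟩ := fresh [o, a, b] (by simp; omega)
    simp only [List.mem_cons, List.not_mem_nil, or_false, not_or] at hc
    have e1 := dif v h1 h2 a0 b0 hc.1 hab (Ne.symm hc.2.1) (Ne.symm hc.2.2)
    rw [hb, map_zero, add_zero, add_zero] at e1
    have e2 := mv hc.1 a0 b0 hc.2.1 hc.2.2 hab (h1 c hc.1)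
    rw [t.rot hc.2.1 hc.2.2 hab] at e2
    by_contra h0
    refine r_ne ρ _ h0 (c1 a0 b0 hc.1 (Ne.symm hab) (Ne.symm hc.2.2)
      (mv a0 b0 hc.1 hab (Ne.symm hc.2.1) (Ne.symm hc.2.2) (h1 a a0)) ?_)
    rw [eq_sub_of_add_eq e1]
    exact sub_mem (add_mem (Submodule.mem_sup_left (h1 a a0)) (Submodule.mem_sup_right (h1 c hc.1)))
      (Submodule.mem_sup_left e2)
  have ex : ∀ j, ∃ u, j ≠ o → u ∈ ℓ o j ∧ u ≠ 0 := fun j => by
    by_cases hj : j = o
    · exact ⟨0, fun h => absurd hj h⟩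
    · obtain ⟨u, h1, h2⟩ := line_ex (L.one (Ne.symm hj))
      exact ⟨u, fun _ => ⟨h1, h2⟩⟩
  choose u hu using ex
  have li : ∀ s : Finset α, s ⊆ S → (∀ c : α → k, ∑ j ∈ s, c j • u j = 0 → ∀ j ∈ s, c j = 0) →
      s.card ≤ finrank k V := fun s h1 h2 => by
    have : LinearIndependent k fun j : s => u j := by
      rw [Fintype.linearIndependent_iff]
      intro c hc j
      have := h2 (fun j => if hj : j ∈ s then c ⟨j, hj⟩ else 0) (by
        rw [← hc, ← Finset.sum_coe_sort s]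
        exact Finset.sum_congr rfl fun j _ => by simp) j j.2
      simpa using this
    simpa using this.fintype_card_le_finrank
  refine ⟨?_, fun hr => ?_⟩
  · obtain ⟨b, hb⟩ := fresh [o] (by simp; omega)
    simp only [List.mem_cons, List.not_mem_nil, or_false] at hb
    have := li (S.erase b) (Finset.erase_subset _ _) fun c hc j hj => by
      have := c2 (fun j => if j = b then 0 else c j • u j) (fun j hj => by
        split_ifs
        exacts [zero_mem _, Submodule.smul_mem _ _ (hu j hj).1]) (by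
          rw [← Finset.add_sum_erase _ _ (hS.2 hb), if_pos rfl, zero_add, ← hc]
          exact Finset.sum_congr rfl fun j hj => if_neg (Finset.ne_of_mem_erase hj)) b hb (if_pos rfl) j
          (hS.1 (Finset.mem_of_mem_erase hj))
      rw [if_neg (Finset.ne_of_mem_erase hj)] at this
      exact (smul_eq_zero.1 this).resolve_right (hu j (hS.1 (Finset.mem_of_mem_erase hj))).2
    rw [Finset.card_erase_of_mem (hS.2 hb), cS] at this
    omega
  rw [← cS]
  refine li S subset_rfl fun c hc j hj => by_contra fun hj0 => hr ?_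
  obtain ⟨v, v1, v2, v3⟩ : ∃ v : α → V, (∀ j, j ≠ o → v j ∈ ℓ o j) ∧ ∑ j ∈ S, v j = 0 ∧ ∀ j, j ≠ o → v j ≠ 0 := by
    have h1 : ∀ j, j ≠ o → c j • u j ∈ ℓ o j := fun j hj => Submodule.smul_mem _ _ (hu j hj).1
    exact ⟨fun j => c j • u j, h1, hc, fun i hi h0 =>
      smul_ne_zero hj0 (hu j (hS.1 hj)).2 (c2 _ h1 hc i hi h0 j (hS.1 hj))⟩
  clear hc hj0 hj li hu
  have i3 : ∀ {x y z : α} {p q s : k}, x ≠ o → y ≠ o → z ≠ o → x ≠ y → x ≠ z → p • v x = q • v y + s • v z →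
      p = 0 := fun {x y z p q s} x0 y0 z0 e1 e2 e => by
    refine (smul_eq_zero.1 (c1 y0 x0 z0 e1 e2 (Submodule.smul_mem _ _ (v1 x x0)) ?_)).resolve_right (v3 x x0)
    rw [e]
    exact add_mem (Submodule.mem_sup_left (Submodule.smul_mem _ _ (v1 y y0)))
      (Submodule.mem_sup_right (Submodule.smul_mem _ _ (v1 z z0)))
  have c3' : ∀ {x y z : α}, x ≠ o → y ≠ o → z ≠ o → x ≠ y → x ≠ z → y ≠ z → ρ (T x y z) (v x) = v y := by
    intro x y z x0 y0 z0 e1 e2 e3
    have e4 := dif v v1 v2 x0 y0 z0 e1 e2 e3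
    obtain ⟨p, hp⟩ := line_smul (L.one y0.symm) (v1 y y0) (v3 y y0) (mv x0 y0 z0 e1 e2 e3 (v1 x x0))
    obtain ⟨q, hq⟩ := line_smul (L.one z0.symm) (v1 z z0) (v3 z z0) (mv y0 z0 x0 e3 e1.symm e2.symm (v1 y y0))
    obtain ⟨s, hs⟩ := line_smul (L.one x0.symm) (v1 x x0) (v3 x x0) (mv z0 x0 y0 e2.symm e3.symm e1 (v1 z z0))
    rw [← t.rot e1 e2 e3] at hq
    rw [t.rot e2.symm e3.symm e1] at hs
    rw [hp, hq, hs] at e4
    have := i3 (p := p - 1) (q := 1 - s) (s := 1 - q) y0 x0 z0 e1.symm e3 (by linear_combination (norm := module) e4)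
    rw [hp, sub_eq_zero.1 this, one_smul]
  have fx : ∀ {x y z j : α}, x ≠ o → y ≠ o → z ≠ o → x ≠ y → x ≠ z → y ≠ z → j ≠ o → j ∉ [x, y, z] →
      ρ (T x y z) (v j) = v j := fun x0 y0 z0 e1 e2 e3 j0 hj =>
    L.fix h t h9 j0.symm e1 e2 e3 (by simp; grind) hj (v1 _ j0)
  have c4 : ∀ {x y : α}, x ≠ o → y ≠ o → x ≠ y → v y - v x ∈ ℓ x y := by
    intro x y x0 y0 e1
    obtain ⟨z, hz⟩ := fresh [o, x, y] (by simp; omega)
    obtain ⟨m, hm⟩ := fresh [z, o, x, y] (by simp; omega)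
    simp only [List.mem_cons, List.not_mem_nil, or_false, not_or] at hz hm
    obtain ⟨w, w1, w2⟩ := line_ex (L.one e1)
    obtain ⟨p, hp, q, hq, rfl⟩ := Submodule.mem_sup.1 (htri x0.symm y0.symm e1 w1)
    obtain ⟨p, rfl⟩ := line_smul (L.one x0.symm) (v1 x x0) (v3 x x0) hp
    obtain ⟨q, rfl⟩ := line_smul (L.one y0.symm) (v1 y y0) (v3 y y0) hq
    have q0 : q ≠ 0 := by
      rintro rfl
      rw [zero_smul, add_zero] at w1 w2
      exact w2 (ib x0 e1 y0.symm (L.symm x0 ▸ hp) w1)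
    have a1 : v y + (p / q) • v x ∈ ℓ x y := by
      have := Submodule.smul_mem _ q⁻¹ w1
      rwa [smul_add, smul_smul, smul_smul, inv_mul_cancel₀ q0, one_smul, add_comm, ← div_eq_inv_mul] at this
    generalize p / q = θ at a1
    have e2 : x ≠ z := Ne.symm hz.2.1
    have e3 : y ≠ z := Ne.symm hz.2.2
    have t1 := c3' x0 y0 hz.1 e1 e2 e3
    have t2 := c3' y0 hz.1 x0 e3 e1.symm e2.symm
    have t3 := c3' hz.1 x0 y0 e2.symm e3.symm e1
    rw [← t.rot e1 e2 e3] at t2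
    rw [t.rot e2.symm e3.symm e1] at t3
    have a2 := L.eqv (T x y z) e1 _ a1
    rw [t.pi e1 e2 e3, c3_1 e1 e3, c3_2, map_add, map_smul, t1, t2] at a2
    have a3 := L.eqv (T x y z) e3 _ a2
    rw [t.pi e1 e2 e3, c3_2, c3_3 e2 e3, map_add, map_smul, t2, t3] at a3
    have a4 := L.eqv (T z x m) e3 _ a2
    rw [t.pi e2.symm (by grind) (by grind), c3_o e3 e1.symm (by grind), c3_1 e2.symm (by grind), map_add, map_smul,
      c3' hz.1 x0 hm.2.1 e2.symm (by grind) (by grind), fx hz.1 x0 hm.2.1 e2.symm (by grind) (by grind) y0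
        (by simp; grind), L.symm e1.symm] at a4
    have n1 : v y + θ • v x ≠ 0 := fun e => one_ne_zero (i3 (p := 1) (q := -θ) (s := 0) y0 x0 x0 e1.symm e1.symm
      (by linear_combination (norm := module) e))
    have n3 : v x + θ • v z ≠ 0 := fun e => one_ne_zero (i3 (p := 1) (q := -θ) (s := 0) x0 hz.1 hz.1 e2 e2
      (by linear_combination (norm := module) e))
    obtain ⟨l, hl⟩ := line_smul (L.one e1) a1 n1 a4
    have b1 := i3 (p := 1 - l * θ) (q := l - θ) (s := 0) x0 y0 y0 e1 e1 (by linear_combination (norm := module) hl)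
    have b2 := i3 (p := θ - l) (q := l * θ - 1) (s := 0) y0 x0 x0 e1.symm e1.symm (by linear_combination (norm := module) hl)
    obtain ⟨p, hp, q, hq, e⟩ := Submodule.mem_sup.1 (htri e1 e2 e3 a2)
    obtain ⟨p, rfl⟩ := line_smul (L.one e1) a1 n1 hp
    obtain ⟨q, rfl⟩ := line_smul (L.one e2) (L.symm e2 ▸ a3) n3 hq
    have b3 := i3 (p := p * θ + q) (q := θ - p) (s := 1 - q * θ) x0 y0 hz.1 e1 e2 (by linear_combination (norm := module) e)
    have b4 := i3 (p := p - θ) (q := -p * θ - q) (s := 1 - q * θ) y0 x0 hz.1 e1.symm e3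
      (by linear_combination (norm := module) e)
    have b5 := i3 (p := q * θ - 1) (q := -p * θ - q) (s := θ - p) hz.1 x0 y0 e2.symm e3.symm
      (by linear_combination (norm := module) e)
    have : θ = -1 := by grind
    rwa [this, neg_one_smul, ← sub_eq_add_neg] at a1
  obtain ⟨x, hx⟩ := fresh [o] (by simp; omega)
  obtain ⟨y, hy⟩ := fresh [o, x] (by simp; omega)
  obtain ⟨z, hz⟩ := fresh [o, x, y] (by simp; omega)
  simp only [List.mem_cons, List.not_mem_nil, or_false, not_or] at hx hy hz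
  have e1 : o ≠ x := Ne.symm hx
  have e2 : o ≠ y := Ne.symm hy.1
  have e3 : x ≠ y := Ne.symm hy.2
  have nz : ∀ {j}, j ≠ o → j ≠ x → v j - v x ≠ 0 := fun j0 jx e =>
    one_ne_zero (i3 (p := 1) (q := 1) (s := 0) j0 hx hx jx jx (by linear_combination (norm := module) e))
  have s1 := L.eqv (T o x y) (Ne.symm hz.1) _ (v1 z hz.1)
  rw [t.pi e1 e2 e3, c3_1 e1 e3, c3_o hz.1 hz.2.1 hz.2.2] at s1
  obtain ⟨ν, hν⟩ := line_smul (L.one (Ne.symm hz.2.1)) (c4 hx hz.1 (Ne.symm hz.2.1)) (nz hz.1 hz.2.1) s1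
  have s2 : ∀ j, j ≠ o → j ≠ x → j ≠ y → ρ (T o x y) (v j) = ν • (v j - v x) := by
    intro j j0 jx jy
    by_cases hjz : j = z
    · exact hjz ▸ hν
    obtain ⟨m, hm⟩ := fresh [o, x, y, z, j] (by simp; omega)
    simp only [List.mem_cons, List.not_mem_nil, or_false, not_or] at hm
    have f1 := c3' hz.1 j0 hm.1 (Ne.symm hjz) (by grind) (by grind)
    have f2 : Commute (T z j m) (T o x y) := t.comm e1 e2 e3
      (by rw [t.pi (Ne.symm hjz) (by grind) (by grind), c3_o] <;> grind)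
      (by rw [t.pi (Ne.symm hjz) (by grind) (by grind), c3_o] <;> grind)
      (by rw [t.pi (Ne.symm hjz) (by grind) (by grind), c3_o] <;> grind)
    rw [← f1, ← r_comm f2, hν, map_smul, map_sub,
      fx hz.1 j0 hm.1 (Ne.symm hjz) (by grind) (by grind) hx (by simp; grind)]
  have s3 := L.eqv (T o x y) e1 _ (v1 x hx)
  rw [t.pi e1 e2 e3, c3_1 e1 e3, c3_2] at s3
  obtain ⟨γ, hγ⟩ := line_smul (L.one e3) (c4 hx hy.1 e3) (nz hy.1 hy.2) s3
  have s4 := L.eqv (T o x y) e2 _ (v1 y hy.1)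
  rw [t.pi e1 e2 e3, c3_1 e1 e3, c3_3 e2 e3, L.symm hx] at s4
  obtain ⟨δ, hδ⟩ := line_smul (L.one e1) (v1 x hx) (v3 x hx) s4
  have s5 := L.eqv (T o x y) e3 _ (c4 hx hy.1 e3)
  rw [t.pi e1 e2 e3, c3_2, c3_3 e2 e3, L.symm hy.1, map_sub, hγ, hδ] at s5
  obtain ⟨ε, hε⟩ := line_smul (L.one e2) (v1 y hy.1) (v3 y hy.1) s5
  have b1 := i3 (p := δ + γ) (q := ε + γ) (s := 0) hx hy.1 hy.1 e3 e3 (by linear_combination (norm := module) hε)
  have s6 := congrArg (ρ (T o x y)) v2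
  have hxS := hS.2 hx
  have hyS : y ∈ S.erase x := Finset.mem_erase.2 ⟨hy.2, hS.2 hy.1⟩
  rw [← Finset.add_sum_erase _ _ hxS, ← Finset.add_sum_erase _ _ hyS] at v2
  rw [map_sum, ← Finset.add_sum_erase _ _ hxS, ← Finset.add_sum_erase _ _ hyS, hγ, hδ, map_zero,
    Finset.sum_congr rfl (fun j hj => s2 j (hS.1 (Finset.mem_of_mem_erase (Finset.mem_of_mem_erase hj)))
      (Finset.ne_of_mem_erase (Finset.mem_of_mem_erase hj)) (Finset.ne_of_mem_erase hj)), ← Finset.smul_sum,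
    Finset.sum_sub_distrib, Finset.sum_const, Finset.card_erase_of_mem hyS, Finset.card_erase_of_mem hxS, cS,
    ← Nat.cast_smul_eq_nsmul k, show Fintype.card α - 1 - 1 - 1 = Fintype.card α - 3 by omega,
    Nat.cast_sub (by omega)] at s6
  have b2 := i3 (p := γ - ν) (q := γ - δ + ν + ν * ((Fintype.card α : k) - (3 : ℕ))) (s := 0) hy.1 hx hx hy.2 hy.2
    (by linear_combination (norm := module) s6 - ν • v2)
  have b3 := i3 (p := γ - δ + ν + ν * ((Fintype.card α : k) - (3 : ℕ))) (q := γ - ν) (s := 0) hx hy.1 hy.1 e3 e3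
    (by linear_combination (norm := module) ν • v2 - s6)
  have b4 : ν ≠ 0 := by
    rintro rfl
    exact r_ne ρ _ (v3 z hz.1) (by rw [hν, zero_smul])
  refine (mul_eq_zero.1 (show ν * (Fintype.card α : k) = 0 from ?_)).resolve_left b4
  push_cast at b3
  linear_combination b3 + b1 - 2 * b2

end Cfsg.Agent.H23.Wg
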