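import Mathlib
import Cfsg.Agent.H23.Wg3

/-! Projective representations of alternating groups on which three-cycles have no fixed vectors. -/

set_option autoImplicit false
set_option linter.unusedSectionVars false
set_option linter.unusedVariables false

namespace Cfsg.Agent.H23.Wg

open Equiv Equiv.Perm Module

variable {α : Type*} [Fintype α] [DecidableEq α] {G : Type*} [Group G] {π : G →* Perm α}
  {k V : Type*} [Field k] [AddCommGroup V] [Module k V] [FiniteDimensional k V] {ρ : G →* End k V}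
  {T : α → α → α → G}

theorem c3_mul {a b c d : α} (h1 : a ≠ b) (h2 : a ≠ c) (h3 : b ≠ c) (h4 : a ≠ d) (h5 : b ≠ d) (h6 : c ≠ d) :
    c3 a b c * c3 a b d = swap a c * swap b d := by
  ext x; simp only [Perm.mul_apply, c3_apply, swap_apply_def]; grind

theorem swap2_sq {a b c d : α} (h1 : a ≠ b) (h3 : b ≠ c) (h4 : a ≠ d) (h6 : c ≠ d) :
    (swap a c * swap b d) ^ 2 = 1 := by
  rw [sq]; ext x; simp only [Perm.mul_apply, swap_apply_def, Perm.one_apply]; grind

/-- the form attached to a Gram matrix -/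
def gf {m : ℕ} (M : Fin m → Fin m → ℤ) (x y : Fin m → ℤ) : ℤ := ∑ i, ∑ j, x i * y j * M i j

theorem anti_sum {A : Type*} [Ring A] {m : ℕ} (s : Fin m → A) (M : Fin m → Fin m → ℤ)
    (h : ∀ i j, s i * s j + s j * s i = M i j) (x y : Fin m → ℤ) :
    (∑ i, x i • s i) * (∑ j, y j • s j) + (∑ j, y j • s j) * (∑ i, x i • s i) = (gf M x y : ℤ) := by
  rw [Finset.sum_mul_sum, Finset.sum_mul_sum, Finset.sum_comm (s := Finset.univ) (t := Finset.univ)
    (f := fun j i => y j • s j * x i • s i), ← Finset.sum_add_distrib, gf, Int.cast_sum]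
  refine Finset.sum_congr rfl fun i _ => ?_
  rw [← Finset.sum_add_distrib, Int.cast_sum]
  refine Finset.sum_congr rfl fun j _ => ?_
  rw [smul_mul_smul_comm, smul_mul_smul_comm, mul_comm (y j), ← smul_add, h, zsmul_eq_mul, Int.cast_mul (x i * y j)]

theorem cast_end (n : ℤ) : (n : End k V) = (n : k) • 1 := by
  ext v; simp [Int.cast_smul_eq_zsmul]

variable [IsAlgClosed k]

theorem cl4 [Nontrivial V] (a b : Fin 4 → End k V) (δ : k) (hi : ∀ i, Function.Injective (a i))
    (h1 : ∀ i j, i ≠ j → a i * a j + a j * a i = 0) (h2 : ∀ i j, i ≠ j → a i * b j + b j * a i = 0)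
    (h3 : ∀ i j, i ≠ j → b i * b j + b j * b i = 0) (h4 : ∀ i, a i * b i + b i * a i = δ • 1)
    (h5 : ∀ i c v, v ≠ 0 → (a i * b i) v = c • v → -1 * c + δ ≠ c) : 16 ≤ finrank k V := by
  have key : ∀ i (x : End k V), a i * x + x * a i = 0 → b i * x + x * b i = 0 → Commute (a i * b i) x :=
    fun i x e1 e2 => by
      rw [Commute, SemiconjBy, mul_assoc, eq_neg_of_add_eq_zero_left e2, mul_neg, ← mul_assoc,
        eq_neg_of_add_eq_zero_left e1, neg_mul, neg_neg, mul_assoc]
  have e1 : ∀ i j, i ≠ j → Commute (a i * b i) (a j) := fun i j e =>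
    key i _ (h1 i j e) (by rw [add_comm]; exact h2 j i e.symm)
  refine two_pow_le (m := 4) (fun i => a i * b i) a (-1) δ (fun i j => ?_) hi e1 (fun i => ?_) h5
  · by_cases e : i = j
    · subst e; exact Commute.refl _
    · exact (e1 i j e).mul_right (key i _ (h2 i j e) (h3 i j e))
  · rw [mul_assoc, eq_sub_of_add_eq' (h4 i), neg_one_smul, neg_add_eq_sub]

theorem cl_int [Nontrivial V] {m : ℕ} (s : Fin m → End k V) (M : Fin m → Fin m → ℤ)
    (h : ∀ i j, s i * s j + s j * s i = M i j) (A B : Fin 4 → Fin m → ℤ) (h0 : (2 : k) ≠ 0)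
    (h1 : ∀ i j, i ≠ j → gf M (A i) (A j) = 0 ∧ gf M (B i) (B j) = 0) (h2 : ∀ i j, gf M (A i) (B j) = 0)
    (h3 : ∀ i, (gf M (A i) (A i) : k) ≠ 0 ∧ (gf M (B i) (B i) : k) ≠ 0) : 16 ≤ finrank k V := by
  have inj : ∀ x, (gf M x x : k) ≠ 0 → Function.Injective (∑ i, x i • s i : End k V) := fun x hx =>
    (injective_iff_map_eq_zero _).2 fun v hv => by
      have := congrArg (· v) (anti_sum s M h x x)
      simp only [LinearMap.add_apply, End.mul_apply, hv, map_zero, add_zero, cast_end, LinearMap.smul_apply,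
        End.one_apply] at this
      exact (smul_eq_zero.1 this.symm).resolve_left hx
  refine cl4 (fun i => ∑ l, A i l • s l) (fun i => ∑ l, B i l • s l) 0 (fun i => inj _ (h3 i).1)
    (fun i j e => by rw [anti_sum s M h, (h1 i j e).1, Int.cast_zero])
    (fun i j e => by rw [anti_sum s M h, h2, Int.cast_zero])
    (fun i j e => by rw [anti_sum s M h, (h1 i j e).2, Int.cast_zero])
    (fun i => by rw [anti_sum s M h, h2, Int.cast_zero, zero_smul]) fun i c v hv e e' => ?_
  have : c = 0 := (mul_eq_zero.1 (show 2 * c = 0 by linear_combination -e')).resolve_left h0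
  rw [this, zero_smul, End.mul_apply] at e
  exact hv (inj _ (h3 i).2 ((inj _ (h3 i).1 (e.trans (map_zero _).symm)).trans (map_zero _).symm))

theorem cl_two [Nontrivial V] (s : Fin 8 → End k V) (h0 : (2 : k) = 0) (h1 : ∀ i, s i * s i = 1)
    (h2 : ∀ i j, i ≠ j → s i * s j + s j * s i = 1) : 16 ≤ finrank k V := by
  let M : Fin 8 → Fin 8 → ℤ := fun i j => if i = j then 2 else 1
  have h : ∀ i j, s i * s j + s j * s i = M i j := fun i j => by
    by_cases e : i = j
    · subst e; simp [M, h1]; norm_num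
    · simp [M, e, h2 i j e]
  let A : Fin 4 → Fin 8 → ℤ := fun i l => if l.val / 2 = i.val then 1 else 0
  let B : Fin 4 → Fin 8 → ℤ := fun i l => if l.val / 2 < i.val ∨ l.val = 2 * i.val + 1 then 1 else 0
  have ev : ∀ n : ℤ, n % 2 = 0 → (n : End k V) = 0 := fun n hn => by
    obtain ⟨m, rfl⟩ := Int.dvd_of_emod_eq_zero hn
    rw [cast_end]; simp [h0]
  have hA : ∀ i j : Fin 8, i ≠ j → Function.Injective (s i + s j : End k V) := fun i j e =>
    Function.LeftInverse.injective (g := (s i + s j : End k V)) fun v => by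
      rw [← End.mul_apply, show (s i + s j) * (s i + s j) = s i * s i + s j * s j + (s i * s j + s j * s i) by
        noncomm_ring, h1, h1, h2 i j e, show (1 + 1 : End k V) = ((2 : ℤ) : End k V) by norm_num, ev 2 rfl,
        zero_add, End.one_apply]
  refine cl4 (fun i => ∑ l, A i l • s l) (fun i => ∑ l, B i l • s l) 1 (fun i => ?_)
    (fun i j e => by rw [anti_sum s M h]; exact ev _ (by revert i j; decide +kernel))
    (fun i j e => by rw [anti_sum s M h]; exact ev _ (by revert i j; decide +kernel))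
    (fun i j e => by rw [anti_sum s M h]; exact ev _ (by revert i j; decide +kernel))
    (fun i => ?_) fun i c v hv e e' => one_ne_zero (α := k) (by linear_combination e' + c * h0)
  · fin_cases i
    · simpa [A, Fin.sum_univ_succ] using hA 0 1 (by decide)
    · simpa [A, Fin.sum_univ_succ] using hA 2 3 (by decide)
    · simpa [A, Fin.sum_univ_succ] using hA 4 5 (by decide)
    · simpa [A, Fin.sum_univ_succ] using hA 6 7 (by decide)
  · rw [anti_sum s M h, one_smul, ← sub_eq_zero]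
    exact_mod_cast ev (gf M (A i) (B i) - 1) (by revert i; decide +kernel)

theorem cl_rel (h : CE π) (t : TS π T) (hs : SC π ρ) (hn : NT ρ) (h5 : 5 ≤ Fintype.card α)
    (hq : ∀ {a b c}, a ≠ b → a ≠ c → b ≠ c → ρ (T a b c) ^ 2 + ρ (T a b c) + 1 = 0) {a b c d : α} (h1 : a ≠ b)
    (h2 : a ≠ c) (h3 : b ≠ c) (h4 : a ≠ d) (h5' : b ≠ d) (h6 : c ≠ d) :
    ρ (T a b c) * ρ (T a b d) + ρ (T a b d) * ρ (T a b c) + ρ (T a b c) + ρ (T a b d) + 1 = 0 := by
  have e0 : π ((T a b c * T a b d) ^ 2) = 1 := by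
    rw [map_pow, map_mul, t.pi h1 h2 h3, t.pi h1 h4 h5', c3_mul h1 h2 h3 h4 h5' h6, swap2_sq h1 h3 h4 h6]
  obtain ⟨z, hz⟩ := hs _ e0
  have e1 : (ρ (T a b c) * ρ (T a b d)) ^ 2 = z • 1 := by rw [← map_mul, ← map_pow]; exact LinearMap.ext hz
  have e2 : (ρ (T a b d) * ρ (T a b c)) ^ 2 = z • 1 := by
    rw [← map_mul, ← map_pow, show (T a b d * T a b c) ^ 2 = (T a b c)⁻¹ * ((T a b c * T a b d) ^ 2 * T a b c) by
      simp only [sq]; group, (h.cen _ e0 _).eq, inv_mul_cancel_left]
    exact LinearMap.ext hz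
  have c1 : ρ (T a b c) ^ 3 = 1 := by rw [← map_pow, t.cube h1 h2 h3, map_one]
  have c2 : ρ (T a b d) ^ 3 = 1 := by rw [← map_pow, t.cube h1 h4 h5', map_one]
  have q1 := hq h1 h2 h3
  have q2 := hq h1 h4 h5'
  have nc : ρ (T a b c) * ρ (T a b d) ≠ ρ (T a b d) * ρ (T a b c) := fun e => by
    refine hn.ne h hs h5 (g := T a b c * T a b d * (T a b d * T a b c)⁻¹) (fun e1 => ?_) ⟨1, fun v => ?_⟩
    · rw [map_mul, map_inv, mul_inv_eq_one, map_mul, map_mul, t.pi h1 h2 h3, t.pi h1 h4 h5'] at e1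
      have := congrArg (· a) e1
      simp only [Perm.mul_apply, c3_1 h1 h3, c3_1 h1 h5', c3_2] at this
      exact h6 this
    · rw [r_mul, map_mul, e, ← map_mul, r_inv', one_smul]
  generalize ρ (T a b c) = x at *
  generalize ρ (T a b d) = y at *
  have key : ∀ {x y : End k V}, (x * y) ^ 2 = z • 1 → x ^ 3 = 1 → y ^ 3 = 1 → x ^ 2 + x + 1 = 0 →
      y ^ 2 + y + 1 = 0 → x * y = z • (1 + x + y + y * x) := fun {x y} e1 c1 c2 q1 q2 => by
    calc x * y = x * y * (x * y ^ 3 * x ^ 2) := by rw [c2, mul_one, ← pow_succ', c1, mul_one]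
      _ = (x * y) ^ 2 * (y ^ 2 * x ^ 2) := by noncomm_ring
      _ = _ := by
        rw [e1, smul_mul_assoc, one_mul, show y ^ 2 = -(y + 1) by rw [eq_neg_iff_add_eq_zero, ← add_assoc, q2],
          show x ^ 2 = -(x + 1) by rw [eq_neg_iff_add_eq_zero, ← add_assoc, q1]]
        congr 1; noncomm_ring
  have f1 := key e1 c1 c2 q1 q2
  have f2 := key e2 c2 c1 q2 q1
  have f3 : (1 + z) • (x * y - y * x) = 0 := by linear_combination (norm := module) f1 - f2
  have f4 : z = -1 := by
    have := (smul_eq_zero.1 f3).resolve_right (sub_ne_zero.2 nc)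
    linear_combination this
  rw [f4] at f1
  linear_combination (norm := module) f1

theorem cliff [Nontrivial V] (h : CE π) (t : TS π T) (hs : SC π ρ) (hn : NT ρ) (h3 : (3 : k) ≠ 0)
    (hc : (10 ≤ Fintype.card α ∧ (10 : k) ≠ 0) ∨ 11 ≤ Fintype.card α)
    (hq : ∀ {a b c}, a ≠ b → a ≠ c → b ≠ c → ρ (T a b c) ^ 2 + ρ (T a b c) + 1 = 0) : 16 ≤ finrank k V := by
  have key : ∀ m, m + 2 ≤ Fintype.card α → ∃ x : Fin m → End k V, (∀ i, x i ^ 2 + x i + 1 = 0) ∧
      ∀ i j, i ≠ j → x i * x j + x j * x i + x i + x j + 1 = 0 := fun m hm => by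
    obtain ⟨e⟩ := exists_emb hm
    have e1 : e 0 ≠ e 1 := e.injective.ne (by simp)
    have e2 : ∀ i : Fin m, e 0 ≠ e i.succ.succ := fun i => e.injective.ne (Fin.succ_ne_zero _).symm
    have e3 : ∀ i : Fin m, e 1 ≠ e i.succ.succ := fun i => e.injective.ne
      ((Fin.succ_injective _).ne (Fin.succ_ne_zero _).symm)
    exact ⟨fun i => ρ (T (e 0) (e 1) (e i.succ.succ)), fun i => hq e1 (e2 i) (e3 i), fun i j hij =>
      cl_rel h t hs hn (by omega) hq e1 (e2 i) (e3 i) (e2 j) (e3 j)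
        (e.injective.ne ((Fin.succ_injective _).ne ((Fin.succ_injective _).ne hij)))⟩
  have odd : ∀ m (x : Fin m → End k V), (∀ i, x i ^ 2 + x i + 1 = 0) →
      (∀ i j, i ≠ j → x i * x j + x j * x i + x i + x j + 1 = 0) → ∀ i j,
        (2 * x i + 1) * (2 * x j + 1) + (2 * x j + 1) * (2 * x i + 1) = ((if i = j then -6 else -2 : ℤ) : End k V) := by
    intro m x x1 x2 i j
    split_ifs with e
    · subst e
      linear_combination (norm := (noncomm_ring; norm_num)) 8 * x1 i
    · linear_combination (norm := (noncomm_ring; norm_num)) 4 * x2 i j e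
  by_cases h2 : (2 : k) = 0
  · obtain ⟨x, x1, x2⟩ := key 9 (by
      rcases hc with ⟨-, hc⟩ | hc
      · exact absurd (by linear_combination 5 * h2) hc
      · omega)
    have h2' : (2 : End k V) = 0 := by
      have := cast_end (k := k) (V := V) 2
      simpa [h2] using this
    refine cl_two (fun i => x i.succ + x 0) h2 (fun i => ?_) fun i j e => ?_
    · linear_combination (norm := (noncomm_ring; norm_num)) x1 i.succ + x1 0 + x2 i.succ 0 (Fin.succ_ne_zero _) -
        h2' * (x i.succ + x 0 + 2)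
    · linear_combination (norm := (noncomm_ring; norm_num)) x2 i.succ j.succ ((Fin.succ_injective _).ne e) +
        x2 i.succ 0 (Fin.succ_ne_zero _) + x2 j.succ 0 (Fin.succ_ne_zero _) +
        h2' * (x 0 * x 0 - x i.succ - x j.succ - x 0 - 2)
  have p2 : ∀ n : ℕ, (2 : k) ^ n ≠ 0 := fun n => pow_ne_zero _ h2
  by_cases h10 : (10 : k) = 0
  · obtain ⟨x, x1, x2⟩ := key 9 (by tauto)
    refine cl_int _ _ (odd 9 x x1 x2)
      ![![1, -1, 0, 0, 0, 0, 0, 0, 0], ![0, 0, 0, 0, 1, -1, 0, 0, 0], ![1, 1, -1, -1, 0, 0, 0, 0, 0],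
        ![1, 1, 1, 1, -1, -1, -1, -1, 0]]
      ![![0, 0, 1, -1, 0, 0, 0, 0, 0], ![0, 0, 0, 0, 0, 0, 1, -1, 0], ![0, 0, 0, 0, 1, 1, -1, -1, 0],
        ![0, 0, 0, 0, 0, 0, 0, 0, 1]] h2 (by decide +kernel) (by decide +kernel) fun i => ?_
    have : ∀ n : ℤ, n ∈ [-8, -16, -32, -6] → (n : k) ≠ 0 := by
      simp only [List.mem_cons, List.not_mem_nil, or_false]
      rintro _ (rfl | rfl | rfl | rfl) e <;> push_cast at e
      exacts [p2 3 (by linear_combination -e), p2 4 (by linear_combination -e), p2 5 (by linear_combination -e),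
        mul_ne_zero h2 h3 (by linear_combination -e)]
    exact ⟨this _ (by revert i; decide +kernel), this _ (by revert i; decide +kernel)⟩
  · obtain ⟨x, x1, x2⟩ := key 8 (by omega)
    refine cl_int _ _ (odd 8 x x1 x2)
      ![![1, -1, 0, 0, 0, 0, 0, 0], ![0, 0, 0, 0, 1, -1, 0, 0], ![1, 1, -1, -1, 0, 0, 0, 0],
        ![1, 1, 1, 1, -1, -1, -1, -1]]
      ![![0, 0, 1, -1, 0, 0, 0, 0], ![0, 0, 0, 0, 0, 0, 1, -1], ![0, 0, 0, 0, 1, 1, -1, -1],
        ![1, 1, 1, 1, 1, 1, 1, 1]] h2 (by decide +kernel) (by decide +kernel) fun i => ?_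
    have : ∀ n : ℤ, n ∈ [-8, -16, -32, -160] → (n : k) ≠ 0 := by
      simp only [List.mem_cons, List.not_mem_nil, or_false]
      rintro _ (rfl | rfl | rfl | rfl) e <;> push_cast at e
      exacts [p2 3 (by linear_combination -e), p2 4 (by linear_combination -e), p2 5 (by linear_combination -e),
        mul_ne_zero (p2 4) h10 (by linear_combination -e)]
    exact ⟨this _ (by revert i; decide +kernel), this _ (by revert i; decide +kernel)⟩

end Cfsg.Agent.H23.Wg
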