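import Mathlib
import Cfsg.Agent.H23.Wg4

/-! Projective representations of alternating groups in characteristic other than three: the natural case. -/

set_option autoImplicit false
set_option linter.unusedSectionVars false
set_option linter.unusedVariables false

namespace Cfsg.Agent.H23.Wg

open Equiv Equiv.Perm Module

variable {α : Type*} [Fintype α] [DecidableEq α] {G : Type*} [Group G] {π : G →* Perm α}
  {k V : Type*} [Field k] [AddCommGroup V] [Module k V] [FiniteDimensional k V] {ρ : G →* End k V}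
  {T : α → α → α → G}

/-- the commutator space of an element of order three -/
def W3 (ρ : G →* End k V) (g : G) : Submodule k V := LinearMap.ker (ρ g ^ 2 + ρ g + 1)

theorem mem_W3 {g : G} {v : V} : v ∈ W3 ρ g ↔ ρ g (ρ g v) + ρ g v + v = 0 := by simp [W3, sq]

theorem W3_conj {x : G} (g : G) {v : V} (hv : v ∈ W3 ρ x) : ρ g v ∈ W3 ρ (g * x * g⁻¹) := by
  rw [mem_W3] at hv ⊢
  simp only [r_mul, r_inv]
  rw [← map_add, ← map_add, hv, map_zero]

theorem cube_app {x : G} (h : x ^ 3 = 1) (v : V) : ρ x (ρ x (ρ x v)) = v := by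
  rw [← r_mul, ← r_mul, ← pow_three', h, map_one, End.one_apply]

theorem W3_sq {x : G} (h : x ^ 3 = 1) {v : V} (hv : v ∈ W3 ρ x) : v ∈ W3 ρ (x ^ 2) := by
  rw [mem_W3] at hv ⊢
  simp only [sq, r_mul, cube_app h]
  rw [add_comm (ρ x v), hv]

theorem W3_sub {x : G} (h : x ^ 3 = 1) (v : V) : ρ x v - v ∈ W3 ρ x := by
  rw [mem_W3]
  simp only [map_sub, cube_app h]
  abel

theorem W3_fix (h3 : (3 : k) ≠ 0) {x : G} {v : V} (hv : v ∈ W3 ρ x) (h : ρ x v = v) : v = 0 := by
  rw [mem_W3, h, h] at hv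
  exact (smul_eq_zero.1 (show (3 : k) • v = 0 by linear_combination (norm := module) hv)).resolve_left h3

theorem TS.W_eqv (t : TS π T) (g : G) {a b c : α} (h1 : a ≠ b) (h2 : a ≠ c) (h3 : b ≠ c) {v : V}
    (hv : v ∈ W3 ρ (T a b c)) : ρ g v ∈ W3 ρ (T (π g a) (π g b) (π g c)) :=
  t.conj g h1 h2 h3 ▸ W3_conj g hv

theorem TS.W_swap (t : TS π T) {a b c : α} (h1 : a ≠ b) (h2 : a ≠ c) (h3 : b ≠ c) :
    W3 ρ (T a c b) = W3 ρ (T a b c) :=
  le_antisymm (fun v hv => t.sq h2 h1 h3.symm ▸ W3_sq (t.cube h2 h1 h3.symm) hv)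
    fun v hv => t.sq h1 h2 h3 ▸ W3_sq (t.cube h1 h2 h3) hv

theorem TS.fix3 (t : TS π T) {a b c p q s : α} (hd : [a, b, c, p, q, s].Nodup) {v : V}
    (h1 : ρ (T a p q) v = v) (h2 : ρ (T b s p) v = v) (h3 : ρ (T c s q) v = v) : ρ (T a b c) v = v := by
  simp only [List.nodup_cons, List.mem_cons, List.not_mem_nil, or_false, not_or] at hd
  have e1 := t.r (ρ := ρ) (T b s p) (a := a) (b := p) (c := q) (by grind) (by grind) (by grind) v
  rw [t.pi (by grind) (by grind) (by grind), c3_o (by grind) (by grind) (by grind), c3_3 (by grind) (by grind),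
    c3_o (by grind) (by grind) (by grind), h1, h2] at e1
  have e2 := t.r (ρ := ρ) (T c s q) (a := a) (b := b) (c := q) (by grind) (by grind) (by grind) v
  rw [t.pi (by grind) (by grind) (by grind), c3_o (by grind) (by grind) (by grind),
    c3_o (by grind) (by grind) (by grind), c3_3 (by grind) (by grind), ← e1, h3] at e2
  exact e2.symm

theorem nat3 (h : CE π) (t : TS π T) (h9 : 9 ≤ Fintype.card α) (h3 : (3 : k) ≠ 0)
    (hd : ∀ {a b c}, a ≠ b → a ≠ c → b ≠ c → finrank k (W3 ρ (T a b c)) = 2)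
    (hc : ∀ {a b c x y z}, [a, b, c, x, y, z].Nodup → ∀ v ∈ W3 ρ (T a b c), ρ (T x y z) v = v) :
    Fintype.card α - 2 ≤ finrank k V ∧ ((Fintype.card α : k) ≠ 0 → Fintype.card α - 1 ≤ finrank k V) := by
  have rf : ∀ {a b c x y : α}, [a, b, c, x, y].Nodup → (∀ v ∈ W3 ρ (T a b c), ρ (T c x y) v = v) →
      ∀ v ∈ W3 ρ (T a b c), ρ (T a x y) v = v := by
    intro a b c x y hd H v hv
    simp only [List.nodup_cons, List.mem_cons, List.not_mem_nil, or_false, not_or] at hd
    have e1 := W3_conj (T a b c)⁻¹ hv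
    rw [inv_mul_cancel, one_mul, inv_inv] at e1
    have e2 := t.r (ρ := ρ) (T a b c) (a := c) (b := x) (c := y) (by grind) (by grind) (by grind) (ρ (T a b c)⁻¹ v)
    rw [t.pi (by grind) (by grind) (by grind), c3_3 (by grind) (by grind), c3_o (by grind) (by grind) (by grind),
      c3_o (by grind) (by grind) (by grind), H _ e1, r_inv'] at e2
    exact e2.symm
  have hD : ∀ {a b c d : α}, [a, b, c, d].Nodup → ¬ W3 ρ (T a b c) ≤ W3 ρ (T a b d) := by
    intro a b c d hn hle
    obtain ⟨p, hp⟩ := fresh [a, b, c, d] (by simp; omega)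
    obtain ⟨q, hq⟩ := fresh [p, a, b, c, d] (by simp; omega)
    obtain ⟨s, hs⟩ := fresh [q, p, a, b, c, d] (by simp; omega)
    simp only [List.nodup_cons, List.mem_cons, List.not_mem_nil, or_false, not_or] at hn hp hq hs
    have e0 := t.rot (a := a) (b := b) (c := c) (by grind) (by grind) (by grind)
    have : W3 ρ (T a b c) = ⊥ := (Submodule.eq_bot_iff _).2 fun v hv => W3_fix h3 hv
      (t.fix3 (p := p) (q := q) (s := s) (by simp; grind)
        (rf (by simp; grind) (fun v hv => hc (by simp; grind) v (hle hv)) v hv)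
        (rf (b := c) (c := a) (by simp; grind) (e0 ▸ rf (by simp; grind) fun v hv => hc (by simp; grind) v (hle hv)) v
          (e0 ▸ hv)) (hc (by simp; grind) v (hle hv)))
    have e := hd (a := a) (b := b) (c := c) (by grind) (by grind) (by grind)
    rw [this] at e
    simp at e
  have hI : ∀ {a b c d : α}, [a, b, c, d].Nodup → ∃ v ≠ 0, v ∈ W3 ρ (T a b c) ∧ v ∈ W3 ρ (T a b d) := by
    intro a b c d hn
    by_contra! H
    obtain ⟨e, he⟩ := fresh [a, b, c, d] (by simp; omega)
    obtain ⟨f, hf⟩ := fresh [e, a, b, c, d] (by simp; omega)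
    obtain ⟨g, hg⟩ := fresh [f, e, a, b, c, d] (by simp; omega)
    simp only [List.nodup_cons, List.mem_cons, List.not_mem_nil, or_false, not_or] at hn he hf hg
    have e1 : c ≠ d := by grind
    have e2 : c ≠ e := by grind
    have e3 : d ≠ e := by grind
    have i1 : W3 ρ (T a b d) ≤ W3 ρ (T a b c) ⊔ W3 ρ (T c d e) := fun v hv => by
      have := t.W_eqv (T c e d) (by grind) (by grind) (by grind) hv
      rw [t.pi e2 e1 e3.symm, c3_o (by grind) (by grind) (by grind), c3_o (by grind) (by grind) (by grind),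
        c3_3 e1 e3.symm] at this
      rw [show v = ρ (T c e d) v - (ρ (T c e d) v - v) by abel]
      exact sub_mem (Submodule.mem_sup_left this)
        (Submodule.mem_sup_right (t.W_swap (ρ := ρ) e1 e2 e3 ▸ W3_sub (t.cube e2 e1 e3.symm) v))
    have i2 : W3 ρ (T a b e) ≤ W3 ρ (T a b c) ⊔ W3 ρ (T c d e) := fun v hv => by
      have := t.W_eqv (T c d e) (by grind) (by grind) (by grind) hv
      rw [t.pi e1 e2 e3, c3_o (by grind) (by grind) (by grind), c3_o (by grind) (by grind) (by grind),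
        c3_3 e2 e3] at this
      rw [show v = ρ (T c d e) v - (ρ (T c d e) v - v) by abel]
      exact sub_mem (Submodule.mem_sup_left this) (Submodule.mem_sup_right (W3_sub (t.cube e1 e2 e3) v))
    have i3 : W3 ρ (T a b c) ⊓ W3 ρ (T a b d) = ⊥ := (Submodule.eq_bot_iff _).2 fun v hv =>
      by_contra fun h0 => H v h0 hv.1 hv.2
    have i4 := Submodule.finrank_sup_add_finrank_inf_eq (W3 ρ (T a b c)) (W3 ρ (T a b d))
    have i5 := Submodule.finrank_sup_add_finrank_inf_eq (W3 ρ (T a b c)) (W3 ρ (T c d e))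
    rw [i3, finrank_bot, hd (by grind) (by grind) (by grind), hd (by grind) (by grind) (by grind)] at i4
    rw [hd (by grind) (by grind) (by grind), hd e1 e2 e3] at i5
    rw [← Submodule.eq_of_le_of_finrank_le (sup_le le_sup_left i1) (by omega)] at i2
    refine hD (a := a) (b := b) (c := e) (d := f) (by simp; grind) fun v hv => ?_
    have := t.W_eqv (T e f g) (by grind) (by grind) (by grind) hv
    obtain ⟨p, hp, q, hq, rfl⟩ := Submodule.mem_sup.1 (i2 hv)
    rwa [t.pi (by grind) (by grind) (by grind), c3_o (by grind) (by grind) (by grind),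
      c3_o (by grind) (by grind) (by grind), c3_1 (by grind) (by grind), map_add, hc (by simp; grind) p hp,
      hc (by simp; grind) q hq] at this
  let ℓ : α → α → Submodule k V := fun a b => ⨅ c, ⨅ (_ : c ≠ a), ⨅ (_ : c ≠ b), W3 ρ (T a b c)
  have hℓ : ∀ {a b v}, v ∈ ℓ a b ↔ ∀ c, c ≠ a → c ≠ b → v ∈ W3 ρ (T a b c) := by
    simp only [ℓ, Submodule.mem_iInf, implies_true]
  have sy : ∀ {a b}, a ≠ b → ℓ a b ≤ ℓ b a := fun {a b} hab v hv => hℓ.2 fun c h1 h2 => by
    rw [t.rot hab.symm h1.symm h2.symm, t.W_swap hab h2.symm h1.symm]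
    exact hℓ.1 hv c h2 h1
  have L : LN π ρ ℓ := by
    refine ⟨fun {a b} hab => ?_, fun hab => le_antisymm (sy hab) (sy hab.symm), fun g a b hab v hv =>
      hℓ.2 fun c h1 h2 => ?_⟩
    · obtain ⟨c, hc'⟩ := fresh [a, b] (by simp; omega)
      obtain ⟨d, hd'⟩ := fresh [c, a, b] (by simp; omega)
      simp only [List.mem_cons, List.not_mem_nil, or_false, not_or] at hc' hd'
      obtain ⟨v, v0, v1, v2⟩ := hI (a := a) (b := b) (c := c) (d := d) (by simp; grind)
      have e1 : v ∈ ℓ a b := hℓ.2 fun e h1 h2 => by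
        by_cases e1 : e = c
        · exact e1 ▸ v1
        by_cases e2 : e = d
        · exact e2 ▸ v2
        obtain ⟨f, hf⟩ := fresh [e, d, c, a, b] (by simp; omega)
        simp only [List.mem_cons, List.not_mem_nil, or_false, not_or] at hf
        have := t.W_eqv (T d e f) (by grind) (by grind) (by grind) v2
        rwa [t.pi (by grind) (by grind) (by grind), c3_o (by grind) (by grind) (by grind),
          c3_o (by grind) (by grind) (by grind), c3_1 (by grind) (by grind), hc (by simp; grind) v v1] at this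
      have e2 : ℓ a b < W3 ρ (T a b c) := lt_of_le_of_ne (fun v hv => hℓ.1 hv c hc'.1 hc'.2) fun e =>
        hD (a := a) (b := b) (c := c) (d := d) (by simp; grind) fun v hv => hℓ.1 (e ▸ hv) d hd'.2.1 hd'.2.2
      have e3 := Submodule.finrank_lt_finrank_of_lt e2
      rw [hd hab (by grind) (by grind)] at e3
      have e4 := Submodule.one_le_finrank_iff.2 ((Submodule.ne_bot_iff _).2 ⟨v, e1, v0⟩)
      omega
    · obtain ⟨c, rfl⟩ := (π g).surjective c
      exact t.W_eqv g hab (fun e => h1 (by rw [e])) (fun e => h2 (by rw [e]))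
        (hℓ.1 hv c (fun e => h1 (by rw [e])) (fun e => h2 (by rw [e])))
  have hne : ∀ {a b c}, a ≠ b → a ≠ c → b ≠ c → ℓ a b ≠ ℓ a c := by
    intro a b c h1 h2 h3' e
    obtain ⟨v, v1, v0⟩ := line_ex (L.one h1)
    obtain ⟨p, hp⟩ := fresh [a, b, c] (by simp; omega)
    obtain ⟨q, hq⟩ := fresh [p, a, b, c] (by simp; omega)
    obtain ⟨s, hs⟩ := fresh [q, p, a, b, c] (by simp; omega)
    simp only [List.mem_cons, List.not_mem_nil, or_false, not_or] at hp hq hs
    have e1 := L.eqv (T a b c) h1 v v1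
    have e2 := L.eqv (T a b c) h2 v (e ▸ v1)
    rw [t.pi h1 h2 h3', c3_1 h1 h3'] at e1 e2
    rw [c3_2] at e1
    rw [c3_3 h2 h3', L.symm h1.symm] at e2
    have e3 : v ∈ ℓ b c := line_eq (L.one h1) (L.one h3') e2 e1 (r_ne ρ _ v0) ▸ v1
    exact v0 (W3_fix h3 (hℓ.1 v1 c h2.symm h3'.symm) (t.fix3 (p := p) (q := q) (s := s) (by simp; grind)
      (L.fix h t h9 h3' (by grind) (by grind) (by grind) (by simp; grind) (by simp; grind) e3)
      (L.fix h t h9 h2 (by grind) (by grind) (by grind) (by simp; grind) (by simp; grind) (e ▸ v1))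
      (L.fix h t h9 h1 (by grind) (by grind) (by grind) (by simp; grind) (by simp; grind) v1)))
  refine L.bound h t h9 hne fun {a b c} h1 h2 h3' v hv => ?_
  have i3 : ℓ a b ⊓ ℓ a c = ⊥ := (Submodule.eq_bot_iff _).2 fun v hv =>
    by_contra fun h0 => hne h1 h2 h3' (line_eq (L.one h1) (L.one h2) hv.1 hv.2 h0)
  have i4 := Submodule.finrank_sup_add_finrank_inf_eq (ℓ a b) (ℓ a c)
  rw [i3, finrank_bot, L.one h1, L.one h2] at i4
  rw [Submodule.eq_of_le_of_finrank_le (S₂ := W3 ρ (T a b c)) (sup_le (fun v hv => hℓ.1 hv c h2.symm h3'.symm)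
    fun v hv => t.W_swap (ρ := ρ) h1 h2 h3' ▸ hℓ.1 hv b h1.symm h3') (by rw [hd h1 h2 h3']; omega),
    t.rot h1 h2 h3']
  exact hℓ.1 hv a h1 h2

end Cfsg.Agent.H23.Wg
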