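import Mathlib
import Cfsg.Agent.H23.Wg5

/-! Projective representations of alternating groups in characteristic other than three. -/

set_option autoImplicit false
set_option linter.unusedSectionVars false
set_option linter.unusedVariables false

namespace Cfsg.Agent.H23.Wg

open Equiv Equiv.Perm Module

universe u v

variable {α : Type*} [Fintype α] [DecidableEq α] {G : Type u} [Group G] {π : G →* Perm α}
  {k : Type*} {V : Type v} [Field k] [AddCommGroup V] [Module k V] [FiniteDimensional k V] {ρ : G →* End k V}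
  {T : α → α → α → G}

theorem TS.sq_eig (t : TS π T) {a b c : α} (h1 : a ≠ b) (h2 : a ≠ c) (h3 : b ≠ c) {v : V} {l : k}
    (h : ρ (T a c b) v = l • v) : ρ (T a b c) v = l ^ 2 • v := by
  rw [t.sq h2 h1 h3.symm, map_pow, pow_apply_eig h]

theorem TS.eig_eqv (t : TS π T) (g : G) {a b c : α} (h1 : a ≠ b) (h2 : a ≠ c) (h3 : b ≠ c) {v : V} {l : k}
    (h : ρ (T a b c) v = l • v) : ρ (T (π g a) (π g b) (π g c)) (ρ g v) = l • ρ g v := by
  rw [← t.r g h1 h2 h3, h, map_smul]

theorem root3 {ω c : k} (hω : ω ^ 2 + ω + 1 = 0) (hc : c ^ 3 = 1) : ∃ i : Fin 3, c = ω ^ i.val := by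
  have : (c - 1) * ((c - ω) * (c - ω ^ 2)) = 0 := by linear_combination hc + (c - c ^ 2 + (ω - 1) * (c - 1)) * hω
  rcases mul_eq_zero.1 this with e | e
  · exact ⟨0, by simpa using sub_eq_zero.1 e⟩
  · rcases mul_eq_zero.1 e with e | e
    exacts [⟨1, by simpa using sub_eq_zero.1 e⟩, ⟨2, sub_eq_zero.1 e⟩]

theorem root3_inj {ω : k} (hω : ω ^ 2 + ω + 1 = 0) (h3 : (3 : k) ≠ 0) :
    Function.Injective fun i : Fin 3 => ω ^ i.val := by
  have e1 : ω ≠ 1 := fun e => h3 (by rw [e] at hω; linear_combination hω)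
  have e2 : ω ^ 2 ≠ 1 := fun e => h3 (by grind)
  have e3 : ω ^ 2 ≠ ω := fun e => h3 (by grind)
  intro i j e
  fin_cases i <;> fin_cases j <;> simp_all [eq_comm]

theorem root3_sq {ω : k} (hω : ω ^ 2 + ω + 1 = 0) (i : Fin 3) : (ω ^ i.val) ^ 2 = ω ^ (2 * i).val := by
  fin_cases i
  · simp
  · simp
  · show (ω ^ 2) ^ 2 = ω ^ 1
    linear_combination (ω ^ 2 - ω) * hω

/-- weights of the elementary abelian group of order `27` -/
def Om (ρ : G →* End k V) (T : α → α → α → G) (e : Fin 9 ↪ α) (ω : k) (w : Fin 3 × Fin 3 × Fin 3) : Prop :=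
  ∃ v ≠ 0, ρ (T (e 0) (e 1) (e 2)) v = ω ^ w.1.val • v ∧ ρ (T (e 3) (e 4) (e 5)) v = ω ^ w.2.1.val • v ∧
    ρ (T (e 6) (e 7) (e 8)) v = ω ^ w.2.2.val • v

/-- number of non-zero entries -/
def nz3 (w : Fin 3 × Fin 3 × Fin 3) : ℕ :=
  (if w.1 = 0 then 0 else 1) + (if w.2.1 = 0 then 0 else 1) + (if w.2.2 = 0 then 0 else 1)

/-- orbit enumeration -/
def orb3 : ℕ → Fin 3 × Fin 3 × Fin 3 → List (Fin 3 × Fin 3 × Fin 3)
  | 0, w => [w]
  | n + 1, w => w :: (orb3 n (2 * w.1, 2 * w.2.1, w.2.2) ++ orb3 n (2 * w.1, w.2.2, w.2.1) ++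
      orb3 n (w.2.2, w.1, w.2.1))

theorem orb3_chk : ∀ w w', nz3 w' = nz3 w → w' ∈ orb3 5 w := by decide +kernel

theorem Om.orb (h : CE π) (t : TS π T) {e : Fin 9 ↪ α} {ω : k} (hω : ω ^ 2 + ω + 1 = 0)
    {w w' : Fin 3 × Fin 3 × Fin 3} (H : Om ρ T e ω w) (hw : nz3 w' = nz3 w) : Om ρ T e ω w' := by
  have n : ∀ {i j : Fin 9}, i ≠ j → e i ≠ e j := fun h => e.injective.ne h
  have mv : ∀ σ : Perm (Fin 9), sign σ = 1 → ∃ g, ∀ {a b c : Fin 9} {v : V} {l : k}, ρ (T (e a) (e b) (e c)) v = l • v →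
      ∀ a' b' c', a ≠ b ∧ a ≠ c ∧ b ≠ c ∧ σ a = a' ∧ σ b = b' ∧ σ c = c' →
        ρ (T (e a') (e b') (e c')) (ρ g v) = l • ρ g v := fun σ hσ => by
    obtain ⟨g, hg, -⟩ := h.exists_lift e σ hσ
    refine ⟨g, ?_⟩
    rintro a b c v l H _ _ _ ⟨h1, h2, h3, rfl, rfl, rfl⟩
    simpa only [hg] using t.eig_eqv g (n h1) (n h2) (n h3) H
  have key : ∀ m w, Om ρ T e ω w → ∀ w' ∈ orb3 m w, Om ρ T e ω w' := by
    intro m
    induction m with
    | zero => intro w H w' hw'; rwa [List.mem_singleton.1 hw']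
    | succ m ih =>
      intro w H w' hw'
      obtain ⟨v, v0, v1, v2, v3⟩ := H
      simp only [orb3, List.mem_cons, List.mem_append] at hw'
      rcases hw' with rfl | (hw' | hw') | hw'
      · exact ⟨v, v0, v1, v2, v3⟩
      · obtain ⟨g, hg⟩ := mv (swap 1 2 * swap 4 5) (by decide +kernel)
        exact ih (2 * w.1, 2 * w.2.1, w.2.2) ⟨ρ g v, r_ne ρ g v0,
          root3_sq hω _ ▸ t.sq_eig (n (by decide)) (n (by decide)) (n (by decide)) (hg v1 0 2 1 (by decide +kernel)),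
          root3_sq hω _ ▸ t.sq_eig (n (by decide)) (n (by decide)) (n (by decide)) (hg v2 3 5 4 (by decide +kernel)),
          hg v3 6 7 8 (by decide +kernel)⟩ _ hw'
      · obtain ⟨g, hg⟩ := mv (swap 1 2 * swap 3 6 * swap 4 7 * swap 5 8) (by decide +kernel)
        exact ih (2 * w.1, w.2.2, w.2.1) ⟨ρ g v, r_ne ρ g v0,
          root3_sq hω _ ▸ t.sq_eig (n (by decide)) (n (by decide)) (n (by decide)) (hg v1 0 2 1 (by decide +kernel)),
          hg v3 3 4 5 (by decide +kernel), hg v2 6 7 8 (by decide +kernel)⟩ _ hw'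
      · obtain ⟨g, hg⟩ := mv (c3 0 3 6 * c3 1 4 7 * c3 2 5 8) (by decide +kernel)
        exact ih (w.2.2, w.1, w.2.1) ⟨ρ g v, r_ne ρ g v0, hg v3 0 1 2 (by decide +kernel), hg v1 3 4 5 (by decide +kernel),
          hg v2 6 7 8 (by decide +kernel)⟩ _ hw'
  exact key 5 w H w' (orb3_chk w w' hw)

theorem Om.card {e : Fin 9 ↪ α} {ω : k} (hω : ω ^ 2 + ω + 1 = 0) (h3 : (3 : k) ≠ 0)
    (P : Fin 3 × Fin 3 × Fin 3 → Prop) [DecidablePred P] (H : ∀ w, P w → Om ρ T e ω w) :
    Fintype.card {w // P w} ≤ finrank k V :=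
  card_le_of_wt ![ρ (T (e 0) (e 1) (e 2)), ρ (T (e 3) (e 4) (e 5)), ρ (T (e 6) (e 7) (e 8))]
    (fun w => ![ω ^ w.1.1.val, ω ^ w.1.2.1.val, ω ^ w.1.2.2.val])
    (fun w w' e => Subtype.ext (Prod.ext (root3_inj hω h3 (congrFun e 0))
      (Prod.ext (root3_inj hω h3 (congrFun e 1)) (root3_inj hω h3 (congrFun e 2))))) fun w => by
    obtain ⟨v, v0, v1, v2, v3⟩ := H w.1 w.2
    exact ⟨v, v0, fun i => by fin_cases i; exacts [v1, v2, v3]⟩

open Classical in
/-- the bound -/
noncomputable def bd (k : Type*) [Field k] (r : ℕ) : ℕ := if (r : k) = 0 then r - 2 else r - 1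

theorem bd_le (r : ℕ) : r - 2 ≤ bd k r ∧ bd k r ≤ r - 1 := by unfold bd; split_ifs <;> omega

theorem bd_le_of {r n : ℕ} (h : r - 2 ≤ n ∧ ((r : k) ≠ 0 → r - 1 ≤ n)) : bd k r ≤ n := by
  unfold bd; split_ifs <;> tauto

theorem CE.trans (h : CE π) (l l' : List α) (h1 : l.Nodup) (h2 : l'.Nodup) (e : l.length = l'.length)
    (hl : l.length + 2 ≤ Fintype.card α) : ∃ g, l.map (π g) = l' := by
  obtain ⟨σ, s1, s2⟩ := exists_even l.get (l'.get ∘ Fin.cast e) (List.nodup_iff_injective_get.1 h1)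
    ((List.nodup_iff_injective_get.1 h2).comp (Fin.cast_injective _)) hl
  obtain ⟨g, rfl⟩ := h.surj σ s1
  exact ⟨g, List.ext_get (by simpa using e) fun n h1 h2 => by simpa using s2 ⟨n, by simpa using h1⟩⟩

variable [IsAlgClosed k]

theorem TS.eig_ne (t : TS π T) (h3 : (3 : k) ≠ 0) {ω : k} (hω : ω ^ 2 + ω + 1 = 0) {a b c : α} (h1 : a ≠ b)
    (h2 : a ≠ c) (h3' : b ≠ c) {U : Submodule k V} (hU : ∀ u ∈ U, ρ (T a b c) u ∈ U)
    (hn : ∃ v ∈ U, ρ (T a b c) v ≠ v) : ∃ i : Fin 3, i ≠ 0 ∧ ∃ v ∈ U, v ≠ 0 ∧ ρ (T a b c) v = ω ^ i.val • v := by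
  obtain ⟨c, c1, c2, H⟩ := exists_eig_ne hU (m := 3) (by exact_mod_cast h3)
    (by rw [← map_pow, t.cube h1 h2 h3', map_one]) hn
  obtain ⟨i, rfl⟩ := root3 hω c2
  exact ⟨i, by rintro rfl; simp at c1, H⟩

theorem Om.of (h : CE π) (t : TS π T) {e : Fin 9 ↪ α} {ω : k} (hω : ω ^ 2 + ω + 1 = 0) {i j : Fin 3} {v : V}
    (v0 : v ≠ 0) (v1 : ρ (T (e 0) (e 1) (e 2)) v = ω ^ i.val • v) (v2 : ρ (T (e 3) (e 4) (e 5)) v = ω ^ j.val • v) :
    ∃ l, Om ρ T e ω (i, j, l) := by
  have n : ∀ {i j : Fin 9}, i ≠ j → e i ≠ e j := fun h => e.injective.ne h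
  have hp := t.pi (n (i := 6) (j := 7) (by decide)) (n (j := 8) (by decide)) (n (by decide))
  obtain ⟨c, w, w1, w0, w3⟩ := exists_eig (U := (ρ (T (e 0) (e 1) (e 2))).eigenspace (ω ^ i.val) ⊓
    (ρ (T (e 3) (e 4) (e 5))).eigenspace (ω ^ j.val)) (X := ρ (T (e 6) (e 7) (e 8)))
    ((Submodule.ne_bot_iff _).2 ⟨v, by simpa using ⟨v1, v2⟩, v0⟩) fun u hu => by
      simp only [Submodule.mem_inf, End.mem_eigenspace_iff] at hu ⊢
      constructor <;> rw [← r_comm (t.comm (n (by decide)) (n (by decide)) (n (by decide))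
        (hp ▸ c3_o (n (by decide)) (n (by decide)) (n (by decide)))
        (hp ▸ c3_o (n (by decide)) (n (by decide)) (n (by decide)))
        (hp ▸ c3_o (n (by decide)) (n (by decide)) (n (by decide))))] <;> simp [hu]
  obtain ⟨l, rfl⟩ := root3 hω (eig_pow w3 w0 (m := 3) (by
    rw [← map_pow, t.cube (n (by decide)) (n (by decide)) (n (by decide)), map_one]))
  simp only [Submodule.mem_inf, End.mem_eigenspace_iff] at w1
  exact ⟨l, w, w0, w1.1, w1.2, w3⟩

theorem TS.eig_inv (t : TS π T) {a b c x y z : α} (hd : [a, b, c, x, y, z].Nodup) (l : k) :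
    ∀ u ∈ (ρ (T a b c)).eigenspace l, ρ (T x y z) u ∈ (ρ (T a b c)).eigenspace l := by
  simp only [List.nodup_cons, List.mem_cons, List.not_mem_nil, or_false, not_or] at hd
  intro u hu
  rw [End.mem_eigenspace_iff] at hu ⊢
  have := t.eig_eqv (T x y z) (by grind) (by grind) (by grind) hu
  rwa [t.pi (by grind) (by grind) (by grind), c3_o (by grind) (by grind) (by grind),
    c3_o (by grind) (by grind) (by grind), c3_o (by grind) (by grind) (by grind)] at this

theorem small3 (h : CE π) (t : TS π T) (hs : SC π ρ) (hn : NT ρ) (h3 : (3 : k) ≠ 0) (h9 : 9 ≤ Fintype.card α)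
    {ω : k} (hω : ω ^ 2 + ω + 1 = 0) (hlt : finrank k V < bd k (Fintype.card α)) (h11 : finrank k V < 12)
    {a b c x y z : α} (hd : [a, b, c, x, y, z].Nodup) (hv : ∃ v ∈ (ρ (T a b c)).eigenspace ω, ρ (T x y z) v ≠ v) :
    False := by
  obtain ⟨p, hp⟩ := fresh [a, b, c, x, y, z] (by simp; omega)
  obtain ⟨q, hq⟩ := fresh [a, b, c, x, y, z, p] (by simp; omega)
  obtain ⟨s, hs'⟩ := fresh [a, b, c, x, y, z, p, q] (by simp; omega)
  have hi := t.eig_inv (ρ := ρ) hd
  have hd' : [a, b, c, x, y, z, p, q, s].Nodup := by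
    simp only [List.nodup_cons, List.mem_cons, List.not_mem_nil, or_false, not_or] at hd hp hq hs' ⊢
    grind
  let e : Fin 9 ↪ α := ⟨_, List.nodup_iff_injective_get.1 hd'⟩
  have hd1 := hd
  simp only [List.nodup_cons, List.mem_cons, List.not_mem_nil, or_false, not_or] at hd1
  obtain ⟨j, j0, v, v1, v0, v2⟩ := t.eig_ne h3 hω (by grind) (by grind) (by grind) (hi ω) hv
  obtain ⟨l, H⟩ := Om.of (e := e) (i := 1) h t hω v0
    (show ρ (T a b c) v = _ by simpa using v1) v2
  have n2 : ∀ w, Om ρ T e ω w → nz3 w ≠ 2 := fun w hw e2 => by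
    have := Om.card hω h3 (fun w => nz3 w = 2) fun w' hw' => hw.orb h t hω (hw'.trans e2.symm)
    rw [show Fintype.card {w // nz3 w = 2} = 12 by decide +kernel] at this
    omega
  have n3 := (by decide : ∀ j l : Fin 3, j ≠ 0 → nz3 (1, j, l) ≠ 2 → nz3 (1, j, l) = 3) j l j0 (n2 _ H)
  have n1 : ∀ w, Om ρ T e ω w → nz3 w ≠ 1 := fun w hw e2 => by
    have := Om.card hω h3 (fun w => nz3 w = 1 ∨ nz3 w = 3) fun w' hw' => hw'.elim
      (fun hw' => hw.orb h t hω (hw'.trans e2.symm)) fun hw' => H.orb h t hω (hw'.trans n3.symm)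
    rw [show Fintype.card {w // nz3 w = 1 ∨ nz3 w = 3} = 14 by decide +kernel] at this
    omega
  have n8 := Om.card hω h3 (fun w => nz3 w = 3) fun w' hw' => H.orb h t hω (hw'.trans n3.symm)
  rw [show Fintype.card {w // nz3 w = 3} = 8 by decide +kernel] at n8
  have f1 : ∀ v, ρ (T a b c) v = v → ρ (T x y z) v = v := fun v hv => by
    by_contra hv'
    obtain ⟨j, j0, v, v1, v0, v2⟩ := t.eig_ne h3 hω (by grind) (by grind) (by grind) (hi 1) ⟨v, by simpa using hv, hv'⟩
    obtain ⟨l, H⟩ := Om.of (e := e) (i := 0) h t hω v0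
      (show ρ (T a b c) v = _ by simpa using v1) v2
    exact (by decide : ∀ j l : Fin 3, j ≠ 0 → nz3 (0, j, l) ≠ 1 → nz3 (0, j, l) ≠ 2 → False) j l j0 (n1 _ H) (n2 _ H)
  have f2 : ∀ {a b c x y z : α}, [a, b, c, x, y, z].Nodup → ∀ v, ρ (T a b c) v = v → ρ (T x y z) v = v := by
    intro a' b' c' x' y' z' hn v hw
    obtain ⟨g, hg⟩ := h.trans _ _ hn hd rfl (by simp; omega)
    simp only [List.nodup_cons, List.mem_cons, List.not_mem_nil, or_false, not_or] at hn
    simp only [List.map_cons, List.map_nil, List.cons.injEq, and_true] at hg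
    obtain ⟨rfl, rfl, rfl, rfl, rfl, rfl⟩ := hg
    apply r_inj ρ g
    rw [t.r g (by grind) (by grind) (by grind), f1 _ (by rw [← t.r g (by grind) (by grind) (by grind), hw])]
  have f3 : ∀ {a b c x y z : α}, a ≠ b → a ≠ c → b ≠ c → x ≠ y → x ≠ z → y ≠ z → ∀ v, ρ (T a b c) v = v →
      ρ (T x y z) v = v := by
    intro a b c x y z h1 h2 h3 h4 h5 h6 v hv
    obtain ⟨p, hp⟩ := fresh [a, b, c, x, y, z] (by simp; omega)
    obtain ⟨q, hq⟩ := fresh [a, b, c, x, y, z, p] (by simp; omega)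
    obtain ⟨s, hs'⟩ := fresh [a, b, c, x, y, z, p, q] (by simp; omega)
    simp only [List.mem_cons, List.not_mem_nil, or_false, not_or] at hp hq hs'
    exact f2 (a := p) (b := q) (c := s) (by simp; grind) v (f2 (by simp; grind) v hv)
  have hab : a ≠ b := by grind
  have hac : a ≠ c := by grind
  have hbc : b ≠ c := by grind
  let C := (ρ (T a b c)).eigenspace 1
  have hC : ∀ {v}, v ∈ C ↔ ρ (T a b c) v = v := by simp [C]
  let ρ' := Representation.quotient ρ C fun g v hv => hC.2 (by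
    have i := (π g).injective
    exact f3 (i.ne hab) (i.ne hac) (i.ne hbc) hab hac hbc _ (by rw [← t.r g hab hac hbc, hC.1 hv]))
  have hρ : ∀ g v, ρ' g (C.mkQ v) = C.mkQ (ρ g v) := fun g v => rfl
  have q0 : ∀ {a b c}, a ≠ b → a ≠ c → b ≠ c → ρ' (T a b c) ^ 2 + ρ' (T a b c) + 1 = 0 := by
    intro a' b' c' h1 h2 h3
    refine LinearMap.ext fun v => ?_
    obtain ⟨v, rfl⟩ := C.mkQ_surjective v
    simp only [sq, LinearMap.add_apply, End.mul_apply, hρ, End.one_apply, ← map_add, LinearMap.zero_apply]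
    refine (Submodule.Quotient.mk_eq_zero _).2 (hC.2 (f3 h1 h2 h3 hab hac hbc _ ?_))
    simp only [map_add, cube_app (t.cube h1 h2 h3)]
    abel
  have i3 := root3_inj hω h3
  have nC : ∀ {v} {j : Fin 3}, j ≠ 0 → v ≠ 0 → ρ (T x y z) v = ω ^ j.val • v → C.mkQ v ≠ 0 := by
    intro v j j0 v0 v2 e
    rw [f1 v (hC.1 ((Submodule.Quotient.mk_eq_zero _).1 e))] at v2
    exact j0 (i3 (smul_left_injective k v0 (v2.symm.trans (by simp))))
  have : Nontrivial (V ⧸ C) := nontrivial_of_ne _ _ (nC j0 v0 v2)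
  have := cliff (ρ := ρ') h t (fun z hz => by
    obtain ⟨c, hc⟩ := hs z hz
    refine ⟨c, fun v => ?_⟩
    obtain ⟨v, rfl⟩ := C.mkQ_surjective v
    rw [hρ, hc, map_smul]) ⟨T x y z, fun ⟨c, hc⟩ => by
      obtain ⟨g, g1, g2, g3, -⟩ := h.exists_inv [] (by simp; omega) (x := x) (y := y) (z := z) (by grind) (by grind)
        (by grind)
      have e1 := t.eig_eqv g (by grind) (by grind) (by grind) v2
      rw [g1, g2, g3] at e1
      have e2 := t.sq_eig (by grind) (by grind) (by grind) e1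
      rw [root3_sq hω] at e2
      have j2 := (by decide : ∀ j : Fin 3, j ≠ 0 → 2 * j ≠ 0 ∧ 2 * j ≠ j) j j0
      have e3 := hc (C.mkQ v)
      have e4 := hc (C.mkQ (ρ g v))
      rw [hρ, v2, map_smul] at e3
      rw [hρ, e2, map_smul] at e4
      exact j2.2 (i3 ((smul_left_injective k (nC j2.1 (r_ne ρ g v0) e2) e4).trans
        (smul_left_injective k (nC j0 v0 v2) e3).symm))⟩ h3 (by
      by_contra! H
      have := bd_le (k := k) (Fintype.card α)
      have e : Fintype.card α = 10 := by omega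
      rw [e, bd, if_pos (by exact_mod_cast H.1 e.ge)] at hlt
      omega) q0
  have := C.finrank_quotient_add_finrank
  omega

theorem TS.two_eig (h : CE π) (t : TS π T) (h3 : (3 : k) ≠ 0) {ω : k} (hω : ω ^ 2 + ω + 1 = 0)
    (l : List α) (hl : l.length + 5 ≤ Fintype.card α) {x y z : α} (h1 : x ≠ y) (h2 : x ≠ z) (h3' : y ≠ z)
    (hx : x ∉ l) (hy : y ∉ l) (hz : z ∉ l) {U : Submodule k V}
    (hU : ∀ g, (∀ a ∈ l, π g a = a) → ∀ v ∈ U, ρ g v ∈ U) (hn : ∃ v ∈ U, ρ (T x y z) v ≠ v) :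
    (∃ v ∈ U, v ≠ 0 ∧ ρ (T x y z) v = ω • v) ∧ (∃ v ∈ U, v ≠ 0 ∧ ρ (T x y z) v = ω ^ 2 • v) ∧
      T x y z ∉ scal ρ U := by
  obtain ⟨j, j0, v, v1, v0, v2⟩ := t.eig_ne h3 hω h1 h2 h3' (hU _ fun a ha => by
    rw [t.pi h1 h2 h3', c3_o] <;> rintro rfl <;> contradiction) hn
  obtain ⟨g, g1, g2, g3, g4⟩ := h.exists_inv l hl h1 h2 h3'
  have e1 := t.eig_eqv g h1 h2 h3' v2
  rw [g1, g2, g3] at e1
  have e2 := t.sq_eig h1 h2 h3' e1
  rw [root3_sq hω] at e2
  have e3 := hU g (fun a ha => g4 a ha (by rintro rfl; exact hy ha) (by rintro rfl; exact hz ha)) v v1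
  have key : (∃ v ∈ U, v ≠ 0 ∧ ρ (T x y z) v = ω • v) ∧ (∃ v ∈ U, v ≠ 0 ∧ ρ (T x y z) v = ω ^ 2 • v) := by
    fin_cases j
    · exact absurd rfl j0
    · exact ⟨⟨v, v1, v0, by simpa using v2⟩, _, e3, r_ne ρ g v0, e2⟩
    · exact ⟨⟨_, e3, r_ne ρ g v0, e2.trans (by congr 1; exact pow_one ω)⟩, v, v1, v0, v2⟩
  refine ⟨key.1, key.2, fun ⟨c, hc⟩ => ?_⟩
  obtain ⟨⟨v, v1, v0, v2⟩, w, w1, w0, w2⟩ := key
  have := root3_inj hω h3 (a₁ := 1) (a₂ := 2) (by
    simpa using (smul_left_injective k v0 (v2.symm.trans (hc v v1))).trans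
      (smul_left_injective k w0 (w2.symm.trans (hc w w1))).symm)
  exact absurd this (by decide)

theorem W3_le {x : G} (h3 : (3 : k) ≠ 0) {ω : k} (hω : ω ^ 2 + ω + 1 = 0) :
    W3 ρ x = (ρ x).eigenspace ω ⊔ (ρ x).eigenspace (ω ^ 2) := by
  refine le_antisymm (fun v hv => ?_) (sup_le (fun v hv => ?_) fun v hv => ?_)
  · rw [mem_W3] at hv
    have e : ω - ω ^ 2 ≠ 0 := fun e => h3 (by grind)
    rw [show v = (ω - ω ^ 2)⁻¹ • ((ρ x v - ω ^ 2 • v) - (ρ x v - ω • v)) by
      rw [show (ρ x v - ω ^ 2 • v) - (ρ x v - ω • v) = (ω - ω ^ 2) • v by module, smul_smul, inv_mul_cancel₀ e,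
        one_smul]]
    refine Submodule.smul_mem _ _ (sub_mem (Submodule.mem_sup_left ?_) (Submodule.mem_sup_right ?_)) <;>
      rw [End.mem_eigenspace_iff, map_sub, map_smul]
    · linear_combination (norm := module) hv - hω • ρ x v + ((ω - 1) * hω) • v
    · linear_combination (norm := module) hv - hω • ρ x v + ((ω - 1) * hω) • v
  · rw [End.mem_eigenspace_iff] at hv
    rw [mem_W3, hv, map_smul, hv]
    linear_combination (norm := module) hω • v
  · rw [End.mem_eigenspace_iff] at hv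
    rw [mem_W3, hv, map_smul, hv]
    linear_combination (norm := module) ((ω ^ 2 - ω + 1) * hω) • v

theorem low_ne3 (h3 : (3 : k) ≠ 0) (r : ℕ) : ∀ (α : Type) [Fintype α] [DecidableEq α], Fintype.card α = r → 9 ≤ r →
    Low.{u, v} k α (bd k r) := by
  induction r using Nat.strong_induction_on with
  | _ r ih =>
  intro α _ _ hr h9 G _ π V _ _ _ ρ h hs hn
  subst hr
  by_contra! hlt
  have hb := bd_le (k := k) (Fintype.card α)
  obtain ⟨T, t⟩ := h.exists_TS (by omega)
  obtain ⟨ω, hω⟩ : ∃ ω : k, ω ^ 2 + ω + 1 = 0 := by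
    obtain ⟨ω, hω⟩ := IsAlgClosed.exists_root (Polynomial.X ^ 2 + Polynomial.X + 1 : Polynomial k)
      (by rw [show (Polynomial.X ^ 2 + Polynomial.X + 1 : Polynomial k).degree = 2 by compute_degree!]; decide)
    exact ⟨ω, by simpa using hω⟩
  have i3 := root3_inj hω h3
  have nt : ∀ {a b c}, a ≠ b → a ≠ c → b ≠ c → ∃ v ∈ (⊤ : Submodule k V), ρ (T a b c) v ≠ v := by
    intro a b c h1 h2 h3'
    by_contra! H
    refine hn.ne h hs (by omega) (g := T a b c) (fun e => ?_) ⟨1, by simpa using H⟩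
    have := c3_1 h1 h3'
    rw [← t.pi h1 h2 h3', e] at this
    exact h1 this
  have IH : 12 ≤ Fintype.card α → ∀ {a b c x y z}, [a, b, c, x, y, z].Nodup → ∀ l : k,
      (∃ v ∈ (ρ (T a b c)).eigenspace l, ρ (T x y z) v ≠ v) →
        Fintype.card α - 5 ≤ finrank k ((ρ (T a b c)).eigenspace l) := by
    intro h12 a b c x y z hd l hv
    simp only [List.nodup_cons, List.mem_cons, List.not_mem_nil, or_false, not_or] at hd
    have hc : Fintype.card {x // x ∉ ({a, b, c} : Finset α)} = Fintype.card α - 3 := by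
      rw [card_compl, Finset.card_eq_three.2 ⟨a, b, c, by grind, by grind, by grind, rfl⟩]
    have hU : ∀ g, π g a = a → π g b = b → π g c = c → ∀ v ∈ (ρ (T a b c)).eigenspace l,
        ρ g v ∈ (ρ (T a b c)).eigenspace l := fun g g1 g2 g3 v hv => by
      rw [End.mem_eigenspace_iff] at hv ⊢
      simpa only [g1, g2, g3] using t.eig_eqv g (by grind) (by grind) (by grind) hv
    have := (ih _ (by omega) _ hc (by omega)).use' {a, b, c} h hs _
      (fun g hg => hU g (hg a (by simp)) (hg b (by simp)) (hg c (by simp))) (g := T x y z)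
      (by rw [t.pi (by grind) (by grind) (by grind)]; simp only [Finset.mem_insert, Finset.mem_singleton]
          rintro _ (rfl | rfl | rfl) <;> exact c3_o (by grind) (by grind) (by grind))
      (t.two_eig h h3 hω [a, b, c] (by simp; omega) (by grind) (by grind) (by grind) (by simp; grind)
        (by simp; grind) (by simp; grind)
        (fun g hg => hU g (hg a (by simp)) (hg b (by simp)) (hg c (by simp))) hv).2.2
    have := (bd_le (k := k) (Fintype.card α - 3)).1
    omega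
  have dE : ∀ {a b c x y z}, a ≠ b → a ≠ c → b ≠ c → x ≠ y → x ≠ z → y ≠ z →
      finrank k ((ρ (T a b c)).eigenspace ω) ≤ finrank k ((ρ (T x y z)).eigenspace ω) ∧
      finrank k ((ρ (T a b c)).eigenspace ω) ≤ finrank k ((ρ (T x y z)).eigenspace (ω ^ 2)) := by
    intro a b c x y z h1 h2 h3 h4 h5 h6
    constructor
    · obtain ⟨g, hg⟩ := h.trans [a, b, c] [x, y, z] (by simp; grind) (by simp; grind) rfl (by simp; omega)
      simp only [List.map_cons, List.map_nil, List.cons.injEq, and_true] at hg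
      obtain ⟨rfl, rfl, rfl⟩ := hg
      exact finrank_le_of_map _ (r_inj ρ g) fun v hv => End.mem_eigenspace_iff.2
        (t.eig_eqv g h1 h2 h3 (End.mem_eigenspace_iff.1 hv))
    · obtain ⟨g, hg⟩ := h.trans [a, b, c] [x, z, y] (by simp; grind) (by simp; grind) rfl (by simp; omega)
      simp only [List.map_cons, List.map_nil, List.cons.injEq, and_true] at hg
      obtain ⟨rfl, rfl, rfl⟩ := hg
      exact finrank_le_of_map _ (r_inj ρ g) fun v hv => End.mem_eigenspace_iff.2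
        (t.sq_eig h4 h5 h6 (t.eig_eqv g h1 h2 h3 (End.mem_eigenspace_iff.1 hv)))
  have sw : ∀ {a b c}, a ≠ b → a ≠ c → b ≠ c → (ρ (T a b c)).eigenspace (ω ^ 2) ≤ (ρ (T a c b)).eigenspace ω := by
    intro a b c h1 h2 h3 v hv
    rw [End.mem_eigenspace_iff] at hv ⊢
    rw [t.sq_eig h2 h1 h3.symm hv]
    linear_combination (norm := module) ((ω ^ 2 - ω) * hω) • v
  have s3 : ∀ g, finrank k ((ρ g).eigenspace 1) + finrank k ((ρ g).eigenspace ω) +
      finrank k ((ρ g).eigenspace (ω ^ 2)) ≤ finrank k V := fun g => by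
    have := sum_le_of_wt (fun _ : Unit => ρ g) (fun (i : Fin 3) _ => ω ^ i.val) (fun i j e => i3 (congrFun e ()))
      (fun i => (ρ g).eigenspace (ω ^ i.val)) fun i v hv _ => End.mem_eigenspace_iff.1 hv
    rw [Fin.sum_univ_three] at this
    change finrank k ((ρ g).eigenspace (ω ^ 0)) + finrank k ((ρ g).eigenspace (ω ^ 1)) +
      finrank k ((ρ g).eigenspace (ω ^ 2)) ≤ _ at this
    rwa [pow_zero, pow_one] at this
  by_cases hc : ∀ {a b c x y z}, [a, b, c, x, y, z].Nodup → ∀ v ∈ W3 ρ (T a b c), ρ (T x y z) v = v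
  · obtain ⟨e⟩ := exists_emb h9
    have n : ∀ {i j : Fin 9}, i ≠ j → e i ≠ e j := fun h => e.injective.ne h
    have nd : ∀ {l : List (Fin 9)}, l.Nodup → (l.map e).Nodup := fun h => h.map e.injective
    have h1 : e 0 ≠ e 1 := n (by decide)
    have h2 : e 0 ≠ e 2 := n (by decide)
    have h3' : e 1 ≠ e 2 := n (by decide)
    have d1 : finrank k ((ρ (T (e 0) (e 1) (e 2))).eigenspace ω) ≤ 1 := by
      by_contra! d2
      by_cases h12 : 12 ≤ Fintype.card α
      · obtain ⟨⟨v, -, v0, v1⟩, -⟩ := t.two_eig h h3 hω [] (by simp; omega) (n (i := 3) (j := 4) (by decide))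
          (n (j := 5) (by decide)) (n (by decide)) (by simp) (by simp) (by simp) (U := ⊤) (by simp)
          (nt (n (by decide)) (n (by decide)) (n (by decide)))
        have := IH h12 (nd (l := [0, 1, 2, 3, 4, 5]) (by decide)) 1 ⟨v, End.mem_eigenspace_iff.2
          ((hc (nd (l := [3, 4, 5, 0, 1, 2]) (by decide)) v (W3_le (ρ := ρ) h3 hω ▸ Submodule.mem_sup_left
            (End.mem_eigenspace_iff.2 v1))).trans (one_smul k v).symm), fun e1 => absurd (i3 (a₁ := 1) (a₂ := 0)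
              (smul_left_injective k v0 (by simpa using v1.symm.trans e1))) (by decide)⟩
        have := s3 (T (e 0) (e 1) (e 2))
        have := (dE h1 h2 h3' h1 h2 h3').2
        omega
      · let x : Fin 3 → G := ![T (e 0) (e 1) (e 2), T (e 3) (e 4) (e 5), T (e 6) (e 7) (e 8)]
        have hx : ∀ i j, i ≠ j → ∀ v ∈ W3 ρ (x i), ρ (x j) v = v := by
          intro i j hij
          fin_cases i <;> fin_cases j <;> first | exact absurd rfl hij | exact hc (by simp)
        have := sum_le_of_wt (fun i => ρ (x i))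
          (fun (b : Fin 3 × Fin 2) i => ω ^ (if i = b.1 then b.2.succ else 0 : Fin 3).val)
          (fun b b' e => by
            exact (by decide : ∀ b b' : Fin 3 × Fin 2, (∀ i, (if i = b.1 then b.2.succ else 0 : Fin 3) =
              if i = b'.1 then b'.2.succ else 0) → b = b') b b' fun i => i3 (congrFun e i)) (fun b => (ρ (x b.1)).eigenspace (ω ^ b.2.succ.val)) (fun b v hv i => by
            split_ifs with e1
            · exact e1 ▸ End.mem_eigenspace_iff.1 hv
            · rw [hx b.1 i (Ne.symm e1) v]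
              · simp
              · rw [W3_le h3 hω]
                obtain ⟨i, j⟩ := b
                fin_cases j
                exacts [Submodule.mem_sup_left (by simpa using hv), Submodule.mem_sup_right hv])
        have e2 : ∀ b : Fin 3 × Fin 2, 2 ≤ finrank k ((ρ (x b.1)).eigenspace (ω ^ b.2.succ.val)) := by
          rintro ⟨i, j⟩
          have : finrank k ((ρ (x 0)).eigenspace ω) ≤ finrank k ((ρ (x i)).eigenspace ω) ∧
              finrank k ((ρ (x 0)).eigenspace ω) ≤ finrank k ((ρ (x i)).eigenspace (ω ^ 2)) := by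
            fin_cases i <;> exact dE h1 h2 h3' (n (by decide)) (n (by decide)) (n (by decide))
          fin_cases j
          · show 2 ≤ finrank k ((ρ (x i)).eigenspace (ω ^ 1))
            rw [pow_one]
            exact d2.trans_le this.1
          · exact d2.trans_le this.2
        have := (Finset.sum_le_sum fun b _ => e2 b).trans this
        simp at this
        omega
    refine absurd (bd_le_of (nat3 h t h9 h3 (fun {a b c} h4 h5 h6 => ?_) hc)) hlt.not_ge
    obtain ⟨⟨v, -, v0, v1⟩, ⟨w, -, w0, w1⟩, -⟩ := t.two_eig h h3 hω [] (by simp; omega) h4 h5 h6 (by simp) (by simp)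
      (by simp) (U := ⊤) (by simp) (nt h4 h5 h6)
    have e1 := Submodule.finrank_sup_add_finrank_inf_eq ((ρ (T a b c)).eigenspace ω) ((ρ (T a b c)).eigenspace (ω ^ 2))
    rw [← W3_le h3 hω, (Submodule.eq_bot_iff (_ ⊓ _)).2 fun v hv => by_contra fun v0 => absurd
      (i3 (a₁ := 1) (a₂ := 2) (smul_left_injective k v0 (by
        simpa using (End.mem_eigenspace_iff.1 hv.1).symm.trans (End.mem_eigenspace_iff.1 hv.2)))) (by decide),
      finrank_bot] at e1
    have e2 := Submodule.one_le_finrank_iff.2 ((Submodule.ne_bot_iff _).2 ⟨v, End.mem_eigenspace_iff.2 v1, v0⟩)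
    have e3 := Submodule.one_le_finrank_iff.2 ((Submodule.ne_bot_iff _).2 ⟨w, End.mem_eigenspace_iff.2 w1, w0⟩)
    have e4 := (dE h4 h5 h6 h1 h2 h3').1
    have e5 := (Submodule.finrank_mono (sw h4 h5 h6)).trans (dE h5 h4 h6.symm h1 h2 h3').1
    omega
  · obtain ⟨a, b, c, x, y, z, hd, hv⟩ : ∃ a b c x y z, [a, b, c, x, y, z].Nodup ∧
        ∃ v ∈ (ρ (T a b c)).eigenspace ω, ρ (T x y z) v ≠ v := by
      by_contra! H
      refine hc fun {a b c x y z} hd v hv => ?_
      rw [W3_le h3 hω] at hv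
      obtain ⟨p, hp, q, hq, rfl⟩ := Submodule.mem_sup.1 hv
      have hd' := hd
      simp only [List.nodup_cons, List.mem_cons, List.not_mem_nil, or_false, not_or] at hd'
      rw [map_add, H _ _ _ _ _ _ hd p hp, H a c b x y z (by simp; grind) q (sw (by grind) (by grind) (by grind) hq)]
    by_cases h12 : 12 ≤ Fintype.card α
    · have := IH h12 hd ω hv
      simp only [List.nodup_cons, List.mem_cons, List.not_mem_nil, or_false, not_or] at hd
      have := s3 (T a b c)
      have := (dE (a := a) (b := b) (c := c) (x := a) (y := b) (z := c) (by grind) (by grind) (by grind) (by grind)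
        (by grind) (by grind)).2
      omega
    · exact small3 h t hs hn h3 h9 hω hlt (by omega) hd hv

end Cfsg.Agent.H23.Wg
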