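import Mathlib
import Cfsg.Agent.H23.Wg6

/-! Lifts of double transpositions; the spin case. -/

set_option autoImplicit false
set_option linter.unusedSectionVars false
set_option linter.unusedVariables false

namespace Cfsg.Agent.H23.Wg

open Equiv Equiv.Perm Module

universe u v

variable {α : Type*} [Fintype α] [DecidableEq α] {G : Type u} [Group G] {π : G →* Perm α}
  {k : Type*} {V : Type v} [Field k] [AddCommGroup V] [Module k V] [FiniteDimensional k V] {ρ : G →* End k V}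
  {T : α → α → α → G}

/-- canonical lift of a double transposition -/
def Dl (T : α → α → α → G) (a b c d : α) : G := T a c b * T a c d

theorem nd4 {a b c d : α} : [a, b, c, d].Nodup ↔ a ≠ b ∧ a ≠ c ∧ a ≠ d ∧ b ≠ c ∧ b ≠ d ∧ c ≠ d := by
  simp; grind

theorem TS.D_pi (t : TS π T) {a b c d : α} (h : [a, b, c, d].Nodup) : π (Dl T a b c d) = swap a b * swap c d := by
  rw [nd4] at h
  rw [Dl, map_mul, t.pi (by grind) (by grind) (by grind), t.pi (by grind) (by grind) (by grind), c3_mul] <;> grind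

theorem TS.D_conj (t : TS π T) (g : G) {a b c d : α} (h : [a, b, c, d].Nodup) :
    g * Dl T a b c d * g⁻¹ = Dl T (π g a) (π g b) (π g c) (π g d) := by
  rw [nd4] at h
  rw [Dl, Dl, ← t.conj g (by grind) (by grind) (by grind), ← t.conj g (by grind) (by grind) (by grind)]
  group

theorem TS.D_r (t : TS π T) (g : G) {a b c d : α} (h : [a, b, c, d].Nodup) (v : V) :
    ρ g (ρ (Dl T a b c d) v) = ρ (Dl T (π g a) (π g b) (π g c) (π g d)) (ρ g v) := by
  rw [← t.D_conj g h, r_mul, r_mul, r_inv]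

theorem TS.D_inv (t : TS π T) {a b c d : α} (h : [a, b, c, d].Nodup) : Dl T c d a b = (Dl T a b c d)⁻¹ := by
  rw [nd4] at h
  rw [Dl, Dl, mul_inv_rev, ← t.inv (by grind) (by grind) (by grind), ← t.inv (by grind) (by grind) (by grind),
    t.rot (a := c) (by grind) (by grind) (by grind), t.rot (a := c) (by grind) (by grind) (by grind)]

theorem TS.D_sq (t : TS π T) {a b c d : α} (h : [a, b, c, d].Nodup) : π (Dl T a b c d ^ 2) = 1 := by
  rw [map_pow, t.D_pi h]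
  rw [nd4] at h
  exact swap2_sq (by grind) (by grind) (by grind) (by grind)

theorem TS.D_rot (t : TS π T) (h : CE π) (h6 : 6 ≤ Fintype.card α) {a b c d : α} (hd : [a, b, c, d].Nodup) :
    Dl T c d b a = Dl T a b c d := by
  obtain ⟨m, hm⟩ := fresh [a, b, c, d] (by simp; omega)
  obtain ⟨n, hn⟩ := fresh [m, a, b, c, d] (by simp; omega)
  have hd' := nd4.1 hd
  simp only [List.mem_cons, List.not_mem_nil, or_false, not_or] at hm hn
  obtain ⟨g, hg⟩ := h.surj (swap a d * swap a b * swap a c * swap n m) (by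
    simp only [Perm.sign_mul]
    rw [sign_swap hn.1, sign_swap hd'.1, sign_swap hd'.2.1, sign_swap hd'.2.2.1]; rfl)
  have e1 := h.cen (Dl T a b c d * (g ^ 2)⁻¹) (by
    rw [map_mul, map_inv, mul_inv_eq_one, t.D_pi hd, map_pow, hg, pow_two]
    ext x; simp only [Perm.mul_apply, swap_apply_def]; grind) g
  have e2 : Commute (Dl T a b c d) g := by
    simpa using e1.mul_left ((Commute.refl g).pow_left 2)
  have e3 := t.D_conj g hd
  rw [← e2.eq, mul_inv_cancel_right] at e3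
  rw [e3, hg]
  congr 1 <;> simp only [Perm.mul_apply, swap_apply_def] <;> grind

theorem TS.D_sq_eq (t : TS π T) (h : CE π) (h6 : 6 ≤ Fintype.card α) {a b c d x y z w : α}
    (hd : [a, b, c, d].Nodup) (hd' : [x, y, z, w].Nodup) : Dl T a b c d ^ 2 = Dl T x y z w ^ 2 := by
  obtain ⟨g, hg⟩ := h.trans _ _ hd hd' rfl (by simp; omega)
  simp only [List.map_cons, List.map_nil, List.cons.injEq, and_true] at hg
  obtain ⟨rfl, rfl, rfl, rfl⟩ := hg
  rw [← t.D_conj g hd, conj_pow, ← (h.cen _ (t.D_sq hd) g).eq, mul_inv_cancel_right]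

theorem TS.D_four (t : TS π T) (h : CE π) (h6 : 6 ≤ Fintype.card α) {a b c d : α} (hd : [a, b, c, d].Nodup) :
    Dl T a b c d ^ 4 = 1 := by
  have := t.D_sq_eq h h6 hd (x := c) (y := d) (z := a) (w := b) (by rw [nd4] at *; grind)
  rw [t.D_inv hd, inv_pow, eq_inv_iff_mul_eq_one, ← pow_add] at this
  exact this

theorem TS.D_anti (t : TS π T) {a b c d : α} (hd : [a, b, c, d].Nodup) :
    Dl T a c b d * Dl T a b c d * (Dl T a c b d)⁻¹ = (Dl T a b c d)⁻¹ := by
  have hd' := nd4.1 hd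
  rw [t.D_conj _ hd, ← t.D_inv hd, t.D_pi (by rw [nd4]; grind)]
  congr 1 <;> simp only [Perm.mul_apply, swap_apply_def] <;> grind

theorem CE.exists_cyc {β : Type*} [Fintype β] [DecidableEq β] (h : CE π) (e : β ↪ α) (x g : Perm β)
    (hx : sign x = 1) (hg : sign g = 1) {l n : ℕ} (hl : x ^ l = 1) (H : g * x * g⁻¹ = x ^ (n + 1)) :
    ∃ X Y : G, (∀ i, π X (e i) = e ((x ^ n) i)) ∧ X ^ l = 1 ∧ Y * X * Y⁻¹ = X ^ (n + 1) := by
  obtain ⟨H, π', h1, h2, h3⟩ := exists_res h e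
  obtain ⟨x, rfl⟩ := h1.surj x hx
  obtain ⟨g, rfl⟩ := h1.surj g hg
  obtain ⟨X, x1, x2, x3⟩ := h1.exists_can hl H
  exact ⟨X, g, fun i => by rw [h2, x1], congrArg Subtype.val x2, congrArg Subtype.val x3⟩

theorem conj_eig {X X' Y : G} {m : ℕ} (h : Y * X * Y⁻¹ = X' ^ m) {v : V} {c : k} (hv : ρ X' v = c • v) :
    ρ X (ρ Y⁻¹ v) = c ^ m • ρ Y⁻¹ v := by
  apply r_inj ρ Y
  rw [← r_mul, ← r_mul, h, map_pow, pow_apply_eig hv, map_smul, r_inv']

variable [IsAlgClosed k]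

theorem cyc_eig {l m : ℕ} (hl : l.Prime) (hk : (l : k) ≠ 0) {X Y : G} (h1 : X ^ l = 1) (h2 : Y * X * Y⁻¹ = X ^ m)
    (hm : ∀ j : Fin (l - 1), ∃ t < l, m ^ t % l = j + 1) (hn : ∃ v, ρ X v ≠ v) :
    ∃ c : k, IsPrimitiveRoot c l ∧ ∀ j : Fin (l - 1), ∃ v ≠ 0, ρ X v = c ^ (j.val + 1) • v := by
  obtain ⟨c, c1, c2, v, -, v0, v1⟩ := exists_eig_ne (U := ⊤) (X := ρ X) (by simp) hk
    (by rw [← map_pow, h1, map_one]) (by simpa using hn)
  have := Fact.mk hl
  refine ⟨c, orderOf_eq_prime c2 c1 ▸ IsPrimitiveRoot.orderOf c, fun j => ?_⟩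
  obtain ⟨t, -, ht⟩ := hm j
  rw [← ht, ← pow_eq_pow_mod _ c2]
  clear ht
  induction t with
  | zero => exact ⟨v, v0, v1.trans (by simp)⟩
  | succ t ih =>
    obtain ⟨w, w0, w1⟩ := ih
    exact ⟨_, r_ne ρ _ w0, by rw [conj_eig h2 w1, ← pow_mul, pow_succ]⟩

theorem prim_inj {c : k} {l : ℕ} (hc : IsPrimitiveRoot c l) :
    Function.Injective fun j : Fin (l - 1) => c ^ (j.val + 1) := fun i j e => by
  have h1 := i.2
  have h2 := j.2
  by_cases e1 : l = 1
  · omega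
  have := hc.pow_inj (i := (i.val + 1)) (j := (j.val + 1)) (by omega) (by omega) e
  exact Fin.ext (by omega)

theorem ne_of_nt (h : CE π) (hs : SC π ρ) (hn : NT ρ) (h5 : 5 ≤ Fintype.card α) {g : G} (hg : π g ≠ 1) :
    ∃ v, ρ g v ≠ v := by
  by_contra! H
  exact hn.ne h hs h5 hg ⟨1, by simpa using H⟩

theorem low_seven (h5 : (5 : k) ≠ 0) : Low.{u, v} k (Fin 7) 4 := by
  intro G _ π V _ _ _ ρ h hs hn
  obtain ⟨X, Y, x1, x2, x3⟩ := h.exists_cyc (Function.Embedding.refl _) (List.formPerm [0, 1, 2, 3, 4])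
    (List.formPerm [1, 2, 4, 3] * swap 5 6) (by decide +kernel) (by decide +kernel) (l := 5) (n := 1)
    (by decide +kernel) (by decide +kernel)
  obtain ⟨c, c1, c2⟩ := cyc_eig (ρ := ρ) (by norm_num) (by exact_mod_cast h5) x2 x3 (by decide)
    (ne_of_nt h hs hn (by simp) fun e => absurd (e ▸ x1 0) (by decide))
  exact card_le_of_wt (fun _ : Unit => ρ X) (fun (j : Fin 4) _ => c ^ (j.val + 1))
    (fun i j e => prim_inj c1 (congrFun e ())) fun j => by simpa using c2 j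

section Spin

theorem spin_flip (t : TS π T) {a b c d : α} (hd : [a, b, c, d].Nodup) (hz : ρ (Dl T a b c d ^ 2) = -1) (v : V) :
    ρ (Dl T a b c d) (ρ (Dl T a c b d) v) = -ρ (Dl T a c b d) (ρ (Dl T a b c d) v) := by
  have e := t.D_anti hd
  rw [mul_inv_eq_iff_eq_mul, eq_inv_mul_iff_mul_eq] at e
  have e1 : Dl T a b c d ^ 2 * (Dl T a c b d * Dl T a b c d) = Dl T a b c d * Dl T a c b d := by
    rw [sq, mul_assoc, e]
  rw [← r_mul, ← e1, r_mul, hz, r_mul]; rfl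

theorem spin_eig (t : TS π T) {a b c d : α} (hd : [a, b, c, d].Nodup) (hz : ρ (Dl T a b c d ^ 2) = -1)
    {U : Submodule k V} (hU : U ≠ ⊥) (h1 : ∀ u ∈ U, ρ (Dl T a b c d) u ∈ U) (h2 : ∀ u ∈ U, ρ (Dl T a c b d) u ∈ U)
    {i : k} (hi : i ^ 2 = -1) (s : Bool) : ∃ v ∈ U, v ≠ 0 ∧ ρ (Dl T a b c d) v = (if s then i else -i) • v := by
  obtain ⟨l, v, v1, v0, v2⟩ := exists_eig hU h1
  have e1 := pow_apply_eig v2 2
  rw [← map_pow, hz] at e1
  have e2 : l ^ 2 = i ^ 2 := hi ▸ smul_left_injective k v0 (by simpa using e1.symm)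
  have e3 : ρ (Dl T a b c d) (ρ (Dl T a c b d) v) = (-l) • ρ (Dl T a c b d) v := by
    rw [spin_flip t hd hz, v2, map_smul, neg_smul]
  rcases sq_eq_sq_iff_eq_or_eq_neg.1 e2 with rfl | rfl <;> cases s
  exacts [⟨_, h2 v v1, r_ne ρ _ v0, e3⟩, ⟨v, v1, v0, v2⟩, ⟨v, v1, v0, v2⟩, ⟨_, h2 v v1, r_ne ρ _ v0, by simpa using e3⟩]

theorem TS.D_comm (t : TS π T) {a b c d : α} (hd : [a, b, c, d].Nodup) {g : G} (ha : π g a = a) (hb : π g b = b)
    (hc : π g c = c) (hd' : π g d = d) (v : V) : ρ g (ρ (Dl T a b c d) v) = ρ (Dl T a b c d) (ρ g v) := by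
  rw [t.D_r g hd, ha, hb, hc, hd']

theorem neg_ne_of_sq {i : k} (hi : i ^ 2 = -1) (h2 : (2 : k) ≠ 0) : i ≠ -i := fun e => by
  have : i = 0 := (mul_eq_zero.1 (show 2 * i = 0 by linear_combination e)).resolve_left h2
  rw [this] at hi
  simp at hi

theorem spin_two (t : TS π T) (h2 : (2 : k) ≠ 0) {a b c d : α} (hd : [a, b, c, d].Nodup)
    (hz : ρ (Dl T a b c d ^ 2) = -1) {g : G} (ha : π g a = a) (hb : π g b = b) (hc : π g c = c) (hd' : π g d = d)
    {β : Type*} [Fintype β] (f : β → k) (hf : Function.Injective f) (H : ∀ j, ∃ v ≠ 0, ρ g v = f j • v) :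
    Fintype.card β * 2 ≤ finrank k V := by
  obtain ⟨i, hi⟩ := IsAlgClosed.exists_pow_nat_eq (-1 : k) two_pos
  have := card_le_of_wt ![ρ g, ρ (Dl T a b c d)] (fun j : β × Bool => ![f j.1, if j.2 then i else -i])
    (fun x y e => Prod.ext (hf (congrFun e 0)) (by
      have e1 : (if x.2 then i else -i) = if y.2 then i else -i := congrFun e 1
      have := neg_ne_of_sq hi h2
      cases h1 : x.2 <;> cases h2 : y.2 <;> simp only [h1, h2, if_true, Bool.false_eq_true, if_false] at e1 ⊢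
      exacts [absurd e1.symm this, absurd e1 this])) fun j => by
    obtain ⟨v, v0, v1⟩ := H j.1
    obtain ⟨w, w1, w0, w2⟩ := spin_eig t hd hz (U := (ρ g).eigenspace (f j.1))
      ((Submodule.ne_bot_iff _).2 ⟨v, End.mem_eigenspace_iff.2 v1, v0⟩) (fun u hu => by
        rw [End.mem_eigenspace_iff] at hu ⊢
        rw [t.D_comm hd ha hb hc hd', hu, map_smul]) (fun u hu => by
        rw [End.mem_eigenspace_iff] at hu ⊢
        rw [t.D_comm (by rw [nd4] at *; grind) ha hc hb hd', hu, map_smul]) hi j.2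
    exact ⟨w, w0, fun l => by fin_cases l; exacts [End.mem_eigenspace_iff.1 w1, w2]⟩
  simpa using this

theorem spin_cyc (h : CE π) (t : TS π T) (hs : SC π ρ) (hn : NT ρ) (h2 : (2 : k) ≠ 0)
    (hz : ∀ {a b c d}, [a, b, c, d].Nodup → ρ (Dl T a b c d ^ 2) = -1) {m : ℕ} (e : Fin (m + 5) ↪ α)
    (x g : Perm (Fin (m + 5))) (hx : sign x = 1) (hg : sign g = 1) {l n : ℕ} (hl : x ^ l = 1)
    (H : g * x * g⁻¹ = x ^ (n + 1)) (hp : l.Prime) (hk : (l : k) ≠ 0)
    (hm : ∀ j : Fin (l - 1), ∃ t < l, (n + 1) ^ t % l = j + 1)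
    (hf : (x ^ n) 0 = 0 ∧ (x ^ n) 1 = 1 ∧ (x ^ n) 2 = 2 ∧ (x ^ n) 3 = 3 ∧ (x ^ n) 4 ≠ 4 ∧
      ([0, 1, 2, 3] : List (Fin (m + 5))).Nodup) : (l - 1) * 2 ≤ finrank k V := by
  obtain ⟨X, Y, x1, x2, x3⟩ := h.exists_cyc e x g hx hg hl H
  obtain ⟨f0, f1, f2, f3, f4, f5⟩ := hf
  obtain ⟨c, c1, c2⟩ := cyc_eig (ρ := ρ) hp hk x2 x3 hm
    (ne_of_nt h hs hn (le_trans (by simp) (Fintype.card_le_of_embedding e)) fun e1 =>
      f4 (e.injective ((x1 4).symm.trans (by rw [e1]; rfl))))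
  have hd := f5.map e.injective
  simpa using spin_two t h2 hd (hz hd) (by rw [x1, f0]) (by rw [x1, f1]) (by rw [x1, f2]) (by rw [x1, f3]) _
    (prim_inj c1) c2

/-- orbit enumeration -/
def orb5 : ℕ → Fin 5 × Fin 5 → List (Fin 5 × Fin 5)
  | 0, w => [w]
  | n + 1, w => w :: (orb5 n (w.2, 2 * w.1) ++ orb5 n (w.1, 4 * w.2))

theorem orb5_chk : ∀ w w' : Fin 5 × Fin 5, w.1 ≠ 0 ∧ w.2 ≠ 0 → w'.1 ≠ 0 ∧ w'.2 ≠ 0 → w' ∈ orb5 7 w := by
  decide +kernel

theorem spin_ten (h : CE π) (t : TS π T) (hs : SC π ρ) (hn : NT ρ) (h2 : (2 : k) ≠ 0) (h5 : (5 : k) ≠ 0)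
    (hz : ∀ {a b c d}, [a, b, c, d].Nodup → ρ (Dl T a b c d ^ 2) = -1) (e : Fin 10 ↪ α) : 10 ≤ finrank k V := by
  by_contra! hlt
  obtain ⟨H, π', h1, h2', h3⟩ := exists_res h e
  obtain ⟨x, hx⟩ := h1.surj (List.formPerm [0, 1, 2, 3, 4]) (by decide +kernel)
  obtain ⟨g, hg⟩ := h1.surj (swap 0 5 * List.formPerm [1, 6, 2, 7, 4, 9, 3, 8]) (by decide +kernel)
  obtain ⟨j, hj⟩ := h1.surj (swap 6 9 * swap 7 8) (by decide +kernel)
  obtain ⟨X, x1, x2, x3⟩ := h1.exists_can (x := x) (g := g ^ 2) (l := 5) (m := 1) (by rw [hx]; decide +kernel)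
    (by rw [map_pow, hx, hg]; decide +kernel)
  rw [pow_one, hx] at x1
  obtain ⟨Y, hY⟩ : ∃ Y, Y = g * X * g⁻¹ := ⟨_, rfl⟩
  have y1 : π' Y = List.formPerm [5, 6, 7, 8, 9] := by
    rw [hY, map_mul, map_mul, map_inv, x1, hg]; decide +kernel
  have y2 : Y ^ 5 = 1 := by rw [hY, conj_pow, x2]; simp
  have y3 : g * Y * g⁻¹ = X ^ 2 := by rw [← x3, hY]; simp only [sq]; group
  have y4 : g ^ 2 * Y * (g ^ 2)⁻¹ = Y ^ 2 := by
    rw [hY, conj_pow, ← y3, hY]; simp only [sq]; group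
  have c1 : Commute j X := h1.comm_of_coprime (by rw [hj, x1]; unfold Commute SemiconjBy; decide +kernel)
    (m := 2) (n := 5) (by rw [hj]; decide +kernel) (by rw [x1]; decide +kernel) (by norm_num)
  have c2 : Commute (j⁻¹ * g ^ 4) Y := h1.comm_of_coprime
    (by rw [map_mul, map_inv, map_pow, hj, hg, y1]; unfold Commute SemiconjBy; decide +kernel)
    (m := 2) (n := 5) (by rw [map_mul, map_inv, map_pow, hj, hg]; decide +kernel) (by rw [y1]; decide +kernel)
    (by norm_num)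
  have y5 : j * Y * j⁻¹ = Y ^ 4 := by
    calc j * Y * j⁻¹ = j * (j⁻¹ * g ^ 4 * Y * (j⁻¹ * g ^ 4)⁻¹) * j⁻¹ := by rw [c2.eq, mul_inv_cancel_right]
      _ = g ^ 2 * (g ^ 2 * Y * (g ^ 2)⁻¹) * (g ^ 2)⁻¹ := by group
      _ = _ := by rw [y4, ← conj_pow, y4, ← pow_mul]
  have c0 : Commute (π' Y) (π' X) := by rw [y1, x1]; unfold Commute SemiconjBy; decide +kernel
  have c3 : Commute Y X := by
    have e1 := h1.comm_pow c0 4
    have e2 := h1.comm_pow_eq_one c0 (m := 5) (by rw [← map_pow, y2, map_one])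
    have e3 := h1.cen (Y * X * Y⁻¹ * X⁻¹) (by simp [c0.eq]) j
    have e4 : j * (Y * X * Y⁻¹ * X⁻¹) * j⁻¹ = (j * Y * j⁻¹) * (j * X * j⁻¹) * (j * Y * j⁻¹)⁻¹ * (j * X * j⁻¹)⁻¹ := by
      group
    rw [← e3.eq, mul_inv_cancel_right, y5, c1.eq, mul_inv_cancel_right, e1, mul_inv_cancel_right] at e4
    generalize hz : Y * X * Y⁻¹ * X⁻¹ = z at e2 e4
    have e5 : z ^ 3 = 1 := by rw [pow_succ, eq_comm, mul_eq_right] at e4; exact e4
    have := pow_gcd_eq_one.2 ⟨e2, e5⟩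
    rw [show Nat.gcd 5 3 = 1 from rfl, pow_one, ← hz, mul_inv_eq_one, mul_inv_eq_iff_eq_mul] at this
    exact this
  let ρ' := ρ.comp H.subtype
  obtain ⟨c, c4, c5⟩ := cyc_eig (ρ := ρ') (by norm_num) (by exact_mod_cast h5) y2 y4 (by decide)
    (ne_of_nt h hs hn (le_trans (by simp) (Fintype.card_le_of_embedding e)) fun e1 => by
      have := h2' Y 5
      rw [y1, show π Y = 1 from e1] at this
      exact absurd (e.injective this) (by decide))
  have i5 : Function.Injective fun j : Fin 5 => c ^ j.val := fun i j e => Fin.ext (c4.pow_inj i.2 j.2 e)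
  have f1 : ∀ v, v ≠ 0 → ρ' Y v ≠ v := fun v v0 v1 => by
    have hd := (show ([0, 1, 2, 3] : List (Fin 10)).Nodup by decide).map e.injective
    have := spin_two t h2 hd (hz hd) (g := Y) (by rw [h2', y1]; rfl) (by rw [h2', y1]; rfl) (by rw [h2', y1]; rfl)
      (by rw [h2', y1]; rfl) _ i5 fun j => by
        cases j using Fin.cases with
        | zero => exact ⟨v, v0, v1.trans (by simp)⟩
        | succ j => exact c5 j
    simp at this
    omega
  have f2 : ∀ v, v ≠ 0 → ρ' X v ≠ v := fun v v0 v1 => f1 _ (r_ne ρ' g v0) (by rw [hY, r_mul, r_mul, r_inv, v1])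
  let Ω : Fin 5 × Fin 5 → Prop := fun w => ∃ v ≠ 0, ρ' X v = c ^ w.1.val • v ∧ ρ' Y v = c ^ w.2.val • v
  have pw : ∀ (i : Fin 5) (m : Fin 5), (c ^ i.val) ^ m.val = c ^ (m * i).val := fun i m => by
    rw [← pow_mul, pow_eq_pow_mod _ c4.pow_eq_one, mul_comm]; rfl
  have key : ∀ m w, Ω w → ∀ w' ∈ orb5 m w, Ω w' := by
    intro m
    induction m with
    | zero => intro w H w' hw'; rwa [List.mem_singleton.1 hw']
    | succ m ih =>
      intro w H w' hw'
      obtain ⟨v, v0, v1, v2⟩ := H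
      simp only [orb5, List.mem_cons, List.mem_append] at hw'
      rcases hw' with rfl | hw' | hw'
      · exact ⟨v, v0, v1, v2⟩
      · exact ih (w.2, 2 * w.1) ⟨_, r_ne ρ' g⁻¹ v0, by simpa using conj_eig (m := 1) (by rw [hY, pow_one]) v2,
          pw _ 2 ▸ conj_eig y3 v1⟩ _ hw'
      · exact ih (w.1, 4 * w.2) ⟨_, r_ne ρ' j⁻¹ v0,
          by simpa using conj_eig (m := 1) (by rw [c1.eq, mul_inv_cancel_right, pow_one]) v1,
          pw _ 4 ▸ conj_eig y5 v2⟩ _ hw'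
  obtain ⟨v, v0, v1⟩ := c5 0
  obtain ⟨l, w, w1, w0, w2⟩ := exists_eig (U := (ρ' Y).eigenspace (c ^ 1)) (X := ρ' X)
    ((Submodule.ne_bot_iff _).2 ⟨v, End.mem_eigenspace_iff.2 v1, v0⟩) fun u hu => by
      rw [End.mem_eigenspace_iff] at hu ⊢
      rw [r_comm c3, hu, map_smul]
  obtain ⟨i, i1, rfl⟩ := c4.eq_pow_of_pow_eq_one (eig_pow w2 w0 (by rw [← map_pow, x2, map_one]))
  have := card_le_of_wt ![ρ' X, ρ' Y] (fun w : {w : Fin 5 × Fin 5 // w.1 ≠ 0 ∧ w.2 ≠ 0} => ![c ^ w.1.1.val, c ^ w.1.2.val])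
    (fun w w' e => Subtype.ext (Prod.ext (i5 (congrFun e 0)) (i5 (congrFun e 1)))) fun w' => by
      obtain ⟨v, v0, v1, v2⟩ := key 7 (⟨i, i1⟩, 1) ⟨w, w0, w2, End.mem_eigenspace_iff.1 w1⟩ w'.1
        (orb5_chk _ _ ⟨fun e => f2 w w0 (by rw [w2, show i = 0 from congrArg Fin.val e]; simp), one_ne_zero⟩ w'.2)
      exact ⟨v, v0, fun i => by fin_cases i; exacts [v1, v2]⟩
  rw [show Fintype.card {w : Fin 5 × Fin 5 // w.1 ≠ 0 ∧ w.2 ≠ 0} = 16 by decide +kernel] at this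
  omega

theorem spin_all (h : CE π) (t : TS π T) (hs : SC π ρ) (hn : NT ρ) (h3 : (3 : k) = 0) (h9 : 9 ≤ Fintype.card α)
    (hz : ∀ {a b c d}, [a, b, c, d].Nodup → ρ (Dl T a b c d ^ 2) = -1)
    (IH : 13 ≤ Fintype.card α → ∀ s : Finset α, s.card = 4 → Low.{u, v} k {x // x ∉ s} (Fintype.card α - 6)) :
    Fintype.card α - 1 ≤ finrank k V := by
  have h2 : (2 : k) ≠ 0 := fun e => one_ne_zero (α := k) (by linear_combination h3 - e)
  have h5 : (5 : k) ≠ 0 := fun e => h2 (by linear_combination e - h3)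
  have h7 : (7 : k) ≠ 0 := fun e => one_ne_zero (α := k) (by linear_combination e - 2 * h3)
  by_cases h13 : 13 ≤ Fintype.card α
  · obtain ⟨e⟩ := exists_emb (α := α) (m := 8) (by omega)
    have n : ∀ {i j : Fin 8}, i ≠ j → e i ≠ e j := fun h => e.injective.ne h
    have hd := (show ([0, 1, 2, 3] : List (Fin 8)).Nodup by decide).map e.injective
    have hd' := (show ([4, 5, 6, 7] : List (Fin 8)).Nodup by decide).map e.injective
    have hd'' := (show ([4, 6, 5, 7] : List (Fin 8)).Nodup by decide).map e.injective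
    obtain ⟨i, hi⟩ := IsAlgClosed.exists_pow_nat_eq (-1 : k) two_pos
    have hU : ∀ g, (∀ x ∈ ({e 0, e 1, e 2, e 3} : Finset α), π g x = x) →
        ∀ v ∈ (ρ (Dl T (e 0) (e 1) (e 2) (e 3))).eigenspace i, ρ g v ∈ (ρ (Dl T (e 0) (e 1) (e 2) (e 3))).eigenspace i :=
      fun g hg v hv => by
        rw [End.mem_eigenspace_iff] at hv ⊢
        rw [← t.D_comm hd (hg _ (by simp)) (hg _ (by simp)) (hg _ (by simp)) (hg _ (by simp)), hv, map_smul]
    have fx : ∀ {a b c d : Fin 8}, [a, b, c, d].Nodup → (∀ x ∈ [a, b, c, d], 4 ≤ x) →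
        ∀ x ∈ ({e 0, e 1, e 2, e 3} : Finset α), π (Dl T (e a) (e b) (e c) (e d)) x = x := by
      intro a b c d h1 h2
      simp only [List.mem_cons, List.not_mem_nil, or_false, forall_eq_or_imp, forall_eq] at h2
      rw [t.D_pi (h1.map e.injective)]
      simp only [Finset.mem_insert, Finset.mem_singleton]
      rintro _ (rfl | rfl | rfl | rfl) <;>
        rw [Perm.mul_apply, swap_apply_of_ne_of_ne (n (by omega)) (n (by omega)),
          swap_apply_of_ne_of_ne (n (by omega)) (n (by omega))]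
    have : Nontrivial V := by
      obtain ⟨g, hg⟩ := hn
      by_contra! H
      exact hg ⟨1, fun v => Subsingleton.elim _ _⟩
    obtain ⟨v, -, v0, v1⟩ := spin_eig t hd (hz hd) (U := ⊤) top_ne_bot (by simp) (by simp) hi true
    have e1 := (IH h13 {e 0, e 1, e 2, e 3} (by
      simpa using List.toFinset_card_of_nodup hd)).use' _ h hs _ hU (fx (a := 4) (b := 5) (c := 6) (d := 7)
        (by decide) (by decide)) fun ⟨c, hc⟩ => by
          have hU' := (Submodule.ne_bot_iff _).2 ⟨v, End.mem_eigenspace_iff.2 v1, v0⟩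
          obtain ⟨v, v1, v0, v2⟩ := spin_eig t hd' (hz hd') hU' (hU _ (fx (by decide) (by decide)))
            (hU _ (fx (by decide) (by decide))) hi true
          obtain ⟨w, w1, w0, w2⟩ := spin_eig t hd' (hz hd') hU' (hU _ (fx (by decide) (by decide)))
            (hU _ (fx (by decide) (by decide))) hi false
          exact neg_ne_of_sq hi h2 ((smul_left_injective k v0 (v2.symm.trans (hc v v1))).trans
            (smul_left_injective k w0 (w2.symm.trans (hc w w1))).symm)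
    have e2 : finrank k ((ρ (Dl T (e 0) (e 1) (e 2) (e 3))).eigenspace i) ≤
        finrank k ((ρ (Dl T (e 0) (e 1) (e 2) (e 3))).eigenspace (-i)) :=
      finrank_le_of_map _ (r_inj ρ (Dl T (e 0) (e 2) (e 1) (e 3))) fun v hv => by
        rw [End.mem_eigenspace_iff] at hv ⊢
        rw [spin_flip t hd (hz hd), hv, map_smul, neg_smul]
    have e3 := Submodule.finrank_add_finrank_le_of_disjoint
      ((ρ (Dl T (e 0) (e 1) (e 2) (e 3))).eigenspaces_iSupIndep.pairwiseDisjoint (neg_ne_of_sq hi h2))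
    omega
  by_cases h11 : 11 ≤ Fintype.card α
  · obtain ⟨e⟩ := exists_emb h11
    have := spin_cyc h t hs hn h2 hz (m := 6) e (List.formPerm [4, 5, 6, 7, 8, 9, 10])
      (List.formPerm [5, 7, 6, 10, 8, 9] * swap 0 1) (by decide +kernel) (by decide +kernel) (l := 7) (n := 2)
      (by decide +kernel) (by decide +kernel) (by norm_num) (by exact_mod_cast h7) (by decide) (by decide +kernel)
    omega
  by_cases h10 : 10 ≤ Fintype.card α
  · obtain ⟨e⟩ := exists_emb h10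
    have := spin_ten h t hs hn h2 h5 hz e
    omega
  · obtain ⟨e⟩ := exists_emb h9
    have := spin_cyc h t hs hn h2 hz (m := 4) e (List.formPerm [4, 5, 6, 7, 8])
      (List.formPerm [5, 6, 8, 7] * swap 0 1) (by decide +kernel) (by decide +kernel) (l := 5) (n := 1)
      (by decide +kernel) (by decide +kernel) (by norm_num) (by exact_mod_cast h5) (by decide) (by decide +kernel)
    omega

end Spin

end Cfsg.Agent.H23.Wg
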