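import Mathlib
import Cfsg.Agent.H23.Wg7

/-! Representations of alternating groups in characteristic three; the bound for projective representations. -/

set_option autoImplicit false
set_option linter.unusedSectionVars false
set_option linter.unusedVariables false
set_option maxHeartbeats 2000000
set_option linter.unusedSimpArgs false

namespace Cfsg.Agent.H23.Wg

open Equiv Equiv.Perm Module

universe u v

variable {α : Type*} [Fintype α] [DecidableEq α] {G : Type u} [Group G] {π : G →* Perm α}
  {k : Type*} {V : Type v} [Field k] [AddCommGroup V] [Module k V] [FiniteDimensional k V] {ρ : G →* End k V}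
  {T : α → α → α → G}

/-- the linear case -/
structure BS (π : G →* Perm α) (ρ : G →* End k V) (T : α → α → α → G) : Prop where
  sq : ∀ {a b c d}, [a, b, c, d].Nodup → ∀ v, ρ (Dl T a b c d) (ρ (Dl T a b c d) v) = v
  s1 : ∀ {a b c d}, [a, b, c, d].Nodup → ρ (Dl T c d a b) = ρ (Dl T a b c d)
  s2 : ∀ {a b c d}, [a, b, c, d].Nodup → ρ (Dl T a b d c) = ρ (Dl T a b c d)
  s3 : ∀ {a b c d}, [a, b, c, d].Nodup → ρ (Dl T b a c d) = ρ (Dl T a b c d)
  p1 : ∀ {a b c d}, [a, b, c, d].Nodup → ∀ v, ρ (Dl T a b c d) (ρ (Dl T a c b d) v) = ρ (Dl T a d b c) v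
  p2 : ∀ {a b c d e f}, [a, b, c, d, e, f].Nodup →
    ∀ v, ρ (Dl T c d e f) (ρ (Dl T a b e f) v) = ρ (Dl T a b c d) v

theorem TS.bs (t : TS π T) (h : CE π) (h6 : 6 ≤ Fintype.card α)
    (hz : ∀ {a b c d}, [a, b, c, d].Nodup → ρ (Dl T a b c d ^ 2) = 1) : BS π ρ T := by
  have sq : ∀ {a b c d}, [a, b, c, d].Nodup → ∀ v, ρ (Dl T a b c d) (ρ (Dl T a b c d) v) = v := fun hd v => by
    rw [← r_mul, ← pow_two, hz hd, End.one_apply]
  have iv : ∀ {a b c d}, [a, b, c, d].Nodup → ρ (Dl T a b c d)⁻¹ = ρ (Dl T a b c d) := fun hd =>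
    LinearMap.ext fun v => r_inj ρ _ (by rw [r_inv', sq hd])
  have s1 : ∀ {a b c d}, [a, b, c, d].Nodup → ρ (Dl T c d a b) = ρ (Dl T a b c d) := fun hd => by
    rw [t.D_inv hd, iv hd]
  have s3 : ∀ {a b c d}, [a, b, c, d].Nodup → ρ (Dl T b a c d) = ρ (Dl T a b c d) := fun hd => by
    rw [← t.D_rot h h6 hd]
    exact s1 (by have := nd4.1 hd; simp only [List.nodup_cons, List.mem_cons, List.not_mem_nil, or_false, not_or, List.nodup_nil, and_true, not_false_eq_true]; grind only)
  have s2 : ∀ {a b c d}, [a, b, c, d].Nodup → ρ (Dl T a b d c) = ρ (Dl T a b c d) := fun hd => by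
    have := nd4.1 hd
    rw [← s1 hd]
    exact (s1 (by simp only [List.nodup_cons, List.mem_cons, List.not_mem_nil, or_false, not_or, List.nodup_nil, and_true, not_false_eq_true]; grind only)).trans (s3 (by simp only [List.nodup_cons, List.mem_cons, List.not_mem_nil, or_false, not_or, List.nodup_nil, and_true, not_false_eq_true]; grind only))
  have p0 : ∀ {a b c d}, [a, b, c, d].Nodup → ∀ v, ρ (Dl T a c b d) (ρ (Dl T b a c d) (ρ (Dl T a d b c) v)) = v := by
    intro a b c d hd v
    have hd' := nd4.1 hd
    have e1 := t.D_conj (T a b c) (a := a) (b := c) (c := b) (d := d) (by simp only [List.nodup_cons, List.mem_cons, List.not_mem_nil, or_false, not_or, List.nodup_nil, and_true, not_false_eq_true]; grind only)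
    rw [t.pi (by grind only) (by grind only) (by grind only), c3_1 (by grind only) (by grind only), c3_2, c3_3 (by grind only) (by grind only),
      c3_o (by grind only) (by grind only) (by grind only)] at e1
    have e2 := hz (a := a) (b := c) (c := b) (d := d) (by simp only [List.nodup_cons, List.mem_cons, List.not_mem_nil, or_false, not_or, List.nodup_nil, and_true, not_false_eq_true]; grind only)
    have c1 := t.cube (a := a) (b := b) (c := c) (by grind only) (by grind only) (by grind only)
    have c2 := t.cube (a := a) (b := b) (c := d) (by grind only) (by grind only) (by grind only)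
    have e3 := h.cen _ (t.D_sq (a := a) (b := c) (c := b) (d := d) (by simp only [List.nodup_cons, List.mem_cons, List.not_mem_nil, or_false, not_or, List.nodup_nil, and_true, not_false_eq_true]; grind only))
    rw [← e1, ← r_mul, ← r_mul]
    simp only [Dl] at e2 e3 ⊢
    generalize T a b c = x at *
    generalize T a b d = y at *
    have e4 : x * y * x = (x * y) ^ 2 * y⁻¹ := by simp only [pow_two]; group
    have e5 : x⁻¹ = x * x := by rw [inv_eq_iff_mul_eq_one, ← mul_assoc, ← pow_three', c1]
    rw [e5, show x * y * (x * (x * y) * (x * x)) * (y * x) = (x * y * x) * (x * y * x) * (x * y * x) by group, e4,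
      ← pow_three', (e3 _).mul_pow, inv_pow, c2, inv_one, mul_one, map_pow, e2, one_pow, End.one_apply]
  have p1 : ∀ {a b c d}, [a, b, c, d].Nodup → ∀ v, ρ (Dl T a b c d) (ρ (Dl T a c b d) v) = ρ (Dl T a d b c) v := by
    intro a b c d hd v
    have := p0 (a := a) (b := c) (c := b) (d := d) (by have := nd4.1 hd; simp only [List.nodup_cons, List.mem_cons, List.not_mem_nil, or_false, not_or, List.nodup_nil, and_true, not_false_eq_true]; grind only) (ρ (Dl T a d b c) v)
    have hd' := nd4.1 hd
    rw [s2 (a := a) (b := d) (c := b) (d := c) (by simp only [List.nodup_cons, List.mem_cons, List.not_mem_nil, or_false, not_or, List.nodup_nil, and_true, not_false_eq_true]; grind only), sq (a := a) (b := d) (c := b) (d := c) (by simp only [List.nodup_cons, List.mem_cons, List.not_mem_nil, or_false, not_or, List.nodup_nil, and_true, not_false_eq_true]; grind only),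
      s3 (a := a) (b := c) (c := b) (d := d) (by simp only [List.nodup_cons, List.mem_cons, List.not_mem_nil, or_false, not_or, List.nodup_nil, and_true, not_false_eq_true]; grind only)] at this
    exact this
  refine ⟨sq, s1, s2, s3, p1, fun {a b c d e f} hd v => ?_⟩
  simp only [List.nodup_cons, List.mem_cons, List.not_mem_nil, or_false, not_or] at hd
  have n1 : [a, c, b, d].Nodup := by simp only [List.nodup_cons, List.mem_cons, List.not_mem_nil, or_false, not_or, List.nodup_nil, and_true, not_false_eq_true]; grind only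
  have n2 : [a, b, e, f].Nodup := by simp only [List.nodup_cons, List.mem_cons, List.not_mem_nil, or_false, not_or, List.nodup_nil, and_true, not_false_eq_true]; grind only
  have e1 := t.D_r (ρ := ρ) (Dl T a c b d) n2
  have e2 := t.D_r (ρ := ρ) (Dl T a b e f) n1
  rw [t.D_pi n1, show (swap a c * swap b d) a = c by simp only [Perm.mul_apply, swap_apply_def]; grind only,
    show (swap a c * swap b d) b = d by simp only [Perm.mul_apply, swap_apply_def]; grind only,
    show (swap a c * swap b d) e = e by simp only [Perm.mul_apply, swap_apply_def]; grind only,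
    show (swap a c * swap b d) f = f by simp only [Perm.mul_apply, swap_apply_def]; grind only] at e1
  rw [t.D_pi n2, show (swap a b * swap e f) a = b by simp only [Perm.mul_apply, swap_apply_def]; grind only,
    show (swap a b * swap e f) b = a by simp only [Perm.mul_apply, swap_apply_def]; grind only,
    show (swap a b * swap e f) c = c by simp only [Perm.mul_apply, swap_apply_def]; grind only,
    show (swap a b * swap e f) d = d by simp only [Perm.mul_apply, swap_apply_def]; grind only] at e2
  rw [← sq n1 (ρ (Dl T a b e f) v), ← e1, e2, sq n2, s1 (a := a) (b := d) (c := b) (d := c) (by simp only [List.nodup_cons, List.mem_cons, List.not_mem_nil, or_false, not_or, List.nodup_nil, and_true, not_false_eq_true]; grind only),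
    s2 (a := a) (b := d) (c := c) (d := b) (by simp only [List.nodup_cons, List.mem_cons, List.not_mem_nil, or_false, not_or, List.nodup_nil, and_true, not_false_eq_true]; grind only), s2 (a := a) (b := c) (c := d) (d := b) (by simp only [List.nodup_cons, List.mem_cons, List.not_mem_nil, or_false, not_or, List.nodup_nil, and_true, not_false_eq_true]; grind only), p1 (by simp only [List.nodup_cons, List.mem_cons, List.not_mem_nil, or_false, not_or, List.nodup_nil, and_true, not_false_eq_true]; grind only)]

/-- the commutator space of a double transposition -/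
abbrev F2 (ρ : G →* End k V) (T : α → α → α → G) (a b c d : α) : Submodule k V :=
  (ρ (Dl T a b c d)).eigenspace (-1)

theorem mem_F2 {a b c d : α} {v : V} : v ∈ F2 ρ T a b c d ↔ ρ (Dl T a b c d) v = -v := by simp

theorem TS.F_eqv (t : TS π T) (g : G) {a b c d : α} (h : [a, b, c, d].Nodup) {v : V} (hv : v ∈ F2 ρ T a b c d) :
    ρ g v ∈ F2 ρ T (π g a) (π g b) (π g c) (π g d) := by
  rw [mem_F2] at hv ⊢
  rw [← t.D_r g h, hv, map_neg]

theorem eq_zero_of_neg (h2 : (2 : k) ≠ 0) {v : V} (h : v = -v) : v = 0 :=
  (smul_eq_zero.1 (show (2 : k) • v = 0 by linear_combination (norm := module) h)).resolve_left h2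

theorem nat2 (h : CE π) (t : TS π T) (B : BS π ρ T) (hs : SC π ρ) (h9 : 9 ≤ Fintype.card α) (h2 : (2 : k) ≠ 0)
    (hd : ∀ {a b c d}, [a, b, c, d].Nodup → finrank k (F2 ρ T a b c d) = 2)
    (hc : ∀ {a b c d x y z}, [a, b, c, d, x, y, z].Nodup → ∀ v ∈ F2 ρ T a b c d, ρ (T x y z) v = v) :
    Fintype.card α - 2 ≤ finrank k V ∧ ((Fintype.card α : k) ≠ 0 → Fintype.card α - 1 ≤ finrank k V) := by
  let ℓ : α → α → Submodule k V := fun a b => ⨅ c, ⨅ d, ⨅ (_ : [a, b, c, d].Nodup), F2 ρ T a b c d
  have hℓ : ∀ {a b v}, v ∈ ℓ a b ↔ ∀ c d, [a, b, c, d].Nodup → v ∈ F2 ρ T a b c d := by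
    simp only [ℓ, Submodule.mem_iInf, implies_true]
  have sy : ∀ {a b}, a ≠ b → ℓ a b ≤ ℓ b a := fun {a b} hab v hv => hℓ.2 fun c d h1 => by
    have := nd4.1 h1
    rw [mem_F2, B.s3 (a := a) (b := b) (c := c) (d := d) (by simp only [List.nodup_cons, List.mem_cons, List.not_mem_nil, or_false, not_or, List.nodup_nil, and_true, not_false_eq_true]; grind only)]
    exact mem_F2.1 (hℓ.1 hv c d (by simp only [List.nodup_cons, List.mem_cons, List.not_mem_nil, or_false, not_or, List.nodup_nil, and_true, not_false_eq_true]; grind only))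
  have nzr : ∀ {a b}, a ≠ b → ∃ v ∈ ℓ a b, v ≠ 0 := by
    intro a b hab
    obtain ⟨c, hc'⟩ := fresh [a, b] (by simp; omega)
    obtain ⟨d, hd'⟩ := fresh [c, a, b] (by simp; omega)
    obtain ⟨e, he⟩ := fresh [d, c, a, b] (by simp; omega)
    obtain ⟨f, hf⟩ := fresh [e, d, c, a, b] (by simp; omega)
    simp only [List.mem_cons, List.not_mem_nil, or_false, not_or] at hc' hd' he hf
    have n1 : [a, b, c, d].Nodup := by simp only [List.nodup_cons, List.mem_cons, List.not_mem_nil, or_false, not_or, List.nodup_nil, and_true, not_false_eq_true]; grind only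
    have n2 : [a, b, e, f].Nodup := by simp only [List.nodup_cons, List.mem_cons, List.not_mem_nil, or_false, not_or, List.nodup_nil, and_true, not_false_eq_true]; grind only
    have n3 : [a, c, b, d].Nodup := by simp only [List.nodup_cons, List.mem_cons, List.not_mem_nil, or_false, not_or, List.nodup_nil, and_true, not_false_eq_true]; grind only
    obtain ⟨v, v0, v1, v2⟩ : ∃ v ≠ 0, v ∈ F2 ρ T a b c d ∧ v ∈ F2 ρ T a b e f := by
      obtain ⟨w, w1, w0⟩ := (Submodule.ne_bot_iff (F2 ρ T a b c d)).1 (fun e => by have := hd n1; rw [e] at this; simp at this)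
      by_cases e1 : ρ (Dl T a b e f) w = w
      · have w2 : w ∈ F2 ρ T c d e f := by
          have := B.p2 (a := a) (b := b) (c := c) (d := d) (e := e) (f := f) (by simp only [List.nodup_cons, List.mem_cons, List.not_mem_nil, or_false, not_or, List.nodup_nil, and_true, not_false_eq_true]; grind only) w
          rwa [e1, mem_F2.1 w1, ← mem_F2] at this
        have e2 := t.F_eqv (Dl T a c b d) n1 w1
        have e3 := t.F_eqv (Dl T a c b d) (by simp only [List.nodup_cons, List.mem_cons, List.not_mem_nil, or_false, not_or, List.nodup_nil, and_true, not_false_eq_true]; grind only) w2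
        rw [t.D_pi n3, show (swap a c * swap b d) c = a by simp only [Perm.mul_apply, swap_apply_def]; grind only,
          show (swap a c * swap b d) d = b by simp only [Perm.mul_apply, swap_apply_def]; grind only] at e2 e3
        rw [show (swap a c * swap b d) a = c by simp only [Perm.mul_apply, swap_apply_def]; grind only,
          show (swap a c * swap b d) b = d by simp only [Perm.mul_apply, swap_apply_def]; grind only, F2, B.s1 n1] at e2
        rw [show (swap a c * swap b d) e = e by simp only [Perm.mul_apply, swap_apply_def]; grind only,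
          show (swap a c * swap b d) f = f by simp only [Perm.mul_apply, swap_apply_def]; grind only] at e3
        exact ⟨_, r_ne ρ _ w0, e2, e3⟩
      · refine ⟨_, sub_ne_zero.2 e1, sub_mem ?_ w1, by rw [mem_F2, map_sub, B.sq n2, neg_sub]⟩
        have e2 := t.F_eqv (Dl T a b e f) n1 w1
        rwa [t.D_pi n2, show (swap a b * swap e f) a = b by simp only [Perm.mul_apply, swap_apply_def]; grind only,
          show (swap a b * swap e f) b = a by simp only [Perm.mul_apply, swap_apply_def]; grind only,
          show (swap a b * swap e f) c = c by simp only [Perm.mul_apply, swap_apply_def]; grind only,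
          show (swap a b * swap e f) d = d by simp only [Perm.mul_apply, swap_apply_def]; grind only, F2, B.s3 n1] at e2
    have st : ∀ {x y u z : α}, [a, b, x, y, u].Nodup → [a, b, x, y, z].Nodup → u ∉ [c, d, e, f] →
        ρ (T x y u) v = v → ρ (T x y z) v = v := by
      intro x y u z m1 m2 m3 H
      by_cases e1 : z = u
      · exact e1 ▸ H
      simp only [List.nodup_cons, List.mem_cons, List.not_mem_nil, or_false, not_or] at m1 m2 m3
      obtain ⟨m, hm, H'⟩ : ∃ m, m ∉ [x, y, u, z] ∧ ρ (T u z m) v = v := by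
        by_cases e2 : z = c ∨ z = d
        · obtain ⟨m, hm⟩ := fresh [a, b, e, f, x, y, u, z] (by simp; omega)
          simp only [List.mem_cons, List.not_mem_nil, or_false, not_or] at hm
          exact ⟨m, by simp only [List.nodup_cons, List.mem_cons, List.not_mem_nil, or_false, not_or, List.nodup_nil, and_true, not_false_eq_true]; grind only, hc (by simp only [List.nodup_cons, List.mem_cons, List.not_mem_nil, or_false, not_or, List.nodup_nil, and_true, not_false_eq_true]; grind only) v v2⟩
        · obtain ⟨m, hm⟩ := fresh [a, b, c, d, x, y, u, z] (by simp; omega)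
          simp only [List.mem_cons, List.not_mem_nil, or_false, not_or] at hm
          exact ⟨m, by simp only [List.nodup_cons, List.mem_cons, List.not_mem_nil, or_false, not_or, List.nodup_nil, and_true, not_false_eq_true]; grind only, hc (by simp only [List.nodup_cons, List.mem_cons, List.not_mem_nil, or_false, not_or, List.nodup_nil, and_true, not_false_eq_true]; grind only) v v1⟩
      simp only [List.mem_cons, List.not_mem_nil, or_false, not_or] at hm
      have := t.r (ρ := ρ) (T u z m) (a := x) (b := y) (c := u) (by grind only) (by grind only) (by grind only) v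
      rw [t.pi (by grind only) (by grind only) (by grind only), c3_o (by grind only) (by grind only) (by grind only),
        c3_o (by grind only) (by grind only) (by grind only), c3_1 (by grind only) (by grind only), H, H'] at this
      exact this.symm
    have sw : ∀ {x y z : α}, x ≠ y → x ≠ z → y ≠ z → ρ (T x y z) v = v → ρ (T x z y) v = v := fun h1 h2 h3 H => by
      rw [t.sq h1 h2 h3, pow_two, r_mul, H, H]
    have al : ∀ x y z, x ≠ y → x ≠ z → y ≠ z → x ∉ [a, b] → y ∉ [a, b] → z ∉ [a, b] → ρ (T x y z) v = v := by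
      intro x y z h1 h2 h3 h4 h5 h6
      obtain ⟨p, hp⟩ := fresh [a, b, c, d, e, f, x, y] (by simp; omega)
      obtain ⟨q, hq⟩ := fresh [a, b, c, d, e, f, x, p] (by simp; omega)
      obtain ⟨s, hs⟩ := fresh [a, b, c, d, e, f, q, p] (by simp; omega)
      simp only [List.mem_cons, List.not_mem_nil, or_false, not_or] at hp hq hs h4 h5 h6
      refine st (u := p) (by simp only [List.nodup_cons, List.mem_cons, List.not_mem_nil, or_false, not_or, List.nodup_nil, and_true, not_false_eq_true]; grind only) (by simp only [List.nodup_cons, List.mem_cons, List.not_mem_nil, or_false, not_or, List.nodup_nil, and_true, not_false_eq_true]; grind only) (by simp only [List.nodup_cons, List.mem_cons, List.not_mem_nil, or_false, not_or, List.nodup_nil, and_true, not_false_eq_true]; grind only) (sw (by grind only) h1 (by grind only)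
        (st (u := q) (by simp only [List.nodup_cons, List.mem_cons, List.not_mem_nil, or_false, not_or, List.nodup_nil, and_true, not_false_eq_true]; grind only) (by simp only [List.nodup_cons, List.mem_cons, List.not_mem_nil, or_false, not_or, List.nodup_nil, and_true, not_false_eq_true]; grind only) (by simp only [List.nodup_cons, List.mem_cons, List.not_mem_nil, or_false, not_or, List.nodup_nil, and_true, not_false_eq_true]; grind only) ?_))
      rw [t.rot (by grind only) (by grind only) (by grind only)]
      exact st (u := s) (by simp only [List.nodup_cons, List.mem_cons, List.not_mem_nil, or_false, not_or, List.nodup_nil, and_true, not_false_eq_true]; grind only) (by simp only [List.nodup_cons, List.mem_cons, List.not_mem_nil, or_false, not_or, List.nodup_nil, and_true, not_false_eq_true]; grind only) (by simp only [List.nodup_cons, List.mem_cons, List.not_mem_nil, or_false, not_or, List.nodup_nil, and_true, not_false_eq_true]; grind only) (hc (by simp only [List.nodup_cons, List.mem_cons, List.not_mem_nil, or_false, not_or,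 List.nodup_nil, and_true, not_false_eq_true]; grind only) v v1)
    refine ⟨v, hℓ.2 fun c' d' n4 => ?_, v0⟩
    obtain ⟨g, hg⟩ := h.trans _ _ n1 n4 rfl (by simp; omega)
    simp only [List.map_cons, List.map_nil, List.cons.injEq, and_true] at hg
    obtain ⟨g1, g2, g3, g4⟩ := hg
    obtain ⟨l, hl⟩ := h.gen (· ∈ [a, b]) (scal ρ (k ∙ v)) (fun z hz => by
      obtain ⟨c, hc⟩ := hs z hz
      exact ⟨c, fun v _ => hc v⟩) (fun x y z h1 h2 h3 h4 h5 h6 => ⟨T x y z, ⟨1, fun w hw => by
        obtain ⟨c, rfl⟩ := Submodule.mem_span_singleton.1 hw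
        rw [map_smul, al x y z h1 h2 h3 h4 h5 h6, one_smul]⟩, t.pi h1 h2 h3⟩) (k := g) (by simp [g1, g2])
    have e1 := t.F_eqv g n1 v1
    have e2 := hl v (Submodule.mem_span_singleton_self v)
    rw [g1, g2, g3, g4, e2] at e1
    exact (Submodule.smul_mem_iff _ (by rintro rfl; exact r_ne ρ g v0 (by rw [e2, zero_smul]))).1 e1
  have dj : ∀ {a b c d}, [a, b, c, d].Nodup → ℓ a b ⊓ ℓ c d = ⊥ := by
    intro a b c d n1
    obtain ⟨e, he⟩ := fresh [a, b, c, d] (by simp; omega)
    obtain ⟨f, hf⟩ := fresh [e, a, b, c, d] (by simp; omega)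
    have n1' := nd4.1 n1
    simp only [List.mem_cons, List.not_mem_nil, or_false, not_or] at he hf
    refine (Submodule.eq_bot_iff _).2 fun v hv => eq_zero_of_neg h2 ?_
    have := B.p2 (a := a) (b := b) (c := c) (d := d) (e := e) (f := f) (by simp only [List.nodup_cons, List.mem_cons, List.not_mem_nil, or_false, not_or, List.nodup_nil, and_true, not_false_eq_true]; grind only) v
    rwa [mem_F2.1 (hℓ.1 hv.1 e f (by simp only [List.nodup_cons, List.mem_cons, List.not_mem_nil, or_false, not_or, List.nodup_nil, and_true, not_false_eq_true]; grind only)), map_neg, mem_F2.1 (hℓ.1 hv.2 e f (by simp only [List.nodup_cons, List.mem_cons, List.not_mem_nil, or_false, not_or, List.nodup_nil, and_true, not_false_eq_true]; grind only)),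
      mem_F2.1 (hℓ.1 hv.1 c d n1), neg_neg] at this
  have sp : ∀ {a b c d}, [a, b, c, d].Nodup → finrank k (ℓ a b) = 1 ∧ ℓ a b ⊔ ℓ c d = F2 ρ T a b c d := by
    intro a b c d n1
    have n1' := nd4.1 n1
    have i1 : ℓ a b ⊔ ℓ c d ≤ F2 ρ T a b c d := sup_le (fun v hv => hℓ.1 hv c d n1) fun v hv => by
      rw [F2, ← B.s1 n1]; exact hℓ.1 hv a b (by simp only [List.nodup_cons, List.mem_cons, List.not_mem_nil, or_false, not_or, List.nodup_nil, and_true, not_false_eq_true]; grind only)
    have i2 := Submodule.finrank_mono i1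
    have i4 := Submodule.finrank_sup_add_finrank_inf_eq (ℓ a b) (ℓ c d)
    have i5 := Submodule.one_le_finrank_iff.2 ((Submodule.ne_bot_iff _).2 (nzr n1'.1))
    have i6 := Submodule.one_le_finrank_iff.2 ((Submodule.ne_bot_iff _).2 (nzr n1'.2.2.2.2.2))
    rw [dj n1, finrank_bot] at i4
    have := hd n1
    exact ⟨by omega, Submodule.eq_of_le_of_finrank_le i1 (by omega)⟩
  have L : LN π ρ ℓ := by
    refine ⟨fun {a b} hab => ?_, fun hab => le_antisymm (sy hab) (sy hab.symm), fun g a b hab v hv =>
      hℓ.2 fun c d h1 => ?_⟩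
    · obtain ⟨c, hc'⟩ := fresh [a, b] (by simp; omega)
      obtain ⟨d, hd'⟩ := fresh [c, a, b] (by simp; omega)
      simp only [List.mem_cons, List.not_mem_nil, or_false, not_or] at hc' hd'
      exact (sp (c := c) (d := d) (by simp only [List.nodup_cons, List.mem_cons, List.not_mem_nil, or_false, not_or, List.nodup_nil, and_true, not_false_eq_true]; grind only)).1
    · obtain ⟨c, rfl⟩ := (π g).surjective c
      obtain ⟨d, rfl⟩ := (π g).surjective d
      have n1 : [a, b, c, d].Nodup := List.Nodup.of_map (π g) h1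
      exact t.F_eqv g n1 (hℓ.1 hv c d n1)
  have hne : ∀ {a b c}, a ≠ b → a ≠ c → b ≠ c → ℓ a b ≠ ℓ a c := by
    intro a b c h1 h2' h3' e
    obtain ⟨v, v1, v0⟩ := nzr h1
    obtain ⟨d, hd⟩ := fresh [a, b, c] (by simp; omega)
    obtain ⟨q, hq⟩ := fresh [d, a, b, c] (by simp; omega)
    simp only [List.mem_cons, List.not_mem_nil, or_false, not_or] at hd hq
    have e1 := L.eqv (T b d q) h1 v v1
    rw [t.pi (by grind only) (by grind only) (by grind only), c3_o (by grind only) (by grind only) (by grind only), c3_1 (by grind only) (by grind only),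
      L.fix h t h9 h2' (by grind only) (by grind only) (by grind only) (by simp only [List.nodup_cons, List.mem_cons, List.not_mem_nil, or_false, not_or, List.nodup_nil, and_true, not_false_eq_true]; grind only) (by simp only [List.nodup_cons, List.mem_cons, List.not_mem_nil, or_false, not_or, List.nodup_nil, and_true, not_false_eq_true]; grind only) (e ▸ v1)] at e1
    have := B.p1 (a := a) (b := b) (c := c) (d := d) (by simp only [List.nodup_cons, List.mem_cons, List.not_mem_nil, or_false, not_or, List.nodup_nil, and_true, not_false_eq_true]; grind only) v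
    rw [mem_F2.1 (hℓ.1 (e ▸ v1) b d (by simp only [List.nodup_cons, List.mem_cons, List.not_mem_nil, or_false, not_or, List.nodup_nil, and_true, not_false_eq_true]; grind only)), map_neg, mem_F2.1 (hℓ.1 v1 c d (by simp only [List.nodup_cons, List.mem_cons, List.not_mem_nil, or_false, not_or, List.nodup_nil, and_true, not_false_eq_true]; grind only)),
      mem_F2.1 (hℓ.1 e1 b c (by simp only [List.nodup_cons, List.mem_cons, List.not_mem_nil, or_false, not_or, List.nodup_nil, and_true, not_false_eq_true]; grind only)), neg_neg] at this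
    exact v0 (eq_zero_of_neg h2 this)
  refine L.bound h t h9 hne fun {a b c} h1 h2' h3' => ?_
  obtain ⟨d, hd⟩ := fresh [a, b, c] (by simp; omega)
  obtain ⟨e, he⟩ := fresh [d, a, b, c] (by simp; omega)
  obtain ⟨f, hf⟩ := fresh [e, d, a, b, c] (by simp; omega)
  obtain ⟨g, hg⟩ := fresh [f, e, d, a, b, c] (by simp; omega)
  simp only [List.mem_cons, List.not_mem_nil, or_false, not_or] at hd he hf hg
  have n1 : [a, b, d, e].Nodup := by simp only [List.nodup_cons, List.mem_cons, List.not_mem_nil, or_false, not_or, List.nodup_nil, and_true, not_false_eq_true]; grind only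
  obtain ⟨v, v1, v0⟩ := nzr h2'
  have e1 := L.eqv (Dl T a b d e) h2' v v1
  rw [t.D_pi n1, show (swap a b * swap d e) a = b by simp only [Perm.mul_apply, swap_apply_def]; grind only,
    show (swap a b * swap d e) c = c by simp only [Perm.mul_apply, swap_apply_def]; grind only] at e1
  obtain ⟨x, hx, y, hy, e2⟩ := Submodule.mem_sup.1 (show ρ (Dl T a b d e) v - v ∈ ℓ a b ⊔ ℓ d e by
    rw [(sp n1).2, mem_F2, map_sub, B.sq n1, neg_sub])
  have e3 := congrArg (ρ (T d f g)) e2
  rw [map_add, map_sub, L.fix h t h9 h1 (by grind only) (by grind only) (by grind only) (by simp only [List.nodup_cons, List.mem_cons, List.not_mem_nil, or_false, not_or, List.nodup_nil, and_true, not_false_eq_true]; grind only) (by simp only [List.nodup_cons, List.mem_cons, List.not_mem_nil, or_false, not_or, List.nodup_nil, and_true, not_false_eq_true]; grind only) hx,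
    L.fix h t h9 h3' (by grind only) (by grind only) (by grind only) (by simp only [List.nodup_cons, List.mem_cons, List.not_mem_nil, or_false, not_or, List.nodup_nil, and_true, not_false_eq_true]; grind only) (by simp only [List.nodup_cons, List.mem_cons, List.not_mem_nil, or_false, not_or, List.nodup_nil, and_true, not_false_eq_true]; grind only) e1,
    L.fix h t h9 h2' (by grind only) (by grind only) (by grind only) (by simp only [List.nodup_cons, List.mem_cons, List.not_mem_nil, or_false, not_or, List.nodup_nil, and_true, not_false_eq_true]; grind only) (by simp only [List.nodup_cons, List.mem_cons, List.not_mem_nil, or_false, not_or, List.nodup_nil, and_true, not_false_eq_true]; grind only) v1, ← e2, add_right_inj] at e3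
  have e4 := L.eqv (T d f g) (by grind only) y hy
  rw [t.pi (by grind only) (by grind only) (by grind only), c3_1 (by grind only) (by grind only), c3_o (by grind only) (by grind only) (by grind only), e3,
    L.symm (by grind only)] at e4
  rw [L.symm (by grind only)] at hy
  have e5 : y = 0 := by_contra fun y0 => hne (by grind only) (by grind only) (by grind only)
    (line_eq (L.one (by grind only)) (L.one (by grind only)) hy e4 y0)
  rw [e5, add_zero] at e2
  rw [eq_span_singleton_of_mem_of_finrank_eq_one (L.one h3') e1 (r_ne ρ _ v0), Submodule.span_singleton_le_iff_mem,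
    sub_eq_iff_eq_add.1 e2.symm]
  exact add_mem (Submodule.mem_sup_left hx) (Submodule.mem_sup_right v1)

/-- joint eigenspace of a four-group -/
abbrev E2 (ρ : G →* End k V) (T : α → α → α → G) (a b c d : α) : Submodule k V :=
  F2 ρ T a b c d ⊓ F2 ρ T a c b d

theorem BS.rot (B : BS π ρ T) (t : TS π T) {a b c d : α} (hd : [a, b, c, d].Nodup) {v : V}
    (hv : v ∈ E2 ρ T a b c d) : ρ (T b c d) v ∈ E2 ρ T a c d b := by
  have hd' := nd4.1 hd
  have e1 := t.F_eqv (T b c d) hd hv.1
  have e2 := t.F_eqv (T b c d) (by simp only [List.nodup_cons, List.mem_cons, List.not_mem_nil, or_false, not_or, List.nodup_nil, and_true, not_false_eq_true]; grind only) hv.2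
  rw [t.pi (by grind only) (by grind only) (by grind only), c3_o (by grind only) (by grind only) (by grind only),
    c3_1 (by grind only) (by grind only), c3_2, c3_3 (by grind only) (by grind only)] at e1 e2
  exact ⟨e1, e2⟩

theorem BS.w1 (B : BS π ρ T) {a b c d : α} (hd : [a, b, c, d].Nodup) {v : V} (hv : v ∈ E2 ρ T a c d b) :
    ρ (Dl T a b c d) v = v ∧ ρ (Dl T a c b d) v = -v := by
  have hd' := nd4.1 hd
  have := B.p1 (a := a) (b := c) (c := d) (d := b) (by simp only [List.nodup_cons, List.mem_cons, List.not_mem_nil, or_false, not_or, List.nodup_nil, and_true, not_false_eq_true]; grind only) v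
  rw [mem_F2.1 hv.2, map_neg, mem_F2.1 hv.1, neg_neg] at this
  exact ⟨this.symm, B.s2 (a := a) (b := c) (c := d) (d := b) (by simp only [List.nodup_cons, List.mem_cons, List.not_mem_nil, or_false, not_or, List.nodup_nil, and_true, not_false_eq_true]; grind only) ▸ mem_F2.1 hv.1⟩

theorem BS.w2 (B : BS π ρ T) {a b c d : α} (hd : [a, b, c, d].Nodup) {v : V} (hv : v ∈ E2 ρ T a d b c) :
    ρ (Dl T a b c d) v = -v ∧ ρ (Dl T a c b d) v = v := by
  have hd' := nd4.1 hd
  have := B.p1 (a := a) (b := d) (c := b) (d := c) (by simp only [List.nodup_cons, List.mem_cons, List.not_mem_nil, or_false, not_or, List.nodup_nil, and_true, not_false_eq_true]; grind only) v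
  rw [mem_F2.1 hv.2, map_neg, mem_F2.1 hv.1, neg_neg] at this
  exact ⟨B.s2 hd ▸ mem_F2.1 hv.2, B.s2 (a := a) (b := c) (c := d) (d := b) (by simp only [List.nodup_cons, List.mem_cons, List.not_mem_nil, or_false, not_or, List.nodup_nil, and_true, not_false_eq_true]; grind only) ▸ this.symm⟩

theorem BS.split (B : BS π ρ T) (h2 : (2 : k) ≠ 0) {a b c d : α} (hd : [a, b, c, d].Nodup) {v : V}
    (hv : v ∈ F2 ρ T a b c d) : v - ρ (Dl T a c b d) v ∈ E2 ρ T a b c d ∧ v + ρ (Dl T a c b d) v ∈ E2 ρ T a d b c := by
  have hd' := nd4.1 hd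
  have e1 := B.p1 hd v
  have e2 := B.p1 (a := a) (b := c) (c := b) (d := d) (by simp only [List.nodup_cons, List.mem_cons, List.not_mem_nil, or_false, not_or, List.nodup_nil, and_true, not_false_eq_true]; grind only) v
  rw [mem_F2.1 hv, map_neg, B.s2 (a := a) (b := d) (c := b) (d := c) (by simp only [List.nodup_cons, List.mem_cons, List.not_mem_nil, or_false, not_or, List.nodup_nil, and_true, not_false_eq_true]; grind only), ← e1] at e2
  have e3 := B.p1 hd (ρ (Dl T a c b d) v)
  rw [B.sq (by simp only [List.nodup_cons, List.mem_cons, List.not_mem_nil, or_false, not_or, List.nodup_nil, and_true, not_false_eq_true]; grind only), mem_F2.1 hv] at e3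
  refine ⟨⟨?_, ?_⟩, ?_, ?_⟩ <;> rw [SetLike.mem_coe, mem_F2]
  · rw [map_sub, mem_F2.1 hv, ← e2]; abel
  · rw [map_sub, B.sq (by simp only [List.nodup_cons, List.mem_cons, List.not_mem_nil, or_false, not_or, List.nodup_nil, and_true, not_false_eq_true]; grind only), neg_sub]
  · rw [map_add, ← e3, ← e1, ← e2]; abel
  · rw [B.s2 hd, map_add, mem_F2.1 hv, ← e2]; abel

theorem BS.ex (B : BS π ρ T) (t : TS π T) (h2 : (2 : k) ≠ 0) {a b c d : α} (hd : [a, b, c, d].Nodup)
    {U : Submodule k V} (h1 : ∀ u ∈ U, ρ (Dl T a b c d) u ∈ U) (h1' : ∀ u ∈ U, ρ (Dl T a c b d) u ∈ U)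
    (h3 : ∀ u ∈ U, ρ (T b c d) u ∈ U) (hn : ∃ v ∈ U, ρ (Dl T a b c d) v ≠ v) :
    ∃ v ∈ U, v ≠ 0 ∧ v ∈ E2 ρ T a b c d := by
  obtain ⟨v, v1, v2⟩ := hn
  have e1 : ρ (Dl T a b c d) v - v ∈ F2 ρ T a b c d := by rw [mem_F2, map_sub, B.sq hd, neg_sub]
  have e2 := sub_mem (h1 v v1) v1
  have e0 := sub_ne_zero.2 v2
  generalize ρ (Dl T a b c d) v - v = w at e0 e1 e2
  obtain ⟨e3, e4⟩ := B.split h2 hd e1
  by_cases e5 : w - ρ (Dl T a c b d) w = 0
  · have hd' := nd4.1 hd
    have e6 := B.rot t (by simp only [List.nodup_cons, List.mem_cons, List.not_mem_nil, or_false, not_or, List.nodup_nil, and_true, not_false_eq_true]; grind only) e4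
    rw [t.rot (by grind only) (by grind only) (by grind only)] at e6
    refine ⟨_, h3 _ (add_mem e2 (h1' w e2)), r_ne ρ _ fun e => e0 (eq_zero_of_neg h2 ?_), e6⟩
    linear_combination (norm := module) e + e5
  · exact ⟨_, sub_mem e2 (h1' w e2), e5, e3⟩

theorem BS.three (B : BS π ρ T) (t : TS π T) (h2 : (2 : k) ≠ 0) {a b c d : α} (hd : [a, b, c, d].Nodup)
    {U : Submodule k V} (h1 : ∀ u ∈ U, ρ (Dl T a b c d) u ∈ U) (h1' : ∀ u ∈ U, ρ (Dl T a c b d) u ∈ U)
    (h3 : ∀ u ∈ U, ρ (T b c d) u ∈ U) (hn : ∃ v ∈ U, ρ (Dl T a b c d) v ≠ v) :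
    3 ≤ finrank k U ∧ Dl T a b c d ∉ scal ρ U := by
  obtain ⟨v, v1, v0, v2⟩ := B.ex t h2 hd h1 h1' h3 hn
  have hd' := nd4.1 hd
  have e1 := B.rot t hd v2
  have e2 := B.rot t (by simp only [List.nodup_cons, List.mem_cons, List.not_mem_nil, or_false, not_or, List.nodup_nil, and_true, not_false_eq_true]; grind only) e1
  rw [← t.rot (by grind only) (by grind only) (by grind only)] at e2
  have n1 : (1 : k) ≠ -1 := fun e => h2 (by linear_combination e)
  refine ⟨?_, fun ⟨l, hc⟩ => n1 ((smul_left_injective k (r_ne ρ (T b c d) v0) (by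
    simpa using (B.w1 hd e1).1.symm.trans (hc _ (h3 v v1)))).trans (smul_left_injective k v0 (by
      simpa using (hc v v1).symm.trans (mem_F2.1 v2.1))))⟩
  refine card_le_of_wt ![(ρ (Dl T a b c d)).restrict h1, (ρ (Dl T a c b d)).restrict h1']
    ![![(-1 : k), -1], ![1, -1], ![-1, 1]] (fun i j e => ?_) fun i => ?_
  · have e0 := congrFun e 0
    have e1 := congrFun e 1
    fin_cases i <;> fin_cases j <;> first | rfl | exact absurd e0 n1 | exact absurd e0 n1.symm | exact absurd e1 n1 |
      exact absurd e1 n1.symm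
  · fin_cases i
    · refine ⟨⟨v, v1⟩, fun e => v0 (congrArg Subtype.val e), fun i => Subtype.ext ?_⟩
      fin_cases i
      exacts [(mem_F2.1 v2.1).trans (neg_one_smul k _).symm, (mem_F2.1 v2.2).trans (neg_one_smul k _).symm]
    · refine ⟨⟨_, h3 v v1⟩, fun e => r_ne ρ _ v0 (congrArg Subtype.val e), fun i => Subtype.ext ?_⟩
      fin_cases i
      exacts [(B.w1 hd e1).1.trans (one_smul k _).symm, (B.w1 hd e1).2.trans (neg_one_smul k _).symm]
    · refine ⟨⟨_, h3 _ (h3 v v1)⟩, fun e => r_ne ρ _ (r_ne ρ _ v0) (congrArg Subtype.val e), fun i => Subtype.ext ?_⟩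
      fin_cases i
      exacts [(B.w2 hd e2).1.trans (neg_one_smul k _).symm, (B.w2 hd e2).2.trans (one_smul k _).symm]

theorem BS.sum (B : BS π ρ T) (t : TS π T) (h2 : (2 : k) ≠ 0) {a b c d : α} (hd : [a, b, c, d].Nodup) :
    finrank k ↥((ρ (Dl T a b c d)).eigenspace 1 ⊓ (ρ (Dl T a c b d)).eigenspace 1) +
      3 * finrank k (E2 ρ T a b c d) ≤ finrank k V := by
  have hd' := nd4.1 hd
  have n1 : (1 : k) ≠ -1 := fun e => h2 (by linear_combination e)
  have := sum_le_of_wt ![ρ (Dl T a b c d), ρ (Dl T a c b d)] ![![(1 : k), 1], ![-1, -1], ![1, -1], ![-1, 1]]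
    (fun i j e => by
      have e0 := congrFun e 0
      have e1 := congrFun e 1
      fin_cases i <;> fin_cases j <;>
        first | rfl | exact absurd e0 n1 | exact absurd e0 n1.symm | exact absurd e1 n1 | exact absurd e1 n1.symm)
    ![(ρ (Dl T a b c d)).eigenspace 1 ⊓ (ρ (Dl T a c b d)).eigenspace 1, E2 ρ T a b c d, E2 ρ T a c d b,
      E2 ρ T a d b c] (fun i v hv j => by
      fin_cases i <;> fin_cases j
      exacts [End.mem_eigenspace_iff.1 hv.1, End.mem_eigenspace_iff.1 hv.2, End.mem_eigenspace_iff.1 hv.1,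
        End.mem_eigenspace_iff.1 hv.2, (B.w1 hd hv).1.trans (one_smul k _).symm,
        (B.w1 hd hv).2.trans (neg_one_smul k _).symm, (B.w2 hd hv).1.trans (neg_one_smul k _).symm,
        (B.w2 hd hv).2.trans (one_smul k _).symm])
  rw [Fin.sum_univ_four] at this
  have e1 := finrank_le_of_map _ (r_inj ρ _) fun v hv => B.rot t hd hv
  have e2 := finrank_le_of_map _ (r_inj ρ _) fun v hv => B.rot t (a := a) (b := c) (c := d) (d := b) (by simp only [List.nodup_cons, List.mem_cons, List.not_mem_nil, or_false, not_or, List.nodup_nil, and_true, not_false_eq_true]; grind only) hv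
  change finrank k ↥((ρ (Dl T a b c d)).eigenspace 1 ⊓ (ρ (Dl T a c b d)).eigenspace 1) +
    finrank k (E2 ρ T a b c d) + finrank k (E2 ρ T a c d b) + finrank k (E2 ρ T a d b c) ≤ _ at this
  omega

variable [IsAlgClosed k]

theorem lin_all (h : CE π) (t : TS π T) (B : BS π ρ T) (hs : SC π ρ) (hn : NT ρ) (h3 : (3 : k) = 0)
    (h9 : 9 ≤ Fintype.card α)
    (IH : 13 ≤ Fintype.card α → ∀ s : Finset α, s.card = 4 → Low.{u, v} k {x // x ∉ s} (Fintype.card α - 6)) :
    bd k (Fintype.card α) ≤ finrank k V := by
  have h2 : (2 : k) ≠ 0 := fun e => one_ne_zero (α := k) (by linear_combination h3 - e)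
  have h5 : (5 : k) ≠ 0 := fun e => h2 (by linear_combination e - h3)
  by_contra! hlt
  obtain ⟨m, m1, m2, hm⟩ : ∃ m, bd k (Fintype.card α) ≤ 3 * m ∧ bd k (Fintype.card α) ≤ m + 6 ∧
      (m = 3 ∨ ∀ s : Finset α, s.card = 4 → Low.{u, v} k {x // x ∉ s} m) := by
    have hb := bd_le (k := k) (Fintype.card α)
    by_cases h13 : 13 ≤ Fintype.card α
    · exact ⟨_, by omega, by omega, Or.inr (IH h13)⟩
    by_cases h11 : 11 ≤ Fintype.card α
    · refine ⟨4, by omega, ?_, Or.inr fun s hs => ?_⟩
      · by_cases h12 : Fintype.card α = 12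
        · rw [h12, bd, if_pos (by push_cast; linear_combination 4 * h3)]
        · omega
      · obtain ⟨e⟩ := exists_emb (α := {x // x ∉ s}) (m := 7) (by rw [card_compl]; omega)
        exact (low_seven h5).emb e (by simp)
    · exact ⟨3, by omega, by omega, Or.inl rfl⟩
  have low : ∀ {a b c d x y z w}, [a, b, c, d, x, y, z, w].Nodup → ∀ U : Submodule k V,
      (∀ g, π g a = a → π g b = b → π g c = c → π g d = d → ∀ v ∈ U, ρ g v ∈ U) →
      (∃ v ∈ U, ρ (Dl T x y z w) v ≠ v) → m ≤ finrank k U := by
    intro a b c d x y z w hd U hU hv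
    simp only [List.nodup_cons, List.mem_cons, List.not_mem_nil, or_false, not_or] at hd
    have e1 : ∀ u ∈ [a, b, c, d], π (Dl T x y z w) u = u := by
      rw [t.D_pi (by simp only [List.nodup_cons, List.mem_cons, List.not_mem_nil, or_false, not_or, List.nodup_nil, and_true, not_false_eq_true]; grind only)]
      simp only [List.mem_cons, List.not_mem_nil, or_false, Perm.mul_apply, swap_apply_def]; grind only
    have e2 : ∀ u ∈ [a, b, c, d], π (Dl T x z y w) u = u := by
      rw [t.D_pi (by simp only [List.nodup_cons, List.mem_cons, List.not_mem_nil, or_false, not_or, List.nodup_nil, and_true, not_false_eq_true]; grind only)]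
      simp only [List.mem_cons, List.not_mem_nil, or_false, Perm.mul_apply, swap_apply_def]; grind only
    have e3 : ∀ u ∈ [a, b, c, d], π (T y z w) u = u := fun u hu => by
      simp only [List.mem_cons, List.not_mem_nil, or_false] at hu
      rw [t.pi (by grind only) (by grind only) (by grind only), c3_o] <;> grind only
    have e4 := B.three t h2 (a := x) (b := y) (c := z) (d := w) (by simp only [List.nodup_cons, List.mem_cons, List.not_mem_nil, or_false, not_or, List.nodup_nil, and_true, not_false_eq_true]; grind only)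
      (hU _ (e1 _ (by simp)) (e1 _ (by simp)) (e1 _ (by simp)) (e1 _ (by simp)))
      (hU _ (e2 _ (by simp)) (e2 _ (by simp)) (e2 _ (by simp)) (e2 _ (by simp)))
      (hU _ (e3 _ (by simp)) (e3 _ (by simp)) (e3 _ (by simp)) (e3 _ (by simp))) hv
    rcases hm with rfl | hm
    · exact e4.1
    · exact (hm {a, b, c, d} (by simpa using List.toFinset_card_of_nodup (l := [a, b, c, d]) (by simp only [List.nodup_cons, List.mem_cons, List.not_mem_nil, or_false, not_or, List.nodup_nil, and_true, not_false_eq_true]; grind only))).use' _ h hs U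
        (fun g hg => hU g (hg _ (by simp)) (hg _ (by simp)) (hg _ (by simp)) (hg _ (by simp)))
        (fun u hu => e1 u (by simpa using hu)) e4.2
  have nt : ∀ {a b c d}, [a, b, c, d].Nodup → ∃ v ∈ E2 ρ T a b c d, v ≠ 0 := fun {a b c d} hd => by
    obtain ⟨v, -, v0, v1⟩ := B.ex t h2 hd (U := ⊤) (by simp) (by simp) (by simp) (by
      simpa using ne_of_nt h hs hn (by omega) fun e => by
        have e1 := congrArg (· a) (e ▸ t.D_pi hd)
        have := nd4.1 hd
        simp only [Perm.mul_apply, swap_apply_def, Perm.one_apply] at e1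
        grind only)
    exact ⟨v, v1, v0⟩
  by_cases hc : ∀ {a b c d x y z w}, [a, b, c, d, x, y, z, w].Nodup → ∀ v ∈ E2 ρ T a b c d, ρ (Dl T x y z w) v = v
  swap
  · push Not at hc
    obtain ⟨a, b, c, d, x, y, z, w, hd, hv⟩ := hc
    have n1 : [a, b, c, d].Nodup := hd.of_append_left (l₁ := [a, b, c, d])
    have n2 : [a, c, b, d].Nodup := by have := nd4.1 n1; simp only [List.nodup_cons, List.mem_cons, List.not_mem_nil, or_false, not_or, List.nodup_nil, and_true, not_false_eq_true]; grind only
    have := low hd (E2 ρ T a b c d) (fun g g1 g2 g3 g4 v hv => Submodule.mem_inf.2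
      ⟨by simpa only [g1, g2, g3, g4] using t.F_eqv g n1 hv.1, by simpa only [g1, g2, g3, g4] using t.F_eqv g n2 hv.2⟩) hv
    have := B.sum t h2 n1
    omega
  have sp : ∀ {a b c d}, [a, b, c, d].Nodup → F2 ρ T a b c d = E2 ρ T a b c d ⊔ E2 ρ T a d b c := by
    intro a b c d hd
    refine le_antisymm (fun v hv => ?_) (sup_le inf_le_left fun v hv => mem_F2.2 (B.w2 hd hv).1)
    obtain ⟨e1, e2⟩ := B.split h2 hd hv
    rw [← Submodule.smul_mem_iff _ h2, show (2 : k) • v = (v - ρ (Dl T a c b d) v) + (v + ρ (Dl T a c b d) v) by module]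
    exact add_mem (Submodule.mem_sup_left e1) (Submodule.mem_sup_right e2)
  have hc' : ∀ {a b c d x y z w}, [a, b, c, d, x, y, z, w].Nodup → ∀ v ∈ F2 ρ T a b c d, ρ (Dl T x y z w) v = v := by
    intro a b c d x y z w hd v hv
    rw [sp (hd.of_append_left (l₁ := [a, b, c, d]))] at hv
    obtain ⟨p, hp, q, hq, rfl⟩ := Submodule.mem_sup.1 hv
    rw [map_add, hc hd p hp, hc (by
      simp only [List.nodup_cons, List.mem_cons, List.not_mem_nil, or_false, not_or] at hd; simp only [List.nodup_cons, List.mem_cons, List.not_mem_nil, or_false, not_or, List.nodup_nil, and_true, not_false_eq_true]; grind only) q hq]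
  have d1 : ∀ {a b c d}, [a, b, c, d].Nodup → finrank k (E2 ρ T a b c d) = 1 := by
    intro a b c d n1
    refine le_antisymm ?_ (Submodule.one_le_finrank_iff.2 ((Submodule.ne_bot_iff _).2 (nt n1)))
    obtain ⟨x, hx⟩ := fresh [a, b, c, d] (by simp; omega)
    obtain ⟨y, hy⟩ := fresh [x, a, b, c, d] (by simp; omega)
    obtain ⟨z, hz⟩ := fresh [y, x, a, b, c, d] (by simp; omega)
    obtain ⟨w, hw⟩ := fresh [z, y, x, a, b, c, d] (by simp; omega)
    simp only [List.mem_cons, List.not_mem_nil, or_false, not_or] at hx hy hz hw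
    have n1' := nd4.1 n1
    have n2 : [a, c, b, d].Nodup := by simp only [List.nodup_cons, List.mem_cons, List.not_mem_nil, or_false, not_or, List.nodup_nil, and_true, not_false_eq_true]; grind only
    obtain ⟨v, v1, v0⟩ := nt (a := x) (b := y) (c := z) (d := w) (by simp only [List.nodup_cons, List.mem_cons, List.not_mem_nil, or_false, not_or, List.nodup_nil, and_true, not_false_eq_true]; grind only)
    have := low (a := a) (b := b) (c := c) (d := d) (x := x) (y := y) (z := z) (w := w) (by simp only [List.nodup_cons, List.mem_cons, List.not_mem_nil, or_false, not_or, List.nodup_nil, and_true, not_false_eq_true]; grind only)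
      ((ρ (Dl T a b c d)).eigenspace 1 ⊓ (ρ (Dl T a c b d)).eigenspace 1) (fun g g1 g2 g3 g4 v hv => by
        simp only [Submodule.mem_inf, End.mem_eigenspace_iff, one_smul] at hv ⊢
        rw [← t.D_comm n1 g1 g2 g3 g4, ← t.D_comm n2 g1 g3 g2 g4, hv.1, hv.2]
        exact ⟨rfl, rfl⟩) ⟨v, by
          simp only [Submodule.mem_inf, End.mem_eigenspace_iff, one_smul]
          exact ⟨hc (by simp only [List.nodup_cons, List.mem_cons, List.not_mem_nil, or_false, not_or, List.nodup_nil, and_true, not_false_eq_true]; grind only) v v1, hc (by simp only [List.nodup_cons, List.mem_cons, List.not_mem_nil, or_false, not_or, List.nodup_nil, and_true, not_false_eq_true]; grind only) v v1⟩, fun e => v0 (eq_zero_of_neg h2 (e.symm.trans (mem_F2.1 v1.1)))⟩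
    have := B.sum t h2 n1
    omega
  refine absurd (bd_le_of (nat2 h t B hs h9 h2 (fun {a b c d} n1 => ?_) fun {a b c d x y z} hd v hv => ?_)) hlt.not_ge
  · have e1 := Submodule.finrank_sup_add_finrank_inf_eq (E2 ρ T a b c d) (E2 ρ T a d b c)
    have n1' := nd4.1 n1
    rw [← sp n1, (Submodule.eq_bot_iff (E2 ρ T a b c d ⊓ E2 ρ T a d b c)).2 fun v hv => eq_zero_of_neg h2
      ((B.w2 n1 hv.2).2.symm.trans (mem_F2.1 hv.1.2)), finrank_bot, d1 n1, d1 (by simp only [List.nodup_cons, List.mem_cons, List.not_mem_nil, or_false, not_or, List.nodup_nil, and_true, not_false_eq_true]; grind only)] at e1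
    exact e1
  · obtain ⟨m, hm⟩ := fresh [a, b, c, d, x, y, z] (by simp; omega)
    obtain ⟨n, hn⟩ := fresh [m, a, b, c, d, x, y, z] (by simp; omega)
    simp only [List.nodup_cons, List.mem_cons, List.not_mem_nil, or_false, not_or] at hd hm hn
    obtain ⟨l, hl⟩ := hs (T x y z * (Dl T x z m n * Dl T x y m n)⁻¹) (by
      rw [map_mul, map_inv, mul_inv_eq_one, map_mul, t.D_pi (by simp only [List.nodup_cons, List.mem_cons, List.not_mem_nil, or_false, not_or, List.nodup_nil, and_true, not_false_eq_true]; grind only), t.D_pi (by simp only [List.nodup_cons, List.mem_cons, List.not_mem_nil, or_false, not_or, List.nodup_nil, and_true, not_false_eq_true]; grind only),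
        t.pi (by grind only) (by grind only) (by grind only)]
      ext u; simp only [c3_apply, Perm.mul_apply, swap_apply_def]; grind only)
    have e1 := hl (ρ (Dl T x z m n * Dl T x y m n) v)
    rw [r_mul, r_inv, r_mul, hc' (by simp only [List.nodup_cons, List.mem_cons, List.not_mem_nil, or_false, not_or, List.nodup_nil, and_true, not_false_eq_true]; grind only) v hv, hc' (by simp only [List.nodup_cons, List.mem_cons, List.not_mem_nil, or_false, not_or, List.nodup_nil, and_true, not_false_eq_true]; grind only) v hv] at e1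
    by_cases v0 : v = 0
    · simp [v0]
    have e2 := eig_pow e1 v0 (m := 3) (by
      rw [← map_pow, t.cube (by grind only) (by grind only) (by grind only), map_one])
    have e3 : (l - 1) ^ 3 = 0 := by linear_combination e2 + (l - l ^ 2) * h3
    rw [e1, sub_eq_zero.1 (pow_eq_zero_iff three_ne_zero |>.1 e3), one_smul]

theorem low_three (h3 : (3 : k) = 0) (r : ℕ) : ∀ (α : Type) [Fintype α] [DecidableEq α], Fintype.card α = r → 9 ≤ r →
    Low.{u, v} k α (bd k r) := by
  induction r using Nat.strong_induction_on with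
  | _ r ih =>
  intro α _ _ hr h9 G _ π V _ _ _ ρ h hs hn
  subst hr
  obtain ⟨T, t⟩ := h.exists_TS (by omega)
  have IH : 13 ≤ Fintype.card α → ∀ s : Finset α, s.card = 4 → Low.{u, v} k {x // x ∉ s} (Fintype.card α - 6) := by
    intro h13 s hs G _ π V _ _ _ ρ h h1 h2
    have := ih (Fintype.card α - 4) (by omega) _ (by rw [card_compl, hs]) (by omega) G π V ρ h h1 h2
    have := bd_le (k := k) (Fintype.card α - 4)
    omega
  obtain ⟨e⟩ := exists_emb (α := α) (m := 4) (by omega)
  have hd := (show ([0, 1, 2, 3] : List (Fin 4)).Nodup by decide).map e.injective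
  obtain ⟨c, hc⟩ := hs _ (t.D_sq hd)
  obtain ⟨v, v0⟩ : ∃ v : V, v ≠ 0 := by
    obtain ⟨g, hg⟩ := hn
    by_contra! H
    exact hg ⟨1, fun v => by rw [H v]; simp⟩
  have := eig_pow (hc v) v0 (m := 2) (by rw [← map_pow, ← pow_mul, t.D_four h (by omega) hd, map_one])
  rcases sq_eq_one_iff.1 this with rfl | rfl
  · exact lin_all h t (t.bs h (by omega) fun hd' => by
      rw [t.D_sq_eq h (by omega) hd' hd]; exact LinearMap.ext (by simpa using hc)) hs hn h3 h9 IH
  · exact (bd_le _).2.trans (spin_all h t hs hn h3 h9 (fun hd' => by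
      rw [t.D_sq_eq h (by omega) hd' hd]; exact LinearMap.ext (by simpa using hc)) IH)

theorem low_all {α : Type} [Fintype α] [DecidableEq α] (h9 : 9 ≤ Fintype.card α) :
    Low.{u, v} k α (bd k (Fintype.card α)) := by
  by_cases h3 : (3 : k) = 0
  exacts [low_three h3 _ α rfl h9, low_ne3 h3 _ α rfl h9]

end Cfsg.Agent.H23.Wg
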