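import Mathlib
import Cfsg.Agent.H23.Wg8

/-! Alternating sections of linear groups. -/

set_option autoImplicit false
set_option linter.unusedSectionVars false
set_option linter.unusedVariables false

namespace Cfsg.Agent.H23.Wg

open Equiv Equiv.Perm Module
open scoped commutatorElement

/-- minimal covers of alternating groups -/
structure MC {G : Type} [Group G] {r : ℕ} (φ : G →* alternatingGroup (Fin r)) : Prop where
  surj : Function.Surjective φ
  min : ∀ L : Subgroup G, L.map φ = ⊤ → L = ⊤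

variable {G : Type} [Group G] [Finite G] {r : ℕ} {φ : G →* alternatingGroup (Fin r)}

theorem MC.perfect (h : MC φ) (h9 : 9 ≤ r) : commutator G = ⊤ := by
  refine h.min _ ?_
  rw [commutator_def, Subgroup.map_commutator, Subgroup.map_top_of_surjective _ h.surj, ← commutator_def,
    commutator_alternatingGroup_eq_top (by simp; omega)]

theorem MC.le_ker (h : MC φ) (h9 : 9 ≤ r) {L : Subgroup G} (hL : L.Normal) (h1 : L ≠ ⊤) : L ≤ φ.ker := by
  have := alternatingGroup.isSimpleGroup (α := Fin r) (by simp; omega)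
  exact (Subgroup.map_eq_bot_iff _).1 (((hL.map φ h.surj).eq_bot_or_eq_top).resolve_right fun e => h1 (h.min _ e))

theorem MC.card_le (h : MC φ) (h9 : 9 ≤ r) {X : Type*} [Monoid X] [Finite X] (σ : G →* X) (hσ : ∃ g, σ g ≠ 1) :
    r.factorial ≤ 2 * Nat.card X := by
  have e1 := h.le_ker h9 (L := σ.ker) inferInstance (by
    obtain ⟨g, hg⟩ := hσ
    exact fun e => hg (show g ∈ σ.ker from e ▸ Subgroup.mem_top g))
  choose s hs using h.surj
  have : Nontrivial (Fin r) := Fin.nontrivial_iff_two_le.2 (by omega)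
  have e2 := Nat.card_le_card_of_injective (fun a => σ (s a)) fun a b e => by
    have : (s a)⁻¹ * s b ∈ σ.ker := by
      rw [MonoidHom.mem_ker, map_mul, ← show σ (s a) = σ (s b) from e, ← map_mul, inv_mul_cancel, map_one]
    have := e1 this
    rwa [MonoidHom.mem_ker, map_mul, map_inv, hs, hs, inv_mul_eq_one] at this
  have e3 := two_mul_nat_card_alternatingGroup (α := Fin r)
  rw [Nat.card_perm, Nat.card_fin] at e3
  omega

theorem MC.exists_N (h : MC φ) (hc : ¬ φ.ker ≤ Subgroup.center G) : ∃ (N : Subgroup G) (l : ℕ), l.Prime ∧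
    N.Normal ∧ N ≤ φ.ker ∧ ¬ N ≤ Subgroup.center G ∧ IsPGroup l N ∧
      ∀ M : Subgroup G, M.Normal → M ≤ N → M ≠ N → M ≤ Subgroup.center G := by
  obtain ⟨N, ⟨h1, h2, h3⟩, h4⟩ := exists_minimal_of_wellFoundedLT
    (fun N : Subgroup G => N.Normal ∧ N ≤ φ.ker ∧ ¬ N ≤ Subgroup.center G) ⟨φ.ker, inferInstance, le_rfl, hc⟩
  have h5 : ∀ M : Subgroup G, M.Normal → M ≤ N → M ≠ N → M ≤ Subgroup.center G := fun M m1 m2 m3 =>
    by_contra fun m4 => m3 (le_antisymm m2 (h4 ⟨m1, m2.trans h2, m4⟩ m2))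
  obtain ⟨l, hl, hd⟩ := Nat.exists_prime_and_dvd (n := ((Subgroup.center G).subgroupOf N).index)
    (fun e => h3 (Subgroup.subgroupOf_eq_top.1 (Subgroup.index_eq_one.1 e)))
  have := Fact.mk hl
  obtain ⟨P⟩ : Nonempty (Sylow l N) := inferInstance
  have e1 : Subgroup.normalizer (((P : Subgroup N).map N.subtype : Subgroup G) : Set G) = ⊤ := by
    refine h.min _ ?_
    have := congrArg (Subgroup.map φ) (Sylow.normalizer_sup_eq_top P)
    rwa [Subgroup.map_sup, (Subgroup.map_eq_bot_iff _).2 h2, sup_bot_eq,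
      Subgroup.map_top_of_surjective _ h.surj] at this
  have e2 : (P : Subgroup N).map N.subtype = N := by_contra fun e => P.not_dvd_index (hd.trans
    (Subgroup.index_dvd_of_le fun x hx => h5 _ (Subgroup.normalizer_eq_top_iff.1 e1) (Subgroup.map_subtype_le _) e
      ⟨x, hx, rfl⟩))
  exact ⟨N, l, hl, h1, h2, h3, e2 ▸ P.isPGroup'.map _, h5⟩

theorem mat_of_add {A : Type} [AddCommGroup A] [Finite A] {l : ℕ} [Fact l.Prime] [Module (ZMod l) A]
    (c : G → A →+ A) (h1 : ∀ x, c 1 x = x) (h2 : ∀ g g' x, c (g * g') x = c g (c g' x)) :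
    ∃ m, Nat.card A = l ^ m ∧ ∃ σ : G →* Matrix (Fin m) (Fin m) (ZMod l), ∀ g, σ g = 1 → ∀ x, c g x = x := by
  let τ : G →* End (ZMod l) A :=
    { toFun := fun g => (c g).toZModLinearMap l
      map_one' := LinearMap.ext h1
      map_mul' := fun g g' => LinearMap.ext (h2 g g') }
  let b := Module.finBasis (ZMod l) A
  refine ⟨finrank (ZMod l) A, ?_, (LinearMap.toMatrixAlgEquiv b).toMulEquiv.toMonoidHom.comp τ, fun g hg x => ?_⟩
  · have := Module.natCard_eq_pow_finrank (K := ZMod l) (V := A)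
    rwa [Nat.card_zmod] at this
  · exact congrArg (· x) ((LinearMap.toMatrixAlgEquiv b).injective (hg.trans (map_one _).symm))

theorem mat_of_end {M : Type} [CommGroup M] [Finite M] {l : ℕ} [Fact l.Prime]
    (c : G → M →* M) (h1 : ∀ x, c 1 x = x) (h2 : ∀ g g' x, c (g * g') x = c g (c g' x)) (h3 : ∀ x : M, x ^ l = 1) :
    ∃ m, Nat.card M = l ^ m ∧ ∃ σ : G →* Matrix (Fin m) (Fin m) (ZMod l), ∀ g, σ g = 1 → ∀ x, c g x = x :=
  @mat_of_add G _ _ (Additive M) _ _ l _ (AddCommGroup.zmodModule h3) (fun g => MonoidHom.toAdditive (c g)) h1 h2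

theorem exists_modrep {N : Subgroup G} [N.Normal] {l : ℕ} [Fact l.Prime] (hp : commutator G = ⊤)
    (h1 : ¬ N ≤ Subgroup.center G) (h2 : ⁅N, N⁆ ≤ Subgroup.center G) (h3 : ∀ n ∈ N, n ^ l ∈ Subgroup.center G) :
    ∃ m, Nat.card (N ⧸ (Subgroup.center G).subgroupOf N) = l ^ m ∧
      ∃ σ : G →* Matrix (Fin m) (Fin m) (ZMod l), ∃ g, σ g ≠ 1 := by
  let Z := (Subgroup.center G).subgroupOf N
  let : CommGroup (N ⧸ Z) := { (inferInstance : Group (N ⧸ Z)) with
    mul_comm := fun a b => by
      obtain ⟨a, rfl⟩ := QuotientGroup.mk_surjective a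
      obtain ⟨b, rfl⟩ := QuotientGroup.mk_surjective b
      rw [← QuotientGroup.mk_mul, ← QuotientGroup.mk_mul, QuotientGroup.eq]
      have := h2 (Subgroup.commutator_mem_commutator (inv_mem b.2) (inv_mem a.2))
      simpa [Z, Subgroup.mem_subgroupOf, commutatorElement_def, mul_assoc] using this }
  let c : G → (N ⧸ Z →* N ⧸ Z) := fun g => QuotientGroup.map Z Z (MulAut.conjNormal (H := N) g).toMonoidHom
    fun x hx => (inferInstance : (Subgroup.center G).Normal).conj_mem _ hx g
  obtain ⟨m, m1, σ, hσ⟩ := mat_of_end (l := l) c (fun x => by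
    obtain ⟨a, rfl⟩ := QuotientGroup.mk_surjective x
    simp [c]) (fun g g' x => by
    obtain ⟨a, rfl⟩ := QuotientGroup.mk_surjective x
    simp [c]) fun x => by
    obtain ⟨a, rfl⟩ := QuotientGroup.mk_surjective x
    rw [← QuotientGroup.mk_pow, QuotientGroup.eq_one_iff]
    exact h3 a a.2
  refine ⟨m, m1, σ, ?_⟩
  · by_contra! H
    have e1 : ⁅N, (⊤ : Subgroup G)⁆ ≤ Subgroup.center G := Subgroup.commutator_le.2 fun n hn g _ => by
      have e2 := hσ g (H g) (QuotientGroup.mk (⟨n⁻¹, inv_mem hn⟩ : N))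
      have e3 := QuotientGroup.eq.1 e2.symm
      simpa [Z, Subgroup.mem_subgroupOf, commutatorElement_def, mul_assoc] using e3
    have e2 : ⁅⁅N, (⊤ : Subgroup G)⁆, (⊤ : Subgroup G)⁆ = ⊥ :=
      Subgroup.commutator_eq_bot_iff_le_centralizer.2 (e1.trans (Subgroup.center_le_centralizer _))
    have e3 := Subgroup.commutator_commutator_eq_bot_of_rotate (H₁ := ⊤) (H₂ := ⊤) (H₃ := N)
      (by rwa [Subgroup.commutator_comm ⊤ N]) e2
    rw [← commutator_def, hp, Subgroup.commutator_comm, Subgroup.commutator_eq_bot_iff_le_centralizer] at e3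
    exact h1 fun x hx => Subgroup.mem_center_iff.2 fun g => e3 hx g trivial

section Irr

variable {k V : Type} [Field k] [IsAlgClosed k] [AddCommGroup V] [Module k V] [FiniteDimensional k V]
  {ρ : G →* End k V}

theorem abel_case (h : MC φ) (h9 : 9 ≤ r) (hf : Function.Injective ρ) [Nontrivial V]
    (hi : ∀ U : Submodule k V, (∀ g, ∀ v ∈ U, ρ g v ∈ U) → U ≠ ⊥ → U = ⊤) {N : Subgroup G} [hN : N.Normal]
    (h1 : ¬ N ≤ Subgroup.center G) (h2 : ∀ a ∈ N, ∀ b ∈ N, Commute a b) : r - 1 ≤ finrank k V := by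
  classical
  let Ω := {f : N → k // ∃ v ≠ 0, ∀ n : N, ρ n v = f n • v}
  have fin : Finite Ω := by
    by_contra! H
    obtain ⟨s, hs⟩ := Infinite.exists_subset_card_eq Ω (finrank k V + 1)
    have := card_le_of_wt (fun n : N => ρ n) (fun x : s => x.1.1) (fun x y e => Subtype.ext (Subtype.ext e))
      fun x => x.1.2
    simp [hs] at this
  have := Fintype.ofFinite Ω
  have hc := card_le_of_wt (fun n : N => ρ n) (fun x : Ω => x.1) Subtype.val_injective fun x => x.2
  let : MulAction G Ω :=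
    { smul := fun g f => ⟨fun n => f.1 (MulAut.conjNormal g⁻¹ n), by
        obtain ⟨v, v0, v1⟩ := f.2
        refine ⟨ρ g v, r_ne ρ g v0, fun n => ?_⟩
        rw [← map_smul, ← v1, ← r_mul, ← r_mul]
        simp [mul_assoc]⟩
      one_smul := fun f => Subtype.ext (funext fun n => by
        change f.1 (MulAut.conjNormal 1⁻¹ n) = _
        simp)
      mul_smul := fun g g' f => Subtype.ext (funext fun n => by
        change f.1 (MulAut.conjNormal (g * g')⁻¹ n) = f.1 (MulAut.conjNormal g'⁻¹ (MulAut.conjNormal g⁻¹ n))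
        simp) }
  have e1 := h.card_le h9 (MulAction.toPermHom G Ω) (by
    by_contra! H
    have := Fintype.ofFinite N
    obtain ⟨c, v, -, v0, v1⟩ := exists_joint (U := ⊤) top_ne_bot (fun n : N => ρ n)
      (fun a b => (h2 a a.2 b b.2).map ρ) (by simp)
    have e1 := hi (⨅ n : N, (ρ n).eigenspace (c n)) (fun g w hw => by
      simp only [Submodule.mem_iInf, End.mem_eigenspace_iff] at hw ⊢
      intro n
      have e : c (MulAut.conjNormal g⁻¹ n) = c n :=
        congrFun (congrArg Subtype.val (congrArg (· (⟨c, v, v0, v1⟩ : Ω)) (H g))) n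
      rw [← map_smul, ← e, ← hw, ← r_mul, ← r_mul]
      simp [mul_assoc]) ((Submodule.ne_bot_iff _).2 ⟨v, by simpa using v1, v0⟩)
    refine h1 fun n hn => Subgroup.mem_center_iff.2 fun g => hf (LinearMap.ext fun w => ?_)
    have e2 : ∀ w, ρ n w = c ⟨n, hn⟩ • w := fun w => by
      have : w ∈ ⨅ n : N, (ρ n).eigenspace (c n) := e1 ▸ Submodule.mem_top
      simp only [Submodule.mem_iInf, End.mem_eigenspace_iff] at this
      exact this ⟨n, hn⟩
    rw [r_mul, r_mul, e2, e2, map_smul])
  rw [Nat.card_perm, Nat.card_eq_fintype_card] at e1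
  by_contra! hlt
  obtain ⟨s, rfl⟩ : ∃ s, r = s + 2 := ⟨r - 2, by omega⟩
  have e2 := Nat.factorial_le (show Fintype.card Ω ≤ s by omega)
  have e3 := Nat.factorial_pos s
  rw [Nat.factorial_succ, Nat.factorial_succ] at e1
  nlinarith [Nat.mul_le_mul (show 9 ≤ s + 1 + 1 by omega) (Nat.mul_le_mul_right s.factorial (show 1 ≤ s + 1 by omega))]

theorem schur_scal [Nontrivial V] (hi : ∀ U : Submodule k V, (∀ g, ∀ v ∈ U, ρ g v ∈ U) → U ≠ ⊥ → U = ⊤) {z : G}
    (hz : z ∈ Subgroup.center G) : ∃ c : k, ∀ v, ρ z v = c • v := by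
  obtain ⟨c, v, -, v0, v1⟩ := exists_eig (U := ⊤) top_ne_bot (X := ρ z) (by simp)
  have := hi ((ρ z).eigenspace c) (fun g w hw => by
    rw [End.mem_eigenspace_iff] at hw ⊢
    rw [← r_comm (Subgroup.mem_center_iff.1 hz g), hw, map_smul])
    ((Submodule.ne_bot_iff _).2 ⟨v, End.mem_eigenspace_iff.2 v1, v0⟩)
  exact ⟨c, fun v => End.mem_eigenspace_iff.1 (this ▸ Submodule.mem_top)⟩

theorem nonabel_case (hf : Function.Injective ρ) [Nontrivial V]
    (hi : ∀ U : Submodule k V, (∀ g, ∀ v ∈ U, ρ g v ∈ U) → U ≠ ⊥ → U = ⊤) {N : Subgroup G}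
    (h2 : ⁅N, N⁆ ≤ Subgroup.center G) (h3 : N ⊓ Subgroup.centralizer N ≤ Subgroup.center G) :
    Nat.card (N ⧸ (Subgroup.center G).subgroupOf N) ≤ finrank k V * finrank k V := by
  have := Fintype.ofFinite (N ⧸ (Subgroup.center G).subgroupOf N)
  choose c hc using fun a b : N => schur_scal hi (h2 (Subgroup.commutator_mem_commutator a.2 b.2))
  rw [Nat.card_eq_fintype_card, ← Module.finrank_linearMap k k V V]
  refine card_le_of_wt (V := End k V) (fun a : N => LinearMap.mulLeft k (ρ a) ∘ₗ LinearMap.mulRight k (ρ a⁻¹))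
    (fun b a => c a b.out) (fun b b' e => ?_) fun b => ⟨ρ b.out, fun e => ?_, fun a => ?_⟩
  · rw [← b.out_eq, ← b'.out_eq]
    refine QuotientGroup.eq.2 (h3 ⟨(b.out⁻¹ * b'.out).2, fun a ha => ?_⟩)
    have e1 : ⁅a, (b.out : G)⁆ = ⁅a, (b'.out : G)⁆ := hf (LinearMap.ext fun v => by
      rw [hc ⟨a, ha⟩, hc ⟨a, ha⟩, show c ⟨a, ha⟩ b.out = c ⟨a, ha⟩ b'.out from congrFun e _])
    have e2 := Subgroup.mem_center_iff.1 (h2 (Subgroup.commutator_mem_commutator ha b.out.2))
    change a * ((b.out : G)⁻¹ * b'.out) = (b.out : G)⁻¹ * b'.out * a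
    generalize (b.out : G) = x at *
    generalize (b'.out : G) = y at *
    have e3 : a * x = ⁅a, x⁆ * (x * a) := by group
    have e4 : a * y = ⁅a, x⁆ * (y * a) := by rw [e1]; group
    calc a * (x⁻¹ * y) = x⁻¹ * (x * a) * x⁻¹ * y := by group
      _ = x⁻¹ * (⁅a, x⁆⁻¹ * (a * y)) := by rw [show x * a = ⁅a, x⁆⁻¹ * (a * x) by rw [e3]; group]; group
      _ = _ := by rw [e4]; group
  · obtain ⟨v, v0⟩ := exists_ne (0 : V)
    exact r_ne ρ _ v0 (by rw [e]; rfl)
  · refine LinearMap.ext fun v => ?_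
    have := hc a b.out (ρ b.out v)
    rw [commutatorElement_def, r_mul, r_inv, r_mul, r_mul] at this
    simpa using this

end Irr

theorem two_pow_aux {m n r : ℕ} (h1 : 2 ^ m ≤ n * n) (h2 : r - 2 ≤ m) (h9 : 9 ≤ r) : r - 1 ≤ n := by
  by_contra! H
  have key : ∀ s, 7 ≤ s → s * s < 2 ^ s := fun s hs => by
    induction s, hs using Nat.le_induction with
    | base => norm_num
    | succ s hs ih => rw [pow_succ]; nlinarith
  have := key (r - 2) (by omega)
  have := Nat.pow_le_pow_right two_pos h2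
  have := Nat.mul_le_mul (show n ≤ r - 2 by omega) (show n ≤ r - 2 by omega)
  omega

theorem main_bound {r : ℕ} (h9 : 9 ≤ r) (n : ℕ) : ∀ (G : Type) [Group G] [Finite G]
    (φ : G →* alternatingGroup (Fin r)) (k V : Type) [Field k] [IsAlgClosed k] [AddCommGroup V] [Module k V]
    [FiniteDimensional k V] (ρ : G →* End k V), MC φ → finrank k V = n → (∃ g, ρ g ≠ 1) → bd k r ≤ n := by
  induction n using Nat.strong_induction_on with
  | _ n ih =>
  suffices H : ∀ (G : Type) [Group G] [Finite G]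
      (φ : G →* alternatingGroup (Fin r)) (k V : Type) [Field k] [IsAlgClosed k] [AddCommGroup V] [Module k V]
      [FiniteDimensional k V] (ρ : G →* End k V), MC φ → finrank k V = n → Function.Injective ρ → bd k r ≤ n by
    intro G _ _ φ k V _ _ _ _ _ ρ h hn ⟨g, hg⟩
    have e1 := h.le_ker h9 (L := ρ.ker) inferInstance fun e => hg (show g ∈ ρ.ker from e ▸ Subgroup.mem_top g)
    refine H (G ⧸ ρ.ker) (QuotientGroup.lift _ φ e1) k V (QuotientGroup.lift _ ρ le_rfl) ⟨fun a => ?_, fun L hL => ?_⟩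
      hn ((injective_iff_map_eq_one _).2 fun x hx => ?_)
    · obtain ⟨g, rfl⟩ := h.surj a
      exact ⟨g, rfl⟩
    · have := h.min (L.comap (QuotientGroup.mk' _)) (eq_top_iff.2 fun a _ => by
        obtain ⟨x, h1, h2⟩ : a ∈ L.map (QuotientGroup.lift _ φ e1) := hL ▸ Subgroup.mem_top a
        obtain ⟨x, rfl⟩ := QuotientGroup.mk_surjective x
        exact ⟨x, h1, h2⟩)
      refine eq_top_iff.2 fun x _ => ?_
      obtain ⟨x, rfl⟩ := QuotientGroup.mk_surjective x
      exact show x ∈ L.comap (QuotientGroup.mk' _) from this ▸ Subgroup.mem_top x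
    · obtain ⟨x, rfl⟩ := QuotientGroup.mk_surjective x
      exact (QuotientGroup.eq_one_iff _).2 hx
  intro G _ _ φ k V _ _ _ _ _ ρ h hn hf
  subst hn
  have hp := h.perfect h9
  have nab : ¬ ∀ a b : G, ρ a * ρ b = ρ b * ρ a := fun H => by
    have e1 : commutator G = ⊥ := Subgroup.commutator_eq_bot_iff_le_centralizer.2 fun a _ b _ =>
      hf (by rw [map_mul, map_mul, H])
    have := alternatingGroup.isSimpleGroup (α := Fin r) (by simp; omega)
    obtain ⟨a, ha⟩ := exists_ne (1 : alternatingGroup (Fin r))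
    obtain ⟨a, rfl⟩ := h.surj a
    have : a ∈ commutator G := hp ▸ Subgroup.mem_top a
    rw [e1, Subgroup.mem_bot] at this
    exact ha (by rw [this, map_one])
  have : Nontrivial V := by
    by_contra! H
    exact nab fun a b => Subsingleton.elim _ _
  by_cases hi : ∀ U : Submodule k V, (∀ g, ∀ v ∈ U, ρ g v ∈ U) → U ≠ ⊥ → U = ⊤
  swap
  · push Not at hi
    obtain ⟨U, u1, u2, u3⟩ := hi
    have e1 := U.finrank_quotient_add_finrank
    have e2 := Submodule.finrank_lt u3
    have e3 := Submodule.one_le_finrank_iff.2 u2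
    by_cases c1 : ∃ g, Representation.subrepresentation ρ U u1 g ≠ 1
    · exact (ih _ e2 G φ k U _ h rfl c1).trans e2.le
    by_cases c2 : ∃ g, Representation.quotient ρ U u1 g ≠ 1
    · exact (ih _ (by omega) G φ k (V ⧸ U) _ h rfl c2).trans (by omega)
    push Not at c1 c2
    have f1 : ∀ g v, ρ g v - v ∈ U := fun g v => (Submodule.Quotient.eq U).1
      (congrArg (· (U.mkQ v)) (c2 g))
    have f2 : ∀ a b v, ρ a (ρ b v) = ρ a v + ρ b v - v := fun a b v => by
      have : ρ a (ρ b v - v) = ρ b v - v := congrArg (fun f => (f ⟨_, f1 b v⟩ : V)) (c1 a)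
      rw [map_sub] at this
      linear_combination (norm := module) this
    exact absurd (fun a b => LinearMap.ext fun v => by rw [End.mul_apply, End.mul_apply, f2, f2, add_comm]) nab
  have hb := bd_le (k := k) r
  by_cases hc : φ.ker ≤ Subgroup.center G
  · have := low_all (k := k) (α := Fin r) (by simpa using h9) G ((alternatingGroup _).subtype.comp φ) V ρ
      ⟨fun σ hσ => by
        obtain ⟨g, hg⟩ := h.surj ⟨σ, mem_alternatingGroup.2 hσ⟩
        exact ⟨g, congrArg Subtype.val hg⟩, fun g => mem_alternatingGroup.1 (φ g).2,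
        fun z hz g => (Subgroup.mem_center_iff.1 (hc (Subtype.ext hz)) g).symm⟩
      (fun z hz => schur_scal hi (hc (Subtype.ext hz))) (by
        by_contra H
        refine nab fun a b => LinearMap.ext fun v => ?_
        obtain ⟨c, hc⟩ := not_not.1 (not_exists.1 H a)
        rw [End.mul_apply, End.mul_apply, hc, hc, map_smul])
    simpa using this
  obtain ⟨N, l, hl, n1, n2, n3, n4, n5⟩ := h.exists_N hc
  by_cases hab : ∀ a ∈ N, ∀ b ∈ N, Commute a b
  · exact hb.2.trans (abel_case h h9 hf hi n3 hab)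
  have := Fact.mk hl
  have c1 : ⁅N, N⁆ ≤ Subgroup.center G := n5 _ inferInstance (Subgroup.commutator_le_left _ _) fun e => by
    have := n4.isNilpotent
    have : Nontrivial N := (Subgroup.nontrivial_iff_ne_bot _).2 (by rintro rfl; exact n3 bot_le)
    have e1 := Group.IsSolvable.commutator_lt_top_of_nontrivial N
    refine e1.ne (Subgroup.map_injective N.subtype_injective ?_)
    rw [Subgroup.map_subtype_commutator, e, ← MonoidHom.range_eq_map, Subgroup.range_subtype]
  have c2 : N ⊓ Subgroup.centralizer N ≤ Subgroup.center G := n5 _ inferInstance inf_le_left fun e =>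
    hab fun a ha b hb => (inf_eq_left.1 e hb a ha)
  have c3 : ∀ x ∈ N, x ^ l ∈ Subgroup.center G := by
    let π := QuotientGroup.mk' (Subgroup.center G)
    have cm : ∀ a ∈ N, ∀ b ∈ N, Commute (π a) (π b) := fun a ha b hb => by
      rw [← commutatorElement_eq_one_iff_commute, ← map_commutatorElement]
      exact (QuotientGroup.eq_one_iff _).2 (c1 (Subgroup.commutator_mem_commutator ha hb))
    let M : Subgroup G :=
      { carrier := {x | x ∈ N ∧ π x ^ l = 1}
        one_mem' := ⟨one_mem _, by simp⟩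
        mul_mem' := fun {a b} ha hb => ⟨mul_mem ha.1 hb.1, by
          rw [map_mul, (cm a ha.1 b hb.1).mul_pow, ha.2, hb.2, one_mul]⟩
        inv_mem' := fun {a} ha => ⟨inv_mem ha.1, by rw [map_inv, inv_pow, ha.2, inv_one]⟩ }
    have hM : M = N := by_contra fun e => by
      have e1 := n5 M ⟨fun a ha g => ⟨n1.conj_mem a ha.1 g, by
        rw [map_mul, map_mul, map_inv, conj_pow, ha.2]; simp⟩⟩ (fun a ha => ha.1) e
      obtain ⟨x, x1, x2⟩ := SetLike.not_le_iff_exists.1 n3
      obtain ⟨j, hj⟩ := n4 ⟨x, x1⟩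
      have e2 : ∀ j, x ^ l ^ j ∉ Subgroup.center G := fun j => by
        induction j with
        | zero => simpa using x2
        | succ j ih => exact fun e => ih (e1 ⟨pow_mem x1 _, by
            rw [← map_pow, ← pow_mul, ← pow_succ]; exact (QuotientGroup.eq_one_iff _).2 e⟩)
      exact e2 j (by rw [show x ^ l ^ j = 1 from congrArg Subtype.val hj]; exact one_mem _)
    intro x hx
    exact (QuotientGroup.eq_one_iff _).1 ((map_pow π x l).trans (show x ∈ M from hM ▸ hx).2)
  obtain ⟨m, m1, σ, g, hg⟩ := exists_modrep hp n3 c1 c3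
  have m2 := nonabel_case hf hi c1 c2
  rw [m1] at m2
  have m3 := (Nat.pow_le_pow_left hl.two_le m).trans m2
  by_cases hm : m < finrank k V
  · let K := AlgebraicClosure (ZMod l)
    have := ih m hm G φ K (Fin m → K) ((Matrix.toLinAlgEquiv' (R := K) (n := Fin m)).toMulEquiv.toMonoidHom.comp
      ((algebraMap (ZMod l) K).mapMatrix.toMonoidHom.comp σ)) h (by simp) ⟨g, fun e => hg (by
        have e1 : (algebraMap (ZMod l) K).mapMatrix (σ g) = 1 :=
          (Matrix.toLinAlgEquiv' (R := K) (n := Fin m)).injective (e.trans (map_one _).symm)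
        exact Matrix.map_injective (algebraMap (ZMod l) K).injective (e1.trans (map_one (algebraMap (ZMod l) K).mapMatrix).symm))⟩
    exact hb.2.trans (two_pow_aux m3 ((bd_le r).1.trans this) h9)
  · exfalso
    have e1 : finrank k V < 5 := by
      by_contra! H
      have key : ∀ s, 5 ≤ s → s * s < 2 ^ s := fun s hs => by
        induction s, hs using Nat.le_induction with
        | base => norm_num
        | succ s hs ih => rw [pow_succ]; nlinarith
      have := key _ H
      have := Nat.pow_le_pow_right two_pos (not_lt.1 hm)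
      omega
    have e2 : l ^ m ≤ 16 := m2.trans (by nlinarith)
    have e3 : m ≤ 4 := by
      by_contra! H
      have := Nat.pow_le_pow_right two_pos H
      have := Nat.pow_le_pow_left hl.two_le m
      omega
    have e4 := h.card_le h9 σ ⟨g, hg⟩
    have e5 : Nat.card (Matrix (Fin m) (Fin m) (ZMod l)) = (l ^ m) ^ m := by
      simp [Matrix]
    have e6 := (Nat.pow_le_pow_left e2 m).trans (Nat.pow_le_pow_right (by norm_num) e3)
    have e7 := Nat.factorial_le h9
    rw [show Nat.factorial 9 = 362880 by rfl] at e7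
    omega

end Cfsg.Agent.H23.Wg
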