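import Mathlib
import Cfsg.Agent.H23.Wg9

/-! Weight decompositions and Clifford bounds for projective representations of alternating groups. -/

set_option autoImplicit false
set_option linter.unusedSectionVars false
set_option linter.unusedVariables false

namespace Cfsg.Agent.H23.Wg

open Equiv Equiv.Perm Module

section Lin

variable {k V : Type*} [Field k] [AddCommGroup V] [Module k V] [FiniteDimensional k V]

theorem finrank_le_sum {β : Type*} (s : Finset β) (W : β → Submodule k V) {U : Submodule k V}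
    (h : U ≤ ⨆ b ∈ s, W b) : finrank k U ≤ ∑ b ∈ s, finrank k (W b) := by
  classical
  refine (Submodule.finrank_mono h).trans ?_
  clear h
  induction s using Finset.induction_on with
  | empty => simp
  | insert a s ha ih =>
    rw [Finset.iSup_insert, Finset.sum_insert ha]
    exact (Submodule.finrank_add_le_finrank_add_finrank _ _).trans (by omega)

variable [IsAlgClosed k]

theorem iSup_wt {ι : Type*} (X : ι → End k V) (hc : ∀ i j, Commute (X i) (X j))
    (hn : ∀ i, ∃ n : ℕ, (n : k) ≠ 0 ∧ X i ^ n = 1) : ⨆ χ : ι → k, ⨅ i, (X i).eigenspace (χ i) = ⊤ := by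
  have ss : ∀ i, (X i).IsSemisimple := fun i => by
    obtain ⟨n, h1, h2⟩ := hn i
    exact End.isSemisimple_of_squarefree_aeval_eq_zero
      (Polynomial.separable_X_pow_sub_C (1 : k) h1 one_ne_zero).squarefree (by simp [h2])
  have := End.iSup_iInf_maxGenEigenspace_eq_top_of_iSup_maxGenEigenspace_eq_top_of_commute X (fun i j _ => hc i j)
    fun i => End.iSup_maxGenEigenspace_eq_top _
  simpa only [fun i => (ss i).isFinitelySemisimple.maxGenEigenspace_eq_eigenspace] using this

theorem le_iSup_wt {ι : Type*} (X : ι → End k V) (hc : ∀ i j, Commute (X i) (X j))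
    (hn : ∀ i, ∃ n : ℕ, (n : k) ≠ 0 ∧ X i ^ n = 1) {U : Submodule k V} (hU : ∀ i, ∀ u ∈ U, X i u ∈ U) :
    U ≤ ⨆ χ : ι → k, U ⊓ ⨅ i, (X i).eigenspace (χ i) := by
  have := congrArg (Submodule.map U.subtype) (iSup_wt (fun i => (X i).restrict (hU i))
    (fun i j => LinearMap.ext fun v => Subtype.ext (congrArg (· v.1) (hc i j).eq)) fun i => by
      obtain ⟨n, h1, h2⟩ := hn i
      exact ⟨n, h1, LinearMap.ext fun v => Subtype.ext (by
        rw [Module.End.pow_restrict n (hU i), LinearMap.restrict_coe_apply, h2]; rfl)⟩)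
  rw [Submodule.map_top, Submodule.range_subtype, Submodule.map_iSup] at this
  refine this.ge.trans (iSup_mono fun χ => ?_)
  rintro _ ⟨v, hv, rfl⟩
  simp only [SetLike.mem_coe, Submodule.mem_iInf, End.mem_eigenspace_iff] at hv
  exact ⟨v.2, (Submodule.mem_iInf _).2 fun i => End.mem_eigenspace_iff.2 (congrArg Subtype.val (hv i))⟩

theorem clN [Nontrivial V] {n : ℕ} (a b : Fin n → End k V) (δ : k) (hi : ∀ i, Function.Injective (a i))
    (h1 : ∀ i j, i ≠ j → a i * a j + a j * a i = 0) (h2 : ∀ i j, i ≠ j → a i * b j + b j * a i = 0)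
    (h3 : ∀ i j, i ≠ j → b i * b j + b j * b i = 0) (h4 : ∀ i, a i * b i + b i * a i = δ • 1)
    (h5 : ∀ i c v, v ≠ 0 → (a i * b i) v = c • v → -1 * c + δ ≠ c) : 2 ^ n ≤ finrank k V := by
  have key : ∀ i (x : End k V), a i * x + x * a i = 0 → b i * x + x * b i = 0 → Commute (a i * b i) x :=
    fun i x e1 e2 => by
      rw [Commute, SemiconjBy, mul_assoc, eq_neg_of_add_eq_zero_left e2, mul_neg, ← mul_assoc,
        eq_neg_of_add_eq_zero_left e1, neg_mul, neg_neg, mul_assoc]
  have e1 : ∀ i j, i ≠ j → Commute (a i * b i) (a j) := fun i j e =>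
    key i _ (h1 i j e) (by rw [add_comm]; exact h2 j i e.symm)
  refine two_pow_le (fun i => a i * b i) a (-1) δ (fun i j => ?_) hi e1 (fun i => ?_) h5
  · by_cases e : i = j
    · subst e; exact Commute.refl _
    · exact (e1 i j e).mul_right (key i _ (h2 i j e) (h3 i j e))
  · rw [mul_assoc, eq_sub_of_add_eq' (h4 i), neg_one_smul, neg_add_eq_sub]

theorem cl_form [Nontrivial V] (h2 : (2 : k) ≠ 0) {m n : ℕ} (hn : 2 * n ≤ m) (s : Fin m → End k V)
    (M : Matrix (Fin m) (Fin m) k) (h : ∀ i j, s i * s j + s j * s i = M i j • 1)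
    (hM : ∀ x, (∀ y, Matrix.toBilin' M x y = 0) → x = 0) : 2 ^ n ≤ finrank k V := by
  have an : ∀ x y : Fin m → k, (∑ i, x i • s i) * (∑ j, y j • s j) + (∑ j, y j • s j) * (∑ i, x i • s i) =
      Matrix.toBilin' M x y • (1 : End k V) := fun x y => by
    rw [Finset.sum_mul_sum, Finset.sum_mul_sum, Finset.sum_comm (s := Finset.univ) (t := Finset.univ)
      (f := fun j i => y j • s j * x i • s i), ← Finset.sum_add_distrib, Matrix.toBilin'_apply, Finset.sum_smul]
    refine Finset.sum_congr rfl fun i _ => ?_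
    rw [← Finset.sum_add_distrib, Finset.sum_smul]
    refine Finset.sum_congr rfl fun j _ => ?_
    rw [smul_mul_smul_comm, smul_mul_smul_comm, mul_comm (y j), ← smul_add, h, smul_smul, mul_right_comm]
  have := invertibleOfNonzero h2
  obtain ⟨v, hv⟩ := LinearMap.BilinForm.exists_orthogonal_basis (B := Matrix.toBilin' M) ⟨fun x y => by
    have := (an x y).symm.trans ((add_comm _ _).trans (an y x))
    exact smul_left_injective k one_ne_zero this⟩
  have nz := hv.not_isOrtho_basis_self_of_separatingLeft hM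
  have hd : finrank k (Fin m → k) = m := by simp
  let f : Fin n → Fin (finrank k (Fin m → k)) := fun i => ⟨2 * i, by omega⟩
  let g : Fin n → Fin (finrank k (Fin m → k)) := fun i => ⟨2 * i + 1, by omega⟩
  have inj : ∀ j, Function.Injective (∑ i, v j i • s i : End k V) := fun j =>
    (injective_iff_map_eq_zero _).2 fun w hw => by
      have := congrArg (· w) (an (v j) (v j))
      simp only [LinearMap.add_apply, End.mul_apply, hw, map_zero, add_zero, LinearMap.smul_apply,
        End.one_apply] at this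
      exact (smul_eq_zero.1 this.symm).resolve_left (nz j)
  have z : ∀ {i j}, i.val ≠ j.val → (∑ l, v i l • s l) * (∑ l, v j l • s l) + (∑ l, v j l • s l) * (∑ l, v i l • s l) =
      (0 : End k V) := fun {i j} e => by rw [an, show Matrix.toBilin' M _ _ = 0 from hv (Fin.val_ne_iff.1 e), zero_smul]
  refine clN (fun i => ∑ l, v (f i) l • s l) (fun i => ∑ l, v (g i) l • s l) 0 (fun i => inj _)
    (fun i j e => z (by simp only [f]; omega)) (fun i j e => z (by simp only [f, g]; omega))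
    (fun i j e => z (by simp only [g]; omega)) (fun i => by rw [zero_smul]; exact z (by simp only [f, g]; omega))
    fun i c w hw e e' => ?_
  have : c = 0 := (mul_eq_zero.1 (show 2 * c = 0 by linear_combination -e')).resolve_left h2
  rw [this, zero_smul, End.mul_apply] at e
  exact hw (inj _ ((inj _ (e.trans (map_zero _).symm)).trans (map_zero _).symm))

end Lin

universe u v

variable {α : Type*} [Fintype α] [DecidableEq α] {G : Type u} [Group G] {π : G →* Perm α}
  {k : Type*} {V : Type v} [Field k] [AddCommGroup V] [Module k V] [FiniteDimensional k V] {ρ : G →* End k V}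
  {T : α → α → α → G}

/-- three-cycles have no fixed vectors -/
def Fpf (ρ : G →* End k V) (T : α → α → α → G) : Prop :=
  ∀ {a b c}, a ≠ b → a ≠ c → b ≠ c → ρ (T a b c) ^ 2 + ρ (T a b c) + 1 = 0

theorem exists_sub {β : Type*} [Fintype β] [DecidableEq β] (h : CE π) (t : TS π T) (hs : SC π ρ) (e : β ↪ α)
    (U : Submodule k V) (hU : ∀ g, (∀ x, x ∉ Set.range e → π g x = x) → ∀ v ∈ U, ρ g v ∈ U) :
    ∃ (H : Subgroup G) (π' : H →* Perm β) (ρ' : H →* End k U) (T' : β → β → β → H), CE π' ∧ TS π' T' ∧ SC π' ρ' ∧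
      (∀ g v, (ρ' g v : V) = ρ g v) ∧ ∀ a b c, a ≠ b → a ≠ c → b ≠ c → (T' a b c : G) = T (e a) (e b) (e c) := by
  obtain ⟨H, π', h1, h2, h3⟩ := exists_res h e
  have n : ∀ {a b : β}, a ≠ b → e a ≠ e b := fun h => e.injective.ne h
  have hm : ∀ {a b c : β}, a ≠ b ∧ a ≠ c ∧ b ≠ c → T (e a) (e b) (e c) ∈ H := fun h => (h3 _).2 fun x hx => by
    rw [t.pi (n h.1) (n h.2.1) (n h.2.2), c3_o] <;> rintro rfl <;> simp at hx
  let T' : β → β → β → H := fun a b c => if h : a ≠ b ∧ a ≠ c ∧ b ≠ c then ⟨_, hm h⟩ else 1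
  have hT : ∀ a b c, a ≠ b → a ≠ c → b ≠ c → (T' a b c : G) = T (e a) (e b) (e c) := fun a b c h1 h2 h3 => by
    simp only [T', dif_pos (And.intro h1 (And.intro h2 h3))]
  refine ⟨H, π', Representation.subrepresentation (ρ.comp H.subtype) U fun g v hv => hU g ((h3 g).1 g.2) v hv, T', h1,
    ⟨fun {a b c} i1 i2 i3 => Equiv.ext fun x => e.injective ?_, fun {a b c} i1 i2 i3 => Subtype.ext ?_,
      fun g {a b c} i1 i2 i3 => Subtype.ext ?_, fun {a b c} i1 i2 i3 => Subtype.ext ?_⟩, fun z hz => ?_,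
    fun g v => rfl, hT⟩
  · rw [← h2, hT a b c i1 i2 i3, t.pi (n i1) (n i2) (n i3)]
    simp only [c3_apply, swap_apply_def, e.injective.eq_iff]
    grind
  · rw [Subgroup.coe_pow, hT a b c i1 i2 i3, t.cube (n i1) (n i2) (n i3)]; rfl
  · have i := (π' g).injective
    rw [hT _ _ _ (i.ne i1) (i.ne i2) (i.ne i3), ← h2, ← h2, ← h2, ← t.conj _ (n i1) (n i2) (n i3), ← hT a b c i1 i2 i3]
    rfl
  · rw [Subgroup.coe_inv, hT a b c i1 i2 i3, hT a c b i2 i1 i3.symm, t.inv (n i1) (n i2) (n i3)]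
  · obtain ⟨c, hc⟩ := hs z (Equiv.ext fun x => by
      by_cases hx : x ∈ Set.range e
      · obtain ⟨x, rfl⟩ := hx
        rw [h2, hz]; rfl
      · exact (h3 z).1 z.2 x hx)
    exact ⟨c, fun v => Subtype.ext (hc v)⟩

theorem Fpf.nt [Nontrivial V] (hq : Fpf ρ T) (h : CE π) (t : TS π T) (h3 : (3 : k) ≠ 0) (h5 : 5 ≤ Fintype.card α) :
    NT ρ := by
  obtain ⟨e⟩ := exists_emb h5
  have n : ∀ {i j : Fin 5}, i ≠ j → e i ≠ e j := fun h => e.injective.ne h
  have h1 : e 0 ≠ e 1 := n (by decide)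
  have h2 : e 0 ≠ e 2 := n (by decide)
  have h3' : e 1 ≠ e 2 := n (by decide)
  refine ⟨T (e 0) (e 1) (e 2), fun ⟨c, hc⟩ => ?_⟩
  obtain ⟨g, g1, g2, g3, -⟩ := h.exists_inv [] (by simpa using h5) h1 h2 h3'
  obtain ⟨v, v0⟩ := exists_ne (0 : V)
  have e1 := t.eig_eqv g h1 h2 h3' (hc v)
  rw [g1, g2, g3] at e1
  have e2 := smul_left_injective k (r_ne ρ g v0) ((t.sq_eig h1 h2 h3' e1).symm.trans (hc _))
  have e3 := congrArg (· v) (hq h1 h2 h3')
  simp only [sq, LinearMap.add_apply, End.mul_apply, hc, End.one_apply, LinearMap.zero_apply, map_smul] at e3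
  have e4 : c * c + c + 1 = 0 := (smul_eq_zero.1 (show (c * c + c + 1) • v = 0 by
    linear_combination (norm := module) e3)).resolve_right v0
  exact h3 (by grind)

variable [IsAlgClosed k]

theorem Fpf.z [Nontrivial V] (hq : Fpf ρ T) (h : CE π) (t : TS π T) (hs : SC π ρ) (h3 : (3 : k) ≠ 0)
    (h5 : 5 ≤ Fintype.card α) {a b c d : α} (hd : [a, b, c, d].Nodup) : ρ (Dl T a b c d ^ 2) = -1 := by
  obtain ⟨h1, h2, h4, h6, h7, h8⟩ := nd4.1 hd
  have e := cl_rel h t hs (hq.nt h t h3 h5) h5 hq h2 h1 h6.symm h4 h8 h7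
  have c1 : ρ (T a c b) ^ 3 = 1 := by rw [← map_pow, t.cube h2 h1 h6.symm, map_one]
  have c2 : ρ (T a c d) ^ 3 = 1 := by rw [← map_pow, t.cube h2 h4 h8, map_one]
  have q1 := hq h2 h1 h6.symm
  have q2 := hq h2 h4 h8
  rw [map_pow, Dl, map_mul]
  generalize ρ (T a c b) = x at *
  generalize ρ (T a c d) = y at *
  have e1 : x * y = -(y ^ 2 * x ^ 2) := by
    rw [show y ^ 2 = -(y + 1) by rw [eq_neg_iff_add_eq_zero, ← add_assoc, q2],
      show x ^ 2 = -(x + 1) by rw [eq_neg_iff_add_eq_zero, ← add_assoc, q1]]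
    linear_combination (norm := noncomm_ring) e
  calc (x * y) ^ 2 = x * y * -(y ^ 2 * x ^ 2) := by rw [sq, ← e1]
    _ = -(x * y ^ 3 * x ^ 2) := by noncomm_ring
    _ = -1 := by rw [c2, mul_one, ← pow_succ', c1]

theorem Fpf.gens [Nontrivial V] (hq : Fpf ρ T) (h : CE π) (t : TS π T) (hs : SC π ρ) (h3 : (3 : k) ≠ 0)
    (h5 : 5 ≤ Fintype.card α) {m : ℕ} (hm : m + 2 ≤ Fintype.card α) : ∃ x : Fin m → End k V,
      (∀ i, x i ^ 2 + x i + 1 = 0) ∧ ∀ i j, i ≠ j → x i * x j + x j * x i + x i + x j + 1 = 0 := by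
  obtain ⟨e⟩ := exists_emb hm
  have e1 : e 0 ≠ e 1 := e.injective.ne (by simp)
  have e2 : ∀ i : Fin m, e 0 ≠ e i.succ.succ := fun i => e.injective.ne (Fin.succ_ne_zero _).symm
  have e3 : ∀ i : Fin m, e 1 ≠ e i.succ.succ := fun i => e.injective.ne
    ((Fin.succ_injective _).ne (Fin.succ_ne_zero _).symm)
  exact ⟨fun i => ρ (T (e 0) (e 1) (e i.succ.succ)), fun i => hq e1 (e2 i) (e3 i), fun i j hij =>
    cl_rel h t hs (hq.nt h t h3 h5) h5 hq e1 (e2 i) (e3 i) (e2 j) (e3 j)
      (e.injective.ne ((Fin.succ_injective _).ne ((Fin.succ_injective _).ne hij)))⟩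

theorem Fpf.cliff [Nontrivial V] (hq : Fpf ρ T) (h : CE π) (t : TS π T) (hs : SC π ρ) (h2 : (2 : k) ≠ 0)
    (h3 : (3 : k) ≠ 0) (h5 : 5 ≤ Fintype.card α) {m n : ℕ} (hm : m + 2 ≤ Fintype.card α) (hk : (m : k) + 2 ≠ 0)
    (hn : 2 * n ≤ m) : 2 ^ n ≤ finrank k V := by
  obtain ⟨x, x1, x2⟩ := hq.gens h t hs h3 h5 hm
  refine cl_form h2 hn (fun i => 2 * x i + 1) (Matrix.of fun i j => if i = j then -6 else -2) (fun i j => ?_)
    fun y hy => ?_
  · rw [Matrix.of_apply]
    split_ifs with e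
    · subst e
      rw [show ((-6 : k) • 1 : End k V) = ((-6 : ℤ) : End k V) by rw [cast_end]; norm_num]
      linear_combination (norm := (noncomm_ring; norm_num)) 8 * x1 i
    · rw [show ((-2 : k) • 1 : End k V) = ((-2 : ℤ) : End k V) by rw [cast_end]; norm_num]
      linear_combination (norm := (noncomm_ring; norm_num)) 4 * x2 i j e
  · have e1 : ∀ j, 2 * y j + ∑ i, y i = 0 := fun j => by
      have := hy (Pi.single j 1)
      rw [Matrix.toBilin'_apply] at this
      simp only [Matrix.of_apply, Pi.single_apply, mul_ite, mul_one, mul_zero, Finset.sum_ite_eq', Finset.mem_univ,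
        if_true] at this
      rw [Finset.sum_congr rfl (g := fun i => -2 * y i + if i = j then -4 * y i else 0)
        (fun i _ => by split_ifs <;> ring), Finset.sum_add_distrib, ← Finset.mul_sum] at this
      simp only [Finset.sum_ite_eq', Finset.mem_univ, if_true] at this
      exact (mul_eq_zero.1 (show 2 * (2 * y j + ∑ i, y i) = 0 by linear_combination -this)).resolve_left h2
    have e2 := Finset.sum_congr rfl fun j (_ : j ∈ Finset.univ) => e1 j
    rw [Finset.sum_add_distrib, ← Finset.mul_sum] at e2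
    simp only [Finset.sum_const, Finset.card_univ, Fintype.card_fin, nsmul_eq_mul, mul_zero] at e2
    have e3 : ∑ i, y i = 0 := (mul_eq_zero.1 (show ((m : k) + 2) * ∑ i, y i = 0 by
      linear_combination e2)).resolve_left hk
    exact funext fun j => (mul_eq_zero.1 (show 2 * y j = 0 by linear_combination e1 j - e3)).resolve_left h2

theorem fpf_quot (h : CE π) (t : TS π T) (hs : SC π ρ) (h9 : 9 ≤ Fintype.card α) {a b c x y z : α}
    (hd : [a, b, c, x, y, z].Nodup) (f1 : ∀ v, ρ (T a b c) v = v → ρ (T x y z) v = v)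
    (hn : ∃ v, ρ (T a b c) v ≠ v) : ∃ (C : Submodule k V) (ρ' : G →* End k (V ⧸ C)), Nontrivial (V ⧸ C) ∧
      SC π ρ' ∧ Fpf ρ' T := by
  have f2 : ∀ {a b c x y z : α}, [a, b, c, x, y, z].Nodup → ∀ v, ρ (T a b c) v = v → ρ (T x y z) v = v := by
    intro a' b' c' x' y' z' hn v hw
    obtain ⟨g, hg⟩ := h.trans _ _ hn hd rfl (by simp; omega)
    simp only [List.nodup_cons, List.mem_cons, List.not_mem_nil, or_false, not_or] at hn
    simp only [List.map_cons, List.map_nil, List.cons.injEq, and_true] at hg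
    obtain ⟨rfl, rfl, rfl, rfl, rfl, rfl⟩ := hg
    apply r_inj ρ g
    rw [t.r g (by grind) (by grind) (by grind), f1 _ (by rw [← t.r g (by grind) (by grind) (by grind), hw])]
  have f3 : ∀ {a b c x y z : α}, a ≠ b → a ≠ c → b ≠ c → x ≠ y → x ≠ z → y ≠ z → ∀ v, ρ (T a b c) v = v →
      ρ (T x y z) v = v := by
    intro a b c x y z h1 h2 h3 h4 h5 h6 v hv
    obtain ⟨p, hp⟩ := fresh [a, b, c, x, y, z] (by simp; omega)
    obtain ⟨q, hq⟩ := fresh [a, b, c, x, y, z, p] (by simp; omega)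
    obtain ⟨s, hs'⟩ := fresh [a, b, c, x, y, z, p, q] (by simp; omega)
    simp only [List.mem_cons, List.not_mem_nil, or_false, not_or] at hp hq hs'
    exact f2 (a := p) (b := q) (c := s) (by simp; grind) v (f2 (by simp; grind) v hv)
  simp only [List.nodup_cons, List.mem_cons, List.not_mem_nil, or_false, not_or] at hd
  have hab : a ≠ b := by grind
  have hac : a ≠ c := by grind
  have hbc : b ≠ c := by grind
  let C := (ρ (T a b c)).eigenspace 1
  have hC : ∀ {v}, v ∈ C ↔ ρ (T a b c) v = v := by simp [C]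
  let ρ' := Representation.quotient ρ C fun g v hv => hC.2 (by
    have i := (π g).injective
    exact f3 (i.ne hab) (i.ne hac) (i.ne hbc) hab hac hbc _ (by rw [← t.r g hab hac hbc, hC.1 hv]))
  have hρ : ∀ g v, ρ' g (C.mkQ v) = C.mkQ (ρ g v) := fun g v => rfl
  refine ⟨C, ρ', ?_, fun z hz => ?_, fun {a' b' c'} h1 h2 h3 => LinearMap.ext fun v => ?_⟩
  · obtain ⟨v, hv⟩ := hn
    exact nontrivial_of_ne (C.mkQ v) 0 fun e => hv (hC.1 ((Submodule.Quotient.mk_eq_zero _).1 e))
  · obtain ⟨c, hc⟩ := hs z hz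
    refine ⟨c, fun v => ?_⟩
    obtain ⟨v, rfl⟩ := C.mkQ_surjective v
    rw [hρ, hc, map_smul]
  · obtain ⟨v, rfl⟩ := C.mkQ_surjective v
    simp only [sq, LinearMap.add_apply, End.mul_apply, hρ, End.one_apply, ← map_add, LinearMap.zero_apply]
    refine (Submodule.Quotient.mk_eq_zero _).2 (hC.2 (f3 h1 h2 h3 hab hac hbc _ ?_))
    simp only [map_add, cube_app (t.cube h1 h2 h3)]
    abel

end Cfsg.Agent.H23.Wg
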