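import Mathlib
import Cfsg.Agent.H18.SylIn

/-! Lifting an elementary abelian section with a monomial automizer to a torus. -/

set_option autoImplicit false
set_option linter.unusedSectionVars false
set_option linter.unusedVariables false

namespace Cfsg.Agent.H23.Wg

open Subgroup Cfsg.Agent.H18

variable {M A : Type*} [Group M] [Group A] {ψ : M →* A} {l : ℕ} [hl : Fact l.Prime]

theorem eig {B R : Subgroup M} [Finite R] (hB : IsPGroup l B) (cm : ∀ x ∈ B, ∀ y ∈ B, Commute x y) (hR : ¬ l ∣ Nat.card R)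
    (hn : ∀ r ∈ R, ∀ x ∈ B, r * x * r⁻¹ ∈ B) {a : A} (ha : orderOf a = l) (h1 : ∀ r ∈ R, ψ r * a * (ψ r)⁻¹ ∈ zpowers a)
    (h0 : ∃ b ∈ B, ψ b ∈ zpowers a ∧ ψ b ≠ 1) :
    ∃ x ∈ B, x ≠ 1 ∧ x ^ l = 1 ∧ ∀ r ∈ R, ∀ c : ℕ, ψ r * a * (ψ r)⁻¹ = a ^ c → r * x * r⁻¹ = x ^ c := by
  classical
  have := Fintype.ofFinite R
  have fa : IsOfFinOrder a := orderOf_pos_iff.1 (ha ▸ hl.out.pos)
  choose μ hμ using fun r : R => show ∃ n : ℕ, (ψ r * a * (ψ r)⁻¹) ^ n = a from by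
    obtain ⟨n, e⟩ := fa.mem_powers_iff_mem_zpowers.2 (h1 _ (inv_mem r.2))
    exact ⟨n, by rw [conj_pow, show a ^ n = _ from e]; simp [mul_assoc]⟩
  have ex : ∃ k, ∃ b ∈ B, ψ b ∈ zpowers a ∧ ψ b ≠ 1 ∧ b ^ l ^ k = 1 := by
    obtain ⟨b, b1, b2, b3⟩ := h0
    obtain ⟨k, hk⟩ := hB ⟨b, b1⟩
    exact ⟨k, b, b1, b2, b3, congrArg Subtype.val hk⟩
  obtain ⟨b, b1, ⟨i, b2⟩, b3, b4⟩ := Nat.find_spec ex
  obtain ⟨k, hk⟩ := Nat.exists_eq_succ_of_ne_zero (n := Nat.find ex) fun e => b3 (by simpa [e] using congrArg ψ b4)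
  let _ : CommGroup B := { mul_comm := fun x y => Subtype.ext (cm _ x.2 _ y.2) }
  let κ : R → B →* B := fun r => ((MulAut.conj r.1).toMonoidHom.comp B.subtype).codRestrict B fun x => hn _ r.2 _ x.2
  have hκ : ∀ r s x, κ (r * s) x = κ r (κ s x) := fun r s x => Subtype.ext (by simp [κ, mul_assoc])
  let u : B := ∏ r, κ r ⟨b, b1⟩ ^ μ r
  have hu : ψ u = ψ b ^ Nat.card R := by
    rw [Nat.card_eq_fintype_card, ← Finset.card_univ]
    refine Finset.induction_on (motive := fun s : Finset R => ψ (∏ r ∈ s, κ r ⟨b, b1⟩ ^ μ r : B) = ψ b ^ s.card) _ (by simp)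
      fun r s hr ih => ?_
    rw [Finset.prod_insert hr, Finset.card_insert_of_notMem hr, coe_mul, map_mul, ih, pow_succ', coe_pow, map_pow]
    congr 1
    change ψ (r * b * (r : M)⁻¹) ^ _ = _
    rw [map_mul, map_mul, map_inv, ← b2, ← conj_zpow, ← zpow_natCast, ← zpow_mul, mul_comm, zpow_mul, zpow_natCast, hμ]
  have hv : ∀ r, κ r (⟨b, b1⟩ ^ l ^ k) ^ l = 1 := fun r => by
    rw [← map_pow, ← pow_mul, ← pow_succ, show (⟨b, b1⟩ : B) ^ l ^ (k + 1) = 1 from Subtype.ext (hk ▸ b4 :), map_one]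
  have hx : u ^ l ^ k = ∏ r, κ r (⟨b, b1⟩ ^ l ^ k) ^ μ r := by simp only [u, ← Finset.prod_pow, map_pow, ← pow_mul, mul_comm]
  refine ⟨(u ^ l ^ k : B), SetLike.coe_mem _, fun e => Nat.find_min ex (hk ▸ Nat.lt_succ_self k) ⟨u, u.2, hu ▸ pow_mem (mem_zpowers_iff.2 ⟨i, b2⟩) _,
    fun e' => b3 ?_, e⟩, ?_, fun s hs c e => ?_⟩
  · have : ψ b ^ l = 1 := by rw [← b2, ← zpow_natCast, ← zpow_mul, mul_comm, zpow_mul, zpow_natCast, ← ha, pow_orderOf_eq_one, one_zpow]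
    exact pow_gcd_eq_one.2 ⟨this, hu ▸ e'⟩ |>.symm ▸ (by rw [(hl.out.coprime_iff_not_dvd.2 hR).gcd_eq_one, pow_one])
  · rw [← coe_pow, hx, ← Finset.prod_pow, Finset.prod_eq_one fun r _ => by rw [← pow_mul, mul_comm, pow_mul, hv, one_pow], coe_one]
  · refine congrArg Subtype.val (show κ ⟨s, hs⟩ (u ^ l ^ k) = (u ^ l ^ k) ^ c from ?_)
    rw [hx, map_prod, ← Finset.prod_pow]
    conv_rhs => rw [← Equiv.prod_comp (Equiv.mulLeft (⟨s, hs⟩ : R))]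
    refine Finset.prod_congr rfl fun r _ => ?_
    rw [map_pow, ← hκ, ← pow_mul, Equiv.coe_mulLeft]
    refine pow_eq_pow_iff_modEq.2 (Nat.ModEq.of_dvd (orderOf_dvd_of_pow_eq_one (hv _)) ?_)
    rw [← ha, ← (MulAut.conj (ψ (s * r))).orderOf_eq, ← pow_eq_pow_iff_modEq, pow_mul, MulAut.conj_apply]
    refine .trans ?_ (e.trans (congrArg (· ^ c) (hμ (⟨s, hs⟩ * r)).symm))
    conv_rhs => rw [← hμ r]
    rw [← conj_pow]
    simp only [map_mul, mul_inv_rev, mul_assoc]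

theorem core [Finite M] {P T : Subgroup M} [P.Normal] (cm : ∀ x ∈ T, ∀ y ∈ T, Commute x y)
    (hi : ∀ x ∈ P, ∀ y ∈ P, x ∉ T → ∃ i : ℕ, y * x ^ i ∈ T) (hr : T.relIndex P ≤ l) (hE : l ^ 2 ≤ ψ.ker.relIndex P) :
    (∃ B ≤ P, B.Normal ∧ (∀ x ∈ B, ∀ y ∈ B, Commute x y) ∧ ¬ B ≤ ψ.ker) ∨
    (ψ.ker.relIndex P ≤ l ^ 2 ∧ (∀ z ∈ P, ψ z = 1 → z ∈ T ∧ ∀ y ∈ P, Commute z y) ∧ ∃ n ∈ P, n ∉ T) := by
  have hP : ∀ x ∈ P, ∀ g, g * x * g⁻¹ ∈ P := Normal.conj_mem ‹_›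
  have h0 : ∀ H : Subgroup M, H.relIndex P ≠ 0 := fun H => index_ne_zero_of_finite
  by_cases hN : ∀ x ∈ P ⊓ T, ∀ h, h * x * h⁻¹ ∈ T
  · refine .inl ⟨P ⊓ T, inf_le_left, ⟨fun x hx h => ⟨hP _ hx.1 h, hN x hx h⟩⟩, fun x hx y hy => cm _ hx.2 _ hy.2, fun e => ?_⟩
    have := relIndex_le_of_le_left e (h0 _)
    rw [inf_comm, inf_relIndex_right] at this
    have := hl.out.two_le
    nlinarith
  push Not at hN
  obtain ⟨x, hx, h, hu⟩ := hN
  let T' := T.comap (MulAut.conj h⁻¹ : M →* M)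
  have hZ : ∀ z ∈ (T ⊓ T') ⊓ P, ∀ y ∈ P, Commute z y := fun z hz y hy => by
    obtain ⟨i, e⟩ := hi _ (hP _ hx.1 h) y hy hu
    have h1 : Commute z (h * x * h⁻¹) := by simpa [mul_assoc] using (cm _ hz.1.2 _ hx.2).map (MulAut.conj h)
    simpa only [mul_inv_cancel_right] using (cm _ hz.1.1 _ e).mul_right (h1.pow_right i).inv_right
  by_cases hB : P ⊓ centralizer (P : Set M) ≤ ψ.ker
  swap
  · exact .inl ⟨P ⊓ centralizer (P : Set M), inf_le_left, inferInstance, fun x hx y hy => mem_centralizer_iff.1 (mem_inf.1 hy).2 x hx.1, hB⟩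
  have h1 : (T ⊓ T') ⊓ P ≤ ψ.ker ⊓ P := fun z hz => ⟨hB ⟨hz.2, fun y hy => (hZ z hz y hy).symm⟩, hz.2⟩
  have h2 := relIndex_mul_relIndex _ _ P h1 inf_le_right
  have h3 := relIndex_inf_le (H := T) (K := T') (L := P)
  rw [relIndex_comap, Normal.map_conj_eq] at h3
  rw [inf_relIndex_right, inf_relIndex_right] at h2
  have h4 : ((T ⊓ T') ⊓ P).relIndex (ψ.ker ⊓ P) ≠ 0 := index_ne_zero_of_finite
  have h5 := h3.trans (Nat.mul_le_mul hr hr)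
  have h6 := pow_pos hl.out.pos 2
  refine .inr ⟨by rw [← h2] at h5; nlinarith [Nat.pos_of_ne_zero h4], fun z hz e => ?_, _, hP _ hx.1 h, hu⟩
  have := relIndex_eq_one.1 (show ((T ⊓ T') ⊓ P).relIndex (ψ.ker ⊓ P) = 1 by
    rw [← h2] at h5; nlinarith [Nat.pos_of_ne_zero h4]) ⟨e, hz⟩
  exact ⟨this.1.1, hZ z this⟩

theorem pow_mul_of_comm {x y c : M} (hc : Commute c x) (h : x * y = c * y * x) (n : ℕ) : x ^ n * y = c ^ n * y * x ^ n := by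
  induction n with
  | zero => simp
  | succ n ih => rw [pow_succ' x, mul_assoc, ih, ← mul_assoc, ← mul_assoc, ← (hc.pow_left n).eq, mul_assoc _ x, h, pow_succ c]; group

variable {m : ℕ} (ε : Multiplicative (Fin (m + 2) → ZMod l) →* A)

/-- a map on the elementary abelian group that is induced by conjugation -/
def Re (f : (Fin (m + 2) → ZMod l) → Fin (m + 2) → ZMod l) : Prop :=
  ∃ y : A, ∀ v, y * ε (.ofAdd v) * y⁻¹ = ε (.ofAdd (f v))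

/-- a subgroup that behaves like a maximal torus whose normaliser contains `P` -/
structure TorL (l : ℕ) (P T : Subgroup M) : Prop where
  cm : ∀ x ∈ T, ∀ y ∈ T, Commute x y
  hi : ∀ x ∈ P, ∀ y ∈ P, x ∉ T → ∃ i : ℕ, y * x ^ i ∈ T
  hr : T.relIndex P ≤ l
  st : ∀ z ∈ T, ∀ n ∈ P, n ∉ T → Commute n z → z ^ l = 1 → ∀ g, g * z * g⁻¹ = z ^ 2 → z = 1

/-- the hypotheses on the automizer -/
structure Mono : Prop where
  inj : Function.Injective ε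
  hg : ∀ t, ∃ f, Re ε f ∧ f (Pi.single 0 1) = Pi.single t 1
  hτ : ∀ t ≠ 0, ∃ f, Re ε f ∧ f (Pi.single 0 1) = 2 • Pi.single 0 1 ∧ f (Pi.single t 1) = Pi.single t 1
  hρ : ∀ t ≠ 0, ∃ f, Re ε f ∧ f (Pi.single 0 1) = 2 • Pi.single 0 1 ∧ f (Pi.single t 1) = 2 • Pi.single t 1
  irr : ∀ S : AddSubgroup (Fin (m + 2) → ZMod l), (∀ f, Re ε f → ∀ v ∈ S, f v ∈ S) → ∀ v ∈ S, v ≠ 0 → Pi.single 0 1 ∈ S

variable {ε}

theorem mainM [Finite M] [Finite A] {P T : Subgroup M} [P.Normal] (hP : IsPGroup l P) (hI : ¬ l ∣ P.index) (c : TorL l P T)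
    (hE : P.map ψ = ε.range) (h : Mono ε) (hR : ∀ f, Re ε f → ∃ y, ∀ v, ψ y * ε (.ofAdd v) * (ψ y)⁻¹ = ε (.ofAdd (f v))) :
    ∃ x : Fin (m + 2) → M, (∀ t, x t ∈ T ∧ x t ≠ 1 ∧ x t ^ l = 1) ∧ ∀ f, Re ε f → ∃ g : M, ∀ s t (n : ℕ),
      f (Pi.single s 1) = n • Pi.single t 1 → g * x s * g⁻¹ = x t ^ n := by
  obtain ⟨k, hk⟩ := hP.exists_card_eq
  obtain ⟨H, hH⟩ := exists_right_complement'_of_coprime (N := P) (hk ▸ (hl.out.coprime_iff_not_dvd.2 hI).pow_left k)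
  have hE' : ∀ p ∈ P, ∃ v, ε (.ofAdd v) = ψ p := fun p hp => hE.le ⟨p, hp, rfl⟩
  have hl' : ∀ v, ε v ^ l = 1 := fun v => by
    rw [← map_pow, show v ^ l = 1 from Multiplicative.toAdd.injective (funext fun i => by simp), map_one]
  replace hR : ∀ f, Re ε f → ∃ y ∈ H, ∀ v, ψ y * ε (.ofAdd v) * (ψ y)⁻¹ = ε (.ofAdd (f v)) := fun f hf => by
    obtain ⟨y, hy⟩ := hR f hf
    obtain ⟨⟨p, q⟩, rfl⟩ := hH.2 y
    obtain ⟨w, hw⟩ := hE' _ p.2
    refine ⟨q, q.2, fun v => (MulAut.conj (ψ p)).injective ?_⟩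
    calc _ = ψ (p * q) * ε (.ofAdd v) * (ψ (p * q))⁻¹ := by simp [mul_assoc]
      _ = _ := by rw [hy, MulAut.conj_apply, ← hw, ((Commute.all _ _).map ε).eq, mul_inv_cancel_right]
  let a : Fin (m + 2) → A := fun t => ε (.ofAdd (Pi.single t 1))
  have ha : ∀ t (n : ℕ), ε (.ofAdd (n • Pi.single t 1)) = a t ^ n := fun t n => by rw [ofAdd_nsmul, map_pow]
  have a0 : a 0 ≠ 1 := fun e => by
    simpa using congrFun (congrArg Multiplicative.toAdd (h.inj (e.trans (map_one ε).symm))) 0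
  have AB : ∀ B ≤ P, B.Normal → (∀ x ∈ B, ∀ y ∈ B, Commute x y) → ¬ B ≤ ψ.ker → ∃ x : Fin (m + 2) → M,
      (∀ t, x t ∈ T ∧ x t ≠ 1 ∧ x t ^ l = 1) ∧ ∀ f, Re ε f → ∃ g : M, ∀ s t (n : ℕ),
      f (Pi.single s 1) = n • Pi.single t 1 → g * x s * g⁻¹ = x t ^ n := fun B hB hN cm hb => by
    obtain ⟨b, b1, b2⟩ := SetLike.not_le_iff_exists.1 hb
    obtain ⟨v, hv⟩ := hE' b (hB b1)
    obtain ⟨b, b1, b2⟩ := h.irr ((B.map ψ).comap ε).toAddSubgroup' (fun f hf v ⟨b, b1, b2⟩ => by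
      obtain ⟨y, -, hy⟩ := hR f hf
      exact ⟨_, hN.conj_mem b b1 y, by rw [map_mul, map_mul, map_inv, b2]; exact hy v⟩) v ⟨b, b1, hv.symm⟩ fun e =>
        b2 (hv.symm.trans (e ▸ map_one ε))
    replace b2 : ψ b = a 0 := b2
    obtain ⟨x, x1, x2, x3, x4⟩ := eig (ψ := ψ) (R := H ⊓ (normalizer (zpowers (a 0) : Set A)).comap ψ) (hP.to_le hB) cm
      (fun e => hI (hH.symm.index_eq_card ▸ e.trans (card_dvd_of_le inf_le_left))) (fun r _ x hx => hN.conj_mem x hx r)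
      (orderOf_eq_prime (hl' _) a0) (fun r hr => (mem_normalizer_iff.1 hr.2 _).1 (mem_zpowers _))
      ⟨b, b1, b2 ▸ mem_zpowers _, b2 ▸ a0⟩
    choose f f1 f2 using h.hg
    choose g g1 g2 using fun t => hR _ (f1 t)
    have g3 : ∀ t, ψ (g t) * a 0 * (ψ (g t))⁻¹ = a t := fun t => by rw [g2, f2]
    have key : ∀ f, Re ε f → ∃ y : M, ∀ s t (n : ℕ), f (Pi.single s 1) = n • Pi.single t 1 →
        y * (g s * x * (g s)⁻¹) * y⁻¹ = (g t * x * (g t)⁻¹) ^ n := fun f hf => by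
      obtain ⟨y, y1, y2⟩ := hR f hf
      refine ⟨y, fun s t n e => ?_⟩
      have e1 : ψ ((g t)⁻¹ * y * g s) * a 0 * (ψ ((g t)⁻¹ * y * g s))⁻¹ = a 0 ^ n := by
        have := y2 (Pi.single s 1)
        rw [e, ha, ← g3 t, conj_pow] at this
        rw [← mul_left_cancel_iff (a := ψ (g t)), ← mul_right_cancel_iff (a := (ψ (g t))⁻¹), ← this, show ε _ = _ from (g3 s).symm]
        simp [mul_assoc]
      rw [conj_pow, ← x4 _ ⟨H.mul_mem (H.mul_mem (H.inv_mem (g1 t)) y1) (g1 s), mem_normalizer_of_conj_mem (by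
        rintro _ ⟨i, rfl⟩
        rw [← conj_zpow, e1]
        exact zpow_mem (pow_mem (mem_zpowers _) n) i)⟩ n e1]
      group
    let y : Fin (m + 2) → M := fun t => g t * x * (g t)⁻¹
    have y1 : ∀ t, y t ∈ B := fun t => hN.conj_mem x x1 _
    have y2 : ∀ t, y t ≠ 1 := fun t => by simpa [y] using x2
    have y3 : ∀ t, y t ^ l = 1 := fun t => by simp [y, x3]
    have hT : ∀ t ≠ 0, ∀ i j : ℕ, y 0 ^ i * y t ^ j ∈ T → ∀ n ∈ B, n ∉ T → y 0 ^ i = 1 ∧ y t ^ j = 1 := fun t ht i j e n n1 n2 => by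
      obtain ⟨r, r1, r2, r3⟩ := h.hρ t ht
      obtain ⟨u, hu⟩ := key r r1
      obtain ⟨r', r4, r5, r6⟩ := h.hτ t ht
      obtain ⟨w, hw⟩ := key r' r4
      have c0 := cm _ (pow_mem (y1 0) i) _ (pow_mem (y1 t) j)
      have e0 : ∀ u : M, u * (y 0 ^ i * y t ^ j) * u⁻¹ = (u * y 0 * u⁻¹) ^ i * (u * y t * u⁻¹) ^ j := fun u => by
        rw [conj_pow (a := u), conj_pow (a := u), conj_mul]
      have e1 := c.st _ e n (hB n1) n2 (cm _ n1 _ (mul_mem (pow_mem (y1 0) i) (pow_mem (y1 t) j)))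
        (by rw [c0.mul_pow, ← pow_mul, ← pow_mul, pow_mul', pow_mul' (y t), y3, y3]; simp) u (by
          rw [e0, hu _ _ _ r2, hu _ _ _ r3, c0.mul_pow]; simp only [← pow_mul, mul_comm, y])
      have e2 := e0 w
      rw [e1, hw _ _ _ r5, hw t t 1 (by rw [r6, one_smul]), pow_one, ← pow_mul, pow_mul', sq, mul_assoc _ _ (_ ^ j)] at e2
      erw [e1] at e2
      have e3 : y 0 ^ i = 1 := by simpa only [mul_one, mul_inv_cancel] using e2.symm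
      exact ⟨e3, by simpa [e3] using e1⟩
    have h0 : y 0 ∈ T := by_contra fun e => by
      obtain ⟨i, hi⟩ := c.hi _ (hB (y1 0)) _ (hB (y1 1)) e
      exact y2 1 (by simpa using (hT 1 (by simp) i 1 (by rwa [pow_one, ← ((cm _ (y1 1) _ (y1 0)).pow_right i).eq]) _ (y1 0) e).2)
    refine ⟨y, fun t => ⟨by_contra fun e => ?_, y2 t, y3 t⟩, key⟩
    exact y2 0 (by simpa using (hT t (fun e' => e (e' ▸ h0)) 1 0 (by simpa using h0) _ (y1 t) e).1)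
  have hc : ψ.ker.relIndex P = l ^ (m + 2) := by
    rw [relIndex_ker, hE, ← Nat.card_congr (MonoidHom.ofInjective h.inj).toEquiv]; simp
  obtain ⟨B, b1, b2, b3, b4⟩ | ⟨h1, h2, n, n1, n2⟩ := core (ψ := ψ) c.cm c.hi c.hr (hc ▸ Nat.pow_le_pow_right hl.out.pos (by omega))
  · exact AB B b1 b2 b3 b4
  obtain rfl : m = 0 := by have := (Nat.pow_le_pow_iff_right hl.out.one_lt).1 (hc ▸ h1); omega
  obtain ⟨x, x1, x2⟩ : a 0 ∈ P.map ψ := hE.ge ⟨_, rfl⟩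
  obtain ⟨y, y1, y2⟩ : a 1 ∈ P.map ψ := hE.ge ⟨_, rfl⟩
  refine AB P le_rfl ‹_› ?_ fun e => a0 (x2.symm.trans (e x1))
  obtain ⟨r, r1, r2, r3⟩ := h.hτ 1 (by simp)
  obtain ⟨g, -, hg⟩ := hR r r1
  have hd : ∀ p ∈ P, ∀ q ∈ P, ψ p = ψ q → ∃ z, (∀ u ∈ P, Commute z u) ∧ p = q * z := fun p hp q hq e =>
    ⟨q⁻¹ * p, (h2 _ (mul_mem (inv_mem hq) hp) (by simp [e])).2, by simp⟩
  obtain ⟨z, hz⟩ : ∃ z, z = x * y * x⁻¹ * y⁻¹ := ⟨_, rfl⟩
  obtain ⟨z1, z2⟩ := h2 z (hz ▸ mul_mem (mul_mem (mul_mem x1 y1) (inv_mem x1)) (inv_mem y1)) (by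
    rw [hz, map_mul, map_mul, map_mul, map_inv, map_inv, x2, y2, (show Commute (a 0) (a 1) from (Commute.all _ _).map ε).eq]; group)
  have z3 := pow_mul_of_comm (y := y) (z2 x x1) (by rw [hz]; group)
  have z4 : z = 1 := c.st z z1 n n1 n2 (z2 n n1).symm (by
    have := z3 l
    rwa [((h2 _ (pow_mem x1 l) (by rw [map_pow, x2, hl'])).2 y y1).eq, mul_assoc, right_eq_mul] at this) g (by
      obtain ⟨u, u1, u2⟩ := hd _ (Normal.conj_mem ‹_› x x1 g) _ (pow_mem x1 2) (by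
        rw [map_mul, map_mul, map_inv, x2, hg, r2, ha, map_pow, x2])
      obtain ⟨w, w1, w2⟩ := hd _ (Normal.conj_mem ‹_› y y1 g) _ y1 (by rw [map_mul, map_mul, map_inv, y2, hg, r3])
      calc g * z * g⁻¹ = (g * x * g⁻¹) * (g * y * g⁻¹) * (g * x * g⁻¹)⁻¹ * (g * y * g⁻¹)⁻¹ := by rw [hz]; group
        _ = x ^ 2 * (u * (y * w) * u⁻¹) * (x ^ 2)⁻¹ * w⁻¹ * y⁻¹ := by rw [u2, w2]; group
        _ = x ^ 2 * y * (w * (x ^ 2)⁻¹ * w⁻¹) * y⁻¹ := by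
          rw [(u1 _ (w2 ▸ Normal.conj_mem ‹_› y y1 g)).eq]; group
        _ = z ^ 2 := by rw [(w1 _ (inv_mem (pow_mem x1 2))).eq, z3]; group)
  have cxy : Commute x y := commutatorElement_eq_one_iff_commute.1 (hz.symm.trans z4)
  have hd' : ∀ p ∈ P, ∃ i j : ℕ, ∃ z, (∀ u ∈ P, Commute z u) ∧ p = x ^ i * y ^ j * z := fun p hp => by
    obtain ⟨v, hv⟩ := hE' p hp
    refine ⟨(v 0).val, (v 1).val, hd p hp _ (mul_mem (pow_mem x1 _) (pow_mem y1 _)) ?_⟩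
    rw [map_mul, map_pow, map_pow, x2, y2, ← ha, ← ha, ← map_mul, ← hv, ← ofAdd_add]
    congr 2
    ext i
    fin_cases i <;> simp [Pi.natCast_def, -ZMod.natCast_val, ZMod.natCast_zmod_val]
  intro p hp q hq
  obtain ⟨i, j, u, u1, rfl⟩ := hd' p hp
  refine .mul_left ?_ (u1 q hq)
  obtain ⟨i', j', w, w1, rfl⟩ := hd' q hq
  exact .mul_right (.mul_left (.mul_right (.pow_pow rfl _ _) (cxy.pow_pow _ _)) (.mul_right (cxy.symm.pow_pow _ _) (.pow_pow rfl _ _)))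
    (w1 _ (mul_mem (pow_mem x1 _) (pow_mem y1 _))).symm

theorem toral [Finite M] (hψ : Function.Surjective ψ) (h : Mono ε) (hI : ¬ l ∣ ε.range.index) {Q : Subgroup M → Prop}
    (hT : ∀ P : Subgroup M, IsPGroup l P → ∃ T, Q T ∧ TorL l P T) :
    ∃ T, Q T ∧ ∃ x : Fin (m + 2) → M, (∀ t, x t ∈ T ∧ x t ≠ 1 ∧ x t ^ l = 1) ∧ ∀ f, Re ε f → ∃ g : M, ∀ s t (n : ℕ),
      f (Pi.single s 1) = n • Pi.single t 1 → g * x s * g⁻¹ = x t ^ n := by
  have : Finite A := Finite.of_surjective ψ hψ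
  obtain ⟨P, hS, -⟩ := exists_sylIn_ge (p := l) IsPGroup.of_bot (bot_le (a := ε.range.comap ψ))
  have hE : P.map ψ = ε.range := by
    have := hS.map ψ
    rw [map_comap_eq_self_of_surjective hψ] at this
    exact this.eq_of_isPGroup (ε.range_eq_map ▸ IsPGroup.map (.of_card (n := m + 2) (by simp)) ε)
  obtain ⟨T, h1, c⟩ := hT P hS.isP
  let N := normalizer (P : Set M)
  have hm : (P.subgroupOf N).map N.subtype = P := map_subgroupOf_eq_of_le le_normalizer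
  obtain ⟨x, x1, x2⟩ := mainM (ψ := ψ.comp N.subtype) (P := P.subgroupOf N) (T := T.subgroupOf N) (isPGroup_subgroupOf hS.isP)
    (fun e => by
      have := e.trans (relIndex_dvd_index_of_le le_normalizer)
      rw [← relIndex_mul_index hS.le, index_comap_of_surjective _ hψ] at this
      exact (hl.out.dvd_mul.1 this).elim hS.not_dvd_relIndex hI)
    ⟨fun x hx y hy => Subtype.ext (c.cm _ hx _ hy), fun x hx y hy e => c.hi _ hx _ hy e,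
      by rw [relIndex_subgroupOf le_normalizer]; exact c.hr, fun z hz n hn e1 e2 e3 g e4 => Subtype.ext
        (c.st _ hz _ hn e1 (congrArg Subtype.val e2) (congrArg Subtype.val e3) g (congrArg Subtype.val e4))⟩
    (by rw [← map_map, hm, hE]) h fun f ⟨y, hy⟩ => by
      obtain ⟨y, rfl⟩ := hψ y
      obtain ⟨u, ⟨w, hu⟩, h4⟩ := hS.frattini (g := y) (mem_normalizer_of_conj_mem (by
        rintro v ⟨j, hj⟩
        exact ⟨_, (hy j.toAdd).symm.trans (by simp [hj])⟩))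
      refine ⟨⟨_, h4⟩, fun v => ?_⟩
      calc _ = ψ u * (ψ y * ε (.ofAdd v) * (ψ y)⁻¹) * (ψ u)⁻¹ := by simp [mul_assoc]
        _ = _ := by rw [hy, ← hu, ((Commute.all _ _).map ε).eq, mul_inv_cancel_right]
  refine ⟨T, h1, fun t => x t, fun t => ⟨(x1 t).1, fun e => (x1 t).2.1 (Subtype.ext e), congrArg Subtype.val (x1 t).2.2⟩,
    fun f hf => ?_⟩
  obtain ⟨g, hg⟩ := x2 f hf
  exact ⟨g, fun s t n e => congrArg Subtype.val (hg s t n e)⟩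

end Cfsg.Agent.H23.Wg
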