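import Mathlib

/-! Distribution of the values of the `56` weights of `E₇` on elements of order `5` and `7`. -/

set_option autoImplicit false
set_option linter.unusedSectionVars false
set_option linter.unusedVariables false
set_option maxRecDepth 100000

namespace Cfsg.Agent.H23.Wg

open Finset

/-- index set for the weights -/
abbrev J8 : Type := Bool × Fin 8 × Fin 8

/-- the value of a weight -/
def ob {R : Type*} [AddCommGroup R] (b : Fin 8 → R) (p : J8) : R := bif p.1 then b p.2.1 + b p.2.2 else -(b p.2.1 + b p.2.2)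

theorem map_ob {R S : Type*} [AddCommGroup R] [AddCommGroup S] (f : R →+ S) (b : Fin 8 → R) (p : J8) :
    f (ob b p) = ob (f ∘ b) p := by
  obtain ⟨_ | _, i, j⟩ := p <;> simp [ob]

theorem ob_add {R : Type*} [AddCommGroup R] (b c : Fin 8 → R) (p : J8) : ob (b + c) p = ob b p + ob c p := by
  obtain ⟨_ | _, i, j⟩ := p <;> simp [ob] <;> abel

variable {l : ℕ} [NeZero l]

theorem ob_smul (a : ZMod l) (b : Fin 8 → ZMod l) (p : J8) : ob (a • b) p = a * ob b p :=
  (map_ob (AddMonoidHom.mulLeft a) b p).symm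

/-- the number of weights with a given value (counted twice) -/
def cb (b : Fin 8 → ZMod l) (v : ZMod l) : ℕ := #{p : J8 | p.2.1 ≠ p.2.2 ∧ ob b p = v}

theorem cb_perm (b : Fin 8 → ZMod l) (σ : Equiv.Perm (Fin 8)) : cb (b ∘ σ) = cb b := funext fun v =>
  card_equiv ((Equiv.refl _).prodCongr (σ.prodCongr σ)) fun p => by simp [ob]

theorem cb_two (h : IsUnit (2 : ZMod l)) {b : Fin 8 → ZMod l} (e : cb (2 • b) = cb b) (v : ZMod l) : cb b (2 * v) = cb b v := by
  rw [← congrFun e (2 * v), cb, cb]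
  congr 1
  refine filter_congr fun p _ => and_congr_right fun _ => ?_
  rw [← Nat.cast_smul_eq_nsmul (ZMod l), ob_smul, Nat.cast_ofNat, h.mul_right_inj]

/-- sorted lists -/
def srt (l : ℕ) : ℕ → ℕ → List (List ℕ)
  | 0, _ => [[]]
  | n + 1, a => (List.range l).flatMap fun b => if a ≤ b then (srt l n b).map (b :: ·) else []

theorem mem_srt {l : ℕ} (L : List ℕ) : ∀ a, (a :: L).Pairwise (· ≤ ·) → (∀ x ∈ L, x < l) → L ∈ srt l L.length a := by
  induction L with
  | nil => simp [srt]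
  | cons b L ih =>
    intro a h1 h2
    simp only [List.length_cons, srt, List.mem_flatMap, List.mem_range]
    exact ⟨b, h2 b (by simp), by
      rw [if_pos (List.rel_of_pairwise_cons h1 (by simp))]
      exact List.mem_map_of_mem (ih b h1.of_cons fun x hx => h2 x (by simp [hx]))⟩

theorem sorted8 {P : (Fin 8 → ZMod l) → Prop} (hP : ∀ b (σ : Equiv.Perm (Fin 8)), P (b ∘ σ) → P b)
    (h : ∀ L ∈ srt l 8 0, P fun i => (L.getD i 0 : ℕ)) (b : Fin 8 → ZMod l) : P b := by
  have hm := Tuple.monotone_sort fun i => (b i).val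
  refine hP b (Tuple.sort fun i => (b i).val) ?_
  generalize Tuple.sort (fun i => (b i).val) = σ at hm
  convert h _ (mem_srt (List.ofFn ((fun i => (b i).val) ∘ σ)) 0 (List.pairwise_cons.2 ⟨by simp, List.pairwise_ofFn.2 fun i j e =>
    hm e.le⟩) (List.forall_mem_ofFn_iff.2 fun i => ZMod.val_lt _)) with i
  simp [-List.ofFn_succ]

theorem comp_eq_zero {b : Fin 8 → ZMod l} {σ : Equiv.Perm (Fin 8)} (h : b ∘ σ = 0) : b = 0 :=
  funext fun i => by simpa using congrFun h (σ.symm i)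

theorem cb7 : ∀ b : Fin 8 → ZMod 7, ∑ i, b i = 0 → cb b 2 = cb b 1 → cb b 4 = cb b 2 →
    b = 0 ∨ cb b 0 = 4 ∨ cb b 0 = 16 ∨ cb b 0 = 40 :=
  sorted8 (fun b σ h h1 h2 h3 => by
    rw [cb_perm] at h
    exact (h ((Equiv.sum_comp σ b).trans h1) h2 h3).imp_left comp_eq_zero) (by decide +kernel)

theorem cb5 : ∀ b : Fin 8 → ZMod 5, ∑ i, b i = 0 → cb b 2 = cb b 1 → b = 0 ∨ cb b 0 = 32 :=
  sorted8 (fun b σ h h1 h2 => by
    rw [cb_perm] at h
    exact (h ((Equiv.sum_comp σ b).trans h1) h2).imp_left comp_eq_zero) (by decide +kernel)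

theorem cb7' (b : Fin 8 → ZMod 7) (h : ∀ i, b (![0, 2, 3, 4, 5, 6, 7, 1] i) = b i) (h0 : ∑ i, b i = 0) (h1 : cb (2 • b) = cb b) :
    b = 0 := by
  have e : b = ![b 0, b 1, b 1, b 1, b 1, b 1, b 1, b 1] := by
    have := h 1; have := h 2; have := h 3; have := h 4; have := h 5; have := h 6
    ext i; fin_cases i <;> simp_all
  have h2 := cb_two (by decide) h1 1
  have h3 := cb_two (by decide) h1 2
  rw [e] at h0 h2 h3 ⊢
  generalize b 0 = x, b 1 = y at h0 h2 h3
  revert x y
  decide +kernel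

theorem cb5' (b : Fin 8 → ZMod 5) (h : ∀ i, b (![0, 2, 3, 4, 5, 1, 6, 7] i) = b i) (h0 : ∑ i, b i = 0) (h1 : cb (2 • b) = cb b) :
    b = 0 := by
  have e : b = ![b 0, b 1, b 1, b 1, b 1, b 1, b 6, b 7] := by
    have := h 1; have := h 2; have := h 3; have := h 4
    ext i; fin_cases i <;> simp_all
  have h2 := cb_two (by decide) h1 1
  rw [e] at h0 h2 ⊢
  generalize b 0 = x, b 1 = y, b 6 = z, b 7 = w at h0 h2
  revert x y z w
  decide +kernel

theorem sum_cb {m : ℕ} (b : Fin m → Fin 8 → ZMod l) {n k : ℕ}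
    (h : ∀ s : Fin m → ZMod l, #{v : Fin m → ZMod l | ∑ t, v t * s t = 0} = n + if s = 0 then k else 0) :
    ∃ c, ∑ v : Fin m → ZMod l, cb (∑ t, v t • b t) 0 = 112 * n + c * k := by
  have e : ∀ (v : Fin m → ZMod l) p, ob (∑ t, v t • b t) p = ∑ t, v t * ob (b t) p := fun v p => by
    simpa only [AddMonoidHom.mk'_apply, ob_smul] using map_sum (AddMonoidHom.mk' (ob · p) fun b c => ob_add b c p) (fun t => v t • b t) univ
  refine ⟨#{p ∈ ({p : J8 | p.2.1 ≠ p.2.2} : Finset J8) | (fun t => ob (b t) p) = 0}, ?_⟩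
  simp only [cb, e, ← filter_filter]
  simp only [card_filter _ ({p : J8 | p.2.1 ≠ p.2.2} : Finset J8)]
  rw [sum_comm]
  simp only [← card_filter]
  simp only [h, sum_add_distrib, sum_const, ← sum_filter, smul_eq_mul]
  rw [show #{p : J8 | p.2.1 ≠ p.2.2} = 112 by decide +kernel]

end Cfsg.Agent.H23.Wg
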