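import Mathlib
import Cfsg.Agent.H23.Ex10
import Cfsg.Agent.H23.Ex11
import Cfsg.Agent.H17.AltSecG
import Cfsg.Agent.H12.SS2
import Cfsg.Agent.H12.WeylE7

/-! Alternating sections of groups of type `E₇`. -/

set_option autoImplicit false
set_option linter.unusedSectionVars false
set_option linter.unusedVariables false
set_option maxRecDepth 100000

namespace Cfsg.Agent.H23.Wg

open Cfsg.Lie Cfsg.Agent.H12 Cfsg.Agent.H18 Finset

/-- coordinates adapted to the subsystem `A₇` -/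
def u7 (i : Fin 8) (k : Fin chevE7.rank) : ℤ :=
  if k.1 = 1 then (if i.1 < 4 then -2 else 2) else if i.1 = max k.1 1 then 4 else if i.1 = max k.1 1 + 1 then -4 else 0

/-- the action of a reflection of `A₇` -/
def sw7 (i : Fin 8) (k : Fin chevE7.rank) : Fin 8 := if i.1 = max k.1 1 then i + 1 else if i.1 = max k.1 1 + 1 then i - 1 else i

/-- the action of the simple reflections on the weights -/
def fk7 (k : Fin chevE7.rank) (p : J8) : J8 :=
  if k.1 ≠ 1 then (p.1, sw7 p.2.1 k, sw7 p.2.2 k) else if p.2.1.1 / 4 ≠ p.2.2.1 / 4 then p else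
    if p.2.1.1 / 2 = p.2.2.1 / 2 then (!p.1, ![2, 3, 0, 1, 6, 7, 4, 5] p.2.1, ![2, 3, 0, 1, 6, 7, 4, 5] p.2.2) else
      (!p.1, ![1, 0, 3, 2, 5, 4, 7, 6] p.2.1, ![1, 0, 3, 2, 5, 4, 7, 6] p.2.2)

theorem rwt_E7 (k : Fin chevE7.rank) : (rsOf chevE7).rwt ((rsOf chevE7).simple k) = fun j => cartE7 j.1 k :=
  funext fun j => (congrArg _ ((rsOf chevE7).α_simple k)).trans (cartE7_eq j k)

theorem foldl_u7 {a : List (Fin chevE7.rank)} (ha : ∀ k ∈ a, k.1 ≠ 1) (i : Fin 8) :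
    a.foldl (rsOf chevE7).sW (u7 i) = u7 (a.foldl sw7 i) := by
  induction a generalizing i with
  | nil => rfl
  | cons k a ih =>
    rw [List.foldl_cons, List.foldl_cons, ← ih fun k hk => ha k (by simp [hk]), RS.sW, rwt_E7,
      (show ∀ i k, k.1 ≠ 1 → u7 (sw7 i k) = u7 i - u7 i k • fun j => cartE7 j.1 k by decide +kernel) i k (ha k (by simp))]

variable {K : Type*} [Field K] {l : ℕ} [hl : Fact l.Prime] {E : ZMod l →+ Additive Kˣ}

open Classical in
/-- the number of weights with a given value -/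
noncomputable def cnt7 (c : Fin chevE7.rank → Kˣ) (z : Kˣ) : ℕ := #{p : J8 | p.2.1 ≠ p.2.2 ∧ wp (ob u7 p) c = z}

theorem cnt7_W (w : (rsOf chevE7).W) (c : Fin chevE7.rank → Kˣ) : cnt7 (mT ((rsOf chevE7).cM w) c) = cnt7 c := by
  classical
  induction w using (rsOf chevE7).W_induction with
  | one => rw [map_one, mT_one]
  | step k w ih =>
    rw [map_mul, mT_mul, RS.mT_cM_s, ← ih]
    have key : ∀ p : J8, p.2.1 ≠ p.2.2 → (fk7 k p).2.1 ≠ (fk7 k p).2.2 ∧ fk7 k (fk7 k p) = p ∧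
        (rsOf chevE7).sW (ob u7 p) k = ob u7 (fk7 k p) := by
      simp only [RS.sW, rwt_E7]
      revert k
      decide +kernel
    refine funext fun z => card_nbij' (fk7 k) (fk7 k) (fun p hp => ?_) (fun p hp => ?_) (fun p hp => ?_) fun p hp => ?_
    all_goals obtain ⟨h1, h2, h3⟩ := key p (mem_filter.1 hp).2.1
    · exact mem_filter.2 ⟨mem_univ _, h1, by rw [← h3, ← RS.wp_sC]; exact (mem_filter.1 hp).2.2⟩
    · exact mem_filter.2 ⟨mem_univ _, h1, by rw [RS.wp_sC, (key _ h1).2.2, h2]; exact (mem_filter.1 hp).2.2⟩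
    exacts [h2, h2]

variable (E) in
/-- logarithms of the coordinates -/
def Lg (c : Fin chevE7.rank → Kˣ) (b : Fin 8 → ZMod l) : Prop := ∀ i, Additive.ofMul (wp (u7 i) c) = E (b i)

theorem wp_u7 {c : Fin chevE7.rank → Kˣ} (h : hP chevE7 K c = 1) (i : Fin 8) : wp (u7 i) c = 1 := by
  have : u7 i = ∑ k : Fin chevE7.rank, ((![[-4, -7, -8, -12, -9, -6, -3], [4, 1, 4, 4, 3, 2, 1], [0, 1, 4, 4, 3, 2, 1],
      [0, 1, 0, 4, 3, 2, 1], [0, 1, 0, 0, 3, 2, 1], [0, 1, 0, 0, -1, 2, 1], [0, 1, 0, 0, -1, -2, 1],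
      [0, 1, 0, 0, -1, -2, -3]] i).getD k 0 : ℤ) •
      (rsOf chevE7).rwt ((rsOf chevE7).simple k) := by
    simp only [rwt_E7]
    revert i
    decide +kernel
  rw [this, wp_sum]
  exact prod_eq_one fun k _ => by rw [wp_smul, wp_of_mem_ker (hProd_grp_eq_one.1 h), _root_.one_zpow]

theorem Lg.congr {c c' : Fin chevE7.rank → Kˣ} {b : Fin 8 → ZMod l} (h : Lg E c b) (e : hP chevE7 K c = hP chevE7 K c') :
    Lg E c' b := fun i => by
  have := wp_u7 (c := c * c'⁻¹) (by rw [map_mul, map_inv, e, mul_inv_cancel]) i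
  rw [map_mul, map_inv, mul_inv_eq_one] at this
  rw [← this, h]

theorem Lg.prod {ι : Type*} [Fintype ι] {c : ι → Fin chevE7.rank → Kˣ} {b : ι → Fin 8 → ZMod l} (h : ∀ t, Lg E (c t) (b t))
    (v : ι → ZMod l) : Lg E (∏ t, c t ^ (v t).val) (∑ t, v t • b t) := fun i => by
  rw [map_prod, ofMul_prod, Finset.sum_apply, map_sum]
  exact sum_congr rfl fun t _ => by rw [map_pow, ofMul_pow, h, ← map_nsmul]; simp

theorem Lg.pow {c : Fin chevE7.rank → Kˣ} {b : Fin 8 → ZMod l} (h : Lg E c b) (n : ℕ) : Lg E (c ^ n) (n • b) := fun i => by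
  rw [map_pow, ofMul_pow, h, ← map_nsmul]; rfl

theorem Lg.eq_one {c : Fin chevE7.rank → Kˣ} (h : Lg E c 0) (h1 : hP chevE7 K c ^ l = 1) (h2 : l ≠ 2) : hP chevE7 K c = 1 := by
  have h3 : c ^ 4 = 1 := funext fun k => by
    have : (4 : ℤ) • Pi.single k 1 = ∑ i : Fin 8, ((![[], [2, 2, 3, 4, 3, 2, 1], [1, 2, 3, 4, 3, 2, 1], [1, 2, 2, 4, 3, 2, 1],
        [1, 2, 2, 3, 3, 2, 1], [1, 2, 2, 3, 2, 2, 1], [1, 2, 2, 3, 2, 1, 1], [1, 2, 2, 3, 2, 1]] i).getD k 0 : ℤ) • u7 i := by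
      revert k
      decide +kernel
    have := congrArg (wp · c) this
    simp only [wp_smul, wp_single, wp_sum, fun i => show wp (u7 i) c = 1 from (h i).trans (map_zero E)] at this
    simpa using this
  have := pow_gcd_eq_one.2 ⟨h1, (by rw [← map_pow, h3, map_one] : hP chevE7 K c ^ 4 = 1)⟩
  rwa [(((Nat.coprime_primes hl.out Nat.prime_two).2 h2).pow_right 2).gcd_eq_one, pow_one] at this

variable (hE : Function.Injective E)
include hE

theorem Lg.sum {c : Fin chevE7.rank → Kˣ} {b : Fin 8 → ZMod l} (h : Lg E c b) : ∑ i, b i = 0 := hE (by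
  rw [map_sum, ← sum_congr rfl fun i _ => h i, ← ofMul_prod, ← wp_sum, show ∑ i, u7 i = 0 by decide +kernel, wp_zero, map_zero]
  rfl)

theorem Lg.cnt {c : Fin chevE7.rank → Kˣ} {b : Fin 8 → ZMod l} (h : Lg E c b) (v : ZMod l) : cnt7 c (E v).toMul = cb b v := by
  classical
  rw [cnt7, cb]
  congr 1
  refine filter_congr fun p _ => and_congr_right fun _ => ?_
  rw [← hE.eq_iff, map_ob, ← show _ = E ∘ b from funext h]
  exact Eq.congr_left (map_ob (AddMonoidHom.mk' (fun y => Additive.ofMul (wp y c)) fun a b => congrArg _ (wp_add a b c)) u7 p)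

theorem Lg.cb_eq {c : Fin chevE7.rank → Kˣ} {b b' : Fin 8 → ZMod l} (h : Lg E c b) {w : (rsOf chevE7).W}
    (h' : Lg E (mT ((rsOf chevE7).cM w) c) b') : cb b' = cb b := funext fun v => by
  rw [← h.cnt hE, ← h'.cnt hE, cnt7_W]

omit hE in
theorem exists_w (g : chevE7.group K) : ∃ w, ∀ c c', g * hP chevE7 K c * g⁻¹ = hP chevE7 K c' →
    hP chevE7 K c' = hP chevE7 K (mT ((rsOf chevE7).cM w) c) := by
  obtain ⟨n, h1, h2⟩ := H17.conjN (X := grpRGD chevE7 K) (g := g) (grpRGD_top (D := chevE7) (F := K) ▸ trivial)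
  obtain ⟨w, hw⟩ := RGD.mem_N_iff.1 h1
  have hT := fun c => (StSys.hProd_range (grpNC (D := chevE7) (F := K)) grpSt_r3).le ⟨c, rfl⟩
  exact ⟨w, fun c c' e => by rw [← StSys.Rep.conj_hProd grpSt_r3 hw, h2 _ (hT c) (e ▸ hT c'), e]⟩

omit hE in
theorem tor_aux {M W : Type*} [Group M] [Group W] [Finite W] {P T : Subgroup M} {π : P →* W} (hP : IsPGroup l P)
    (hk : π.ker = T.subgroupOf P) (hW : ¬ l ^ 2 ∣ Nat.card W) : (∀ x ∈ P, ∀ y ∈ P, x ∉ T → ∃ i : ℕ, y * x ^ i ∈ T) ∧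
    T.relIndex P ≤ l ∧ ∀ x : P, x.1 ∉ T → orderOf (π x) = l := by
  have hr : Nat.card π.range ∣ l := by
    obtain ⟨k, e⟩ := (hP.of_surjective _ π.rangeRestrict_surjective).exists_card_eq
    rw [e]
    refine (pow_dvd_pow l (Nat.le_of_lt_succ (lt_of_not_ge fun h => hW ?_))).trans (pow_one l).dvd
    exact (pow_dvd_pow l h).trans (e ▸ Subgroup.card_subgroup_dvd_card _)
  have h0 : ∀ x : P, x.1 ∉ T → Nat.card π.range = l ∧ π.rangeRestrict x ≠ 1 := fun x hx => by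
    have : π.rangeRestrict x ≠ 1 := fun e => hx (hk.le (congrArg Subtype.val e))
    exact ⟨((Nat.dvd_prime hl.out).1 hr).resolve_left fun e => this ((Nat.card_eq_one_iff_unique.1 e).1.elim _ _), this⟩
  refine ⟨fun x hx y hy e => ?_, ?_, fun x e => orderOf_eq_prime (congrArg Subtype.val ((h0 x e).1 ▸
    pow_card_eq_one' (x := π.rangeRestrict x))) fun e' => (h0 x e).2 (Subtype.ext e')⟩
  · obtain ⟨i, hi⟩ := mem_powers_of_prime_card (h0 ⟨x, hx⟩ e).1 (g' := (π.rangeRestrict ⟨y, hy⟩)⁻¹) (h0 ⟨x, hx⟩ e).2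
    exact ⟨i, hk.le (x := ⟨y, hy⟩ * ⟨x, hx⟩ ^ i) (congrArg Subtype.val (show π.rangeRestrict _ = 1 by
      rw [map_mul, map_pow, show _ ^ i = _ from hi, mul_inv_cancel]))⟩
  · rw [Subgroup.relIndex, ← hk, Subgroup.index_ker]
    exact Nat.le_of_dvd hl.out.pos hr

variable (hs : ∀ y : Kˣ, y ^ l = 1 → ∃ v, Additive.ofMul y = E v)
include hs

omit hE in
theorem exists_Lg {z : chevE7.group K} (hz : z ∈ (grpRGD chevE7 K).T) (h : z ^ l = 1) : ∃ c b, hP chevE7 K c = z ∧ Lg E c b := by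
  obtain ⟨c, rfl⟩ := (StSys.hProd_range grpNC grpSt_r3).ge hz
  choose b hb using fun i => hs (wp (u7 i) c) (by rw [← map_pow, wp_u7 (by rw [map_pow, h])])
  exact ⟨c, b, rfl, hb⟩

theorem tor_E7 [Finite K] (hK : Nat.card K ≡ 1 [MOD l ^ 2]) (h2 : l ≠ 2) (hW : ¬ l ^ 2 ∣ 2903040) {a : List (Fin chevE7.rank)}
    (ha : orderOf (wprod (rsOf chevE7).s a) = l) (ha' : ∀ k ∈ a, k.1 ≠ 1)
    (hb : ∀ b : Fin 8 → ZMod l, (∀ i, b (a.foldl sw7 i) = b i) → ∑ i, b i = 0 → cb (2 • b) = cb b → b = 0)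
    {L : Subgroup (chevE7.group K)} (P : Subgroup L) (hP' : IsPGroup l P) :
    ∃ T, (∃ d, T = (grpRGD chevE7 K).T.comap ((MulAut.conj d).toMonoidHom.comp L.subtype)) ∧ TorL l P T := by
  let X := grpRGD chevE7 K
  rw [← card_W_E7] at hW
  have h1 : l ∣ Nat.card (rsOf chevE7).W := ha ▸ orderOf_dvd_natCard _
  obtain ⟨S, s1, s2⟩ := H17.sylIn_grp (X := X) (K := X.N) (l := l) RGD.N_le_grp fun e => hW (by
    have e1 := H17.relIndex_T_modEq (X := X) (m := l ^ 2) fun r => by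
      rw [show X.U r = _ from congrFun (StSys.rgd_U ..) r, StSys.card_U grpNC grpNM]; exact hK
    rw [← Subgroup.relIndex_mul_relIndex _ _ _ RGD.T_le_N RGD.N_le_grp, Subgroup.relIndex, ← RGD.piN_ker, Subgroup.index_ker,
      MonoidHom.range_eq_top.2 RGD.piN_surjective, Subgroup.card_top] at e1
    exact (e1.dvd_iff dvd_rfl).1 (sq l ▸ mul_dvd_mul h1 e))
  rw [grpRGD_top] at s2
  obtain ⟨d, -, d2⟩ := s2.exists_conj_mem (P := P.map L.subtype) le_top (hP'.map _)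
  let j := (MulAut.conj d).toMonoidHom.comp L.subtype
  have hj : Function.Injective j := (MulAut.conj d).injective.comp Subtype.val_injective
  obtain ⟨π, hπ⟩ : ∃ π : P →* (rsOf chevE7).W, ∀ x : P, X.Rep (j x) (π x) :=
    ⟨X.piN.comp ((j.comp P.subtype).codRestrict X.N fun x => s1 (d2 _ ⟨x, x.2, rfl⟩)), fun x =>
      RGD.rep_piN (X := X) ⟨_, s1 (d2 _ ⟨x, x.2, rfl⟩)⟩⟩
  have hk : π.ker = (X.T.comap j).subgroupOf P := Subgroup.ext fun x =>
    ⟨fun h => RGD.Rep.mem_T ((show π x = 1 from h) ▸ hπ x), fun h => (hπ x).unique (RGD.rep_of_mem_T h)⟩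
  obtain ⟨t1, t2, t3⟩ := tor_aux hP' hk hW
  refine ⟨_, ⟨d, rfl⟩, fun x hx y hy => hj ?_, t1, t2, fun z hz n hn e1 e2 e3 g e4 => ?_⟩
  · obtain ⟨u, hu⟩ := (StSys.hProd_range grpNC grpSt_r3).ge hx
    obtain ⟨v, hv⟩ := (StSys.hProd_range grpNC grpSt_r3).ge hy
    rw [map_mul, map_mul, ← hu, ← hv, ← map_mul, mul_comm, map_mul]
  have e7 := t3 ⟨n, hn⟩ e1
  obtain ⟨v, -, hv⟩ := (sylIn_of_not_dvd_relIndex (p := l) (R := Subgroup.zpowers (π ⟨n, hn⟩)) le_top (.of_card (n := 1)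
    (by rw [Nat.card_zpowers, e7, pow_one])) fun e => hW (by
      rw [← (Subgroup.zpowers (π ⟨n, hn⟩)).card_mul_index, Nat.card_zpowers, e7, sq]
      exact mul_dvd_mul_left _ (by rwa [Subgroup.relIndex_top_right] at e))).exists_conj_mem
    (P := Subgroup.zpowers (wprod (rsOf chevE7).s a)) le_top (.of_card (n := 1) (by rw [Nat.card_zpowers, ha, pow_one]))
  obtain ⟨i, hi⟩ := (isOfFinOrder_of_finite _).mem_powers_iff_mem_zpowers.2 (hv _ (Subgroup.mem_zpowers _))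
  obtain ⟨u, hu⟩ := RGD.exists_rep (X := X) v
  have r1 := (hu.inv.mul (H17.rep_pow (hπ ⟨n, hn⟩) i)).mul hu
  rw [show _ ^ i = _ from hi, show ∀ w, v⁻¹ * (v * w * v⁻¹) * v = w from fun w => by group] at r1
  have z3 : (u⁻¹ * j z * u) ^ l = 1 := by simpa [← map_pow, e3] using conj_pow (a := u⁻¹) (b := j z) (i := l)
  obtain ⟨c, b, c1, c2⟩ := exists_Lg hs (z := u⁻¹ * j z * u) (hu.conj_T' hz) z3
  obtain ⟨w, hw⟩ := exists_w (u⁻¹ * j g * u)
  have c3 := c2.congr (c' := mT ((rsOf chevE7).cM (wprod (rsOf chevE7).s a)) c) (by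
    rw [← StSys.Rep.conj_hProd grpSt_r3 r1, show StSys.hProd _ _ c = _ from c1]
    calc _ = u⁻¹ * (j n ^ i * j z * (j n ^ i)⁻¹) * u := by rw [((e2.map j).pow_left i).eq, mul_inv_cancel_right]
      _ = _ := by group)
  obtain rfl := hb b (fun i => hE (by
    rw [← c2, ← c3, RS.mT_cM_wprod, RS.wp_foldr_sC, foldl_u7 ha'])) (c2.sum hE) (c2.cb_eq hE ((c2.pow 2).congr (hw _ _ (by
          rw [map_pow, c1]
          calc _ = u⁻¹ * j (g * z * g⁻¹) * u := by rw [map_mul, map_mul, map_inv]; group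
            _ = _ := by rw [e4, map_pow, sq, sq]; group))))
  exact hj ((MulAut.conj u⁻¹).injective (by
    simpa only [map_one, MulAut.conj_apply, inv_inv] using c1.symm.trans (c2.eq_one (c1 ▸ z3) h2)))

omit hE hs

theorem exists_E [Finite K] (hK : Nat.card K ≡ 1 [MOD l ^ 2]) : ∃ E : ZMod l →+ Additive Kˣ, Function.Injective E ∧
    ∀ y : Kˣ, y ^ l = 1 → ∃ v, Additive.ofMul y = E v := by
  obtain ⟨z, hz⟩ := exists_prime_orderOf_dvd_card' (G := Kˣ) l (by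
    rw [Nat.card_units]
    exact (dvd_pow_self l two_ne_zero).trans ((Nat.modEq_iff_dvd' Nat.card_pos).1 hK.symm))
  have h : IsPrimitiveRoot z l := hz ▸ IsPrimitiveRoot.orderOf z
  refine ⟨(AddChar.zmodChar l h.pow_eq_one).toAddMonoidHom, fun a b e =>
    ZMod.val_injective _ (h.pow_inj a.val_lt b.val_lt e), fun y hy => ?_⟩
  obtain ⟨i, -, rfl⟩ := h.eq_pow_of_mem_rootsOfUnity (ξ := y) hy
  exact ⟨i, congrArg Additive.ofMul (AddChar.zmodChar_apply' h.pow_eq_one i).symm⟩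

/-- monomial maps -/
def mon {m : ℕ} (x : Equiv.Perm (Fin m) × (Fin m → (ZMod l)ˣ)) (v : Fin m → ZMod l) (t : Fin m) : ZMod l := x.2 t * v (x.1 t)

theorem e7_core [Finite K] (hK : Nat.card K ≡ 1 [MOD l ^ 2]) (h2 : l ≠ 2) (hW : ¬ l ^ 2 ∣ 2903040) {a : List (Fin chevE7.rank)}
    (ha : orderOf (wprod (rsOf chevE7).s a) = l) (ha' : ∀ k ∈ a, k.1 ≠ 1)
    (hb : ∀ b : Fin 8 → ZMod l, (∀ i, b (a.foldl sw7 i) = b i) → ∑ i, b i = 0 → cb (2 • b) = cb b → b = 0)
    {L : Subgroup (chevE7.group K)} {A : Type*} [Group A] {ψ : L →* A} (hψ : Function.Surjective ψ) {m : ℕ}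
    {ε : Multiplicative (Fin (m + 2) → ZMod l) →* A} (h : Mono ε) (hI : ¬ l ∣ ε.range.index) :
    ∃ b : Fin (m + 2) → Fin 8 → ZMod l, (∀ t, ∑ i, b t i = 0) ∧ b 0 ≠ 0 ∧
      ∀ x, Re ε (mon x) → ∀ v, cb (∑ t, mon x v t • b t) = cb (∑ t, v t • b t) := by
  obtain ⟨E, hE, hs⟩ := exists_E hK
  obtain ⟨_, ⟨d, rfl⟩, x, x1, x2⟩ := toral hψ h hI (tor_E7 hE hs hK h2 hW ha ha' hb)
  let j := (MulAut.conj d).toMonoidHom.comp L.subtype
  have x3 : ∀ t, j (x t) ^ l = 1 := fun t => by rw [← map_pow, (x1 t).2.2, map_one]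
  choose c b c1 c2 using fun t => exists_Lg hs (z := j (x t)) (x1 t).1 (x3 t)
  refine ⟨b, fun t => (c2 t).sum hE, fun e => (x1 0).2.1 ((MulAut.conj d).injective.comp Subtype.val_injective
    (((c1 0).symm.trans ((e ▸ c2 0).eq_one (c1 0 ▸ x3 0) h2)).trans (map_one j).symm)), fun y hy v => ?_⟩
  obtain ⟨g, hg⟩ := x2 _ hy
  obtain ⟨w, hw⟩ := exists_w (j g)
  refine (Lg.prod c2 v).cb_eq hE (w := w) ?_
  have := Lg.prod (fun t => ((c2 t).pow (y.2 t).1.val).congr (hw (c (y.1 t)) _ (by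
    rw [map_pow, c1, c1, ← map_pow, ← hg (y.1 t) t _ (funext fun s => by
      by_cases e : s = t <;> simp [mon, e]), map_mul, map_mul, map_inv]))) (v ∘ y.1)
  rw [← Equiv.prod_comp y.1, map_prod]
  convert this using 2 with t _ t
  · rw [map_pow]; rfl
  · ext i; simp [mon, Pi.natCast_def, -ZMod.natCast_val, ZMod.natCast_zmod_val]; ring

variable {m : ℕ}

theorem sign_eps (h2 : l ≠ 2) (v : Fin m → ZMod l) : Equiv.Perm.sign (Equiv.prodCongrRight fun t => Equiv.addLeft (v t)) = 1 := by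
  rw [Equiv.Perm.sign_prodCongrRight]
  refine prod_eq_one fun t _ => (Int.units_eq_one_or _).resolve_right fun e => ?_
  have := congrArg Equiv.Perm.sign (show Equiv.addLeft (v t) ^ l = 1 by simp)
  rw [map_pow, e, (hl.out.odd_of_ne_two h2).neg_one_pow] at this
  simp at this

/-- translations of the blocks -/
def eps (h2 : l ≠ 2) : Multiplicative (Fin m → ZMod l) →* alternatingGroup (Fin m × ZMod l) :=
  MonoidHom.mk' (fun v => ⟨Equiv.prodCongrRight fun t => Equiv.addLeft (v.toAdd t), sign_eps h2 _⟩) fun a b =>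
    Subtype.ext (Equiv.ext fun x => by simp [Equiv.prodCongrRight])

theorem eps_inj (h2 : l ≠ 2) : Function.Injective (eps (m := m) h2) := fun a b e => Multiplicative.toAdd.injective <| funext fun t => by
  simpa [eps, Equiv.prodCongrRight] using congrArg (fun y : alternatingGroup _ => (y.1 (t, 0)).2) e

/-- the permutation inducing a monomial map -/
def monP (x : Equiv.Perm (Fin m) × (Fin m → (ZMod l)ˣ)) : Equiv.Perm (Fin m × ZMod l) :=
  (Equiv.prodCongrRight fun t => (x.2 t).mulLeft) * x.1.symm.prodCongr (Equiv.refl _)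

theorem re_mon (h2 : l ≠ 2) {x : Equiv.Perm (Fin (m + 2)) × (Fin (m + 2) → (ZMod l)ˣ)} (h : Equiv.Perm.sign (monP x) = 1) :
    Re (eps h2) (mon x) := ⟨⟨_, h⟩, fun v => mul_inv_eq_iff_eq_mul.2 (Subtype.ext (Equiv.ext fun y => Prod.ext rfl (by
      change x.2 (x.1.symm y.1) * (v y.1 + y.2) = x.2 (x.1.symm y.1) * v (x.1 (x.1.symm y.1)) + x.2 (x.1.symm y.1) * y.2
      rw [Equiv.apply_symm_apply, mul_add])))⟩

/-- words in monomial maps -/
def act {k : ℕ} (g : Fin k → Equiv.Perm (Fin m) × (Fin m → (ZMod l)ˣ)) (w : List (Fin k)) (v : Fin m → ZMod l) : Fin m → ZMod l :=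
  w.foldr (fun i => mon (g i)) v

theorem e7_fin [Finite K] (hK : Nat.card K ≡ 1 [MOD l ^ 2]) (h2 : l ≠ 2) (hW : ¬ l ^ 2 ∣ 2903040) {a : List (Fin chevE7.rank)}
    (ha : orderOf (wprod (rsOf chevE7).s a) = l) (ha' : ∀ k ∈ a, k.1 ≠ 1)
    (hb : ∀ b : Fin 8 → ZMod l, (∀ i, b (a.foldl sw7 i) = b i) → ∑ i, b i = 0 → cb (2 • b) = cb b → b = 0)
    (hz : ∀ b : Fin 8 → ZMod l, ∑ i, b i = 0 → cb (2 • b) = cb b → cb b 0 = 112 → b = 0)
    {L : Subgroup (chevE7.group K)} {ψ : L →* alternatingGroup (Fin ((m + 2) * l))} (hψ : Function.Surjective ψ)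
    (hI : ¬ l ^ (m + 3) ∣ ((m + 2) * l).factorial / 2) {k : ℕ}
    {g : Fin k → Equiv.Perm (Fin (m + 2)) × (Fin (m + 2) → (ZMod l)ˣ)} (hg : ∀ i, Equiv.Perm.sign (monP (g i)) = 1)
    {W W' : List (List (Fin k))} (h1 : ∀ t, ∃ w ∈ W, act g w (Pi.single 0 1) = Pi.single t 1)
    (h3 : ∀ t ≠ 0, ∃ w ∈ W, act g w (Pi.single 0 1) = 2 • Pi.single 0 1 ∧ act g w (Pi.single t 1) = Pi.single t 1)
    (h4 : ∀ t ≠ 0, ∃ w ∈ W, act g w (Pi.single 0 1) = 2 • Pi.single 0 1 ∧ act g w (Pi.single t 1) = 2 • Pi.single t 1)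
    (h5 : ∀ v ≠ 0, ∃ w ∈ W, ∃ w' ∈ W', act g w' (act g w v) - act g w v = Pi.single 0 1) (h6 : ∀ v, ∃ w ∈ W, act g w v = 2 • v) :
    ∃ b : Fin (m + 2) → Fin 8 → ZMod l, (∀ v : Fin (m + 2) → ZMod l, v ≠ 0 → let c := ∑ t, v t • b t
      ∑ i, c i = 0 ∧ cb (2 • c) = cb c ∧ c ≠ 0) ∧ ∀ w v, cb (∑ t, act g w v t • b t) = cb (∑ t, v t • b t) := by
  have hr : ∀ w, Re (eps h2) (act g w) := fun w => by
    induction w with
    | nil => exact ⟨1, by simp [act]⟩
    | cons i w ih =>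
      obtain ⟨y, hy⟩ := re_mon h2 (hg i)
      obtain ⟨z, hz⟩ := ih
      exact ⟨y * z, fun v => by rw [show act g (i :: w) v = mon (g i) (act g w v) from rfl, ← hy, ← hz]; group⟩
  have hc : Fintype.card (Fin (m + 2) × ZMod l) = (m + 2) * l := by simp
  let e := (Fintype.equivFinOfCardEq hc).symm.altCongrHom
  obtain ⟨b, b1, b2, b3⟩ := e7_core hK h2 hW ha ha' hb (ψ := e.toMonoidHom.comp ψ) (e.surjective.comp hψ) (ε := eps h2)
    ⟨eps_inj h2, fun t => (h1 t).elim fun w h => ⟨_, hr w, h.2⟩, fun t ht => (h3 t ht).elim fun w h => ⟨_, hr w, h.2⟩,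
      fun t ht => (h4 t ht).elim fun w h => ⟨_, hr w, h.2⟩, fun S hS v hv h0 => by
        obtain ⟨w, -, w', -, e⟩ := h5 v h0
        exact e ▸ sub_mem (hS _ (hr w') _ (hS _ (hr w) _ hv)) (hS _ (hr w) _ hv)⟩ fun e => hI (by
      rw [← hc, ← Nat.card_eq_fintype_card, ← nat_card_alternatingGroup, ← (eps h2).range.card_mul_index,
        ← Nat.card_congr (MonoidHom.ofInjective (eps_inj h2)).toEquiv, pow_succ]
      exact mul_dvd_mul (by simp) e)
  have b4 : ∀ w v, cb (∑ t, act g w v t • b t) = cb (∑ t, v t • b t) := fun w v => by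
    induction w with
    | nil => rfl
    | cons i w ih => exact (b3 _ (re_mon h2 (hg i)) _).trans ih
  have b5 : ∀ v : Fin (m + 2) → ZMod l, ∑ i, (∑ t, v t • b t) i = 0 ∧ cb (2 • ∑ t, v t • b t) = cb (∑ t, v t • b t) := fun v => by
    obtain ⟨w, -, e⟩ := h6 v
    refine ⟨?_, .trans ?_ (b4 w v)⟩
    · simp only [Finset.sum_apply, Pi.smul_apply, smul_eq_mul]
      rw [sum_comm]
      simp only [← mul_sum, b1, mul_zero, sum_const_zero]
    · simp only [e, smul_sum, Pi.smul_apply, smul_assoc]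
  refine ⟨b, fun v hv => ⟨(b5 v).1, (b5 v).2, fun e => b2 ?_⟩, b4⟩
  have b6 : ∀ u : Fin (m + 2) → ZMod l, cb (∑ t, u t • b t) = cb (∑ t, v t • b t) → ∑ t, u t • b t = 0 := fun u h => hz _ (b5 u).1 (b5 u).2 (by
    rw [h, e, cb]
    simp only [show ∀ p, ob (0 : Fin 8 → ZMod l) p = 0 from fun p => by simpa using ob_smul (l := l) 0 0 p, and_true]
    decide +kernel)
  obtain ⟨w, -, w', -, e'⟩ := h5 v hv
  have := congrArg (fun u => ∑ t, u t • b t) e'
  simp only [Pi.sub_apply, sub_smul, sum_sub_distrib, b6 _ (b4 w v), b6 _ ((b4 w' _).trans (b4 w v))] at this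
  simpa [Pi.single_apply] using this.symm

instance fact7 : Fact (Nat.Prime 7) := ⟨by norm_num⟩

instance fact5 : Fact (Nat.Prime 5) := ⟨by norm_num⟩

/-- generators of the automizer of a Sylow `7`-subgroup of `A₁₄` -/
def g7 : Fin 2 → Equiv.Perm (Fin 2) × (Fin 2 → (ZMod 7)ˣ) := ![(1, ![⟨2, 4, rfl, rfl⟩, 1]), (Equiv.swap 0 1, ![-1, 1])]

/-- its elements -/
def W7 : List (List (Fin 2)) := (List.range 36).map fun n =>
  List.replicate (n % 3) 0 ++ 1 :: List.replicate (n / 3 % 3) 0 ++ List.replicate (n / 9) 1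

/-- generators of the automizer of a Sylow `5`-subgroup of `A₁₅` -/
def g5 (u : (ZMod 5)ˣ) : Fin 4 → Equiv.Perm (Fin 3) × (Fin 3 → (ZMod 5)ˣ) :=
  ![(Equiv.swap 0 1, ![u, 1, 1]), (Equiv.swap 0 1 * Equiv.swap 1 2, 1), (1, ![u, 1, u]), (1, ![1, u, u])]

theorem no14 [Finite K] (hK : Nat.card K ≡ 1 [MOD 7 ^ 2]) {L : Subgroup (chevE7.group K)}
    {ψ : L →* alternatingGroup (Fin 14)} (hψ : Function.Surjective ψ) : False := by
  have k7 := fun (b : Fin 8 → ZMod 7) h1 h2 => cb7 b h1 (cb_two (by decide) h2 1) (cb_two (by decide) h2 2)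
  obtain ⟨b, b1, b2⟩ := e7_fin (m := 0) hK (by norm_num) (by norm_num) (a := ([6, 5, 4, 3, 2, 0] : List (Fin 7)))
    (RS.orderOf_wprod cartE7_eq (n := 6) (by decide +kernel)) (show ∀ k ∈ ([6, 5, 4, 3, 2, 0] : List (Fin 7)), k.1 ≠ 1 by decide)
    (fun b h => cb7' b fun i => by
      rw [← h i]; congr 1; revert i; decide +kernel) (fun b h1 h2 h3 => (k7 b h1 h2).resolve_right (by omega)) hψ (by decide +kernel)
    (g := g7) (by decide +kernel) (W := W7) (W' := [[0]]) (by decide +kernel) (by decide +kernel) (by decide +kernel)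
    (by decide +kernel) (by decide +kernel)
  obtain ⟨c, hc⟩ := sum_cb b (n := 7) (k := 42) (by decide +kernel)
  have h1 := fun v hv => (k7 _ (b1 v hv).1 (b1 v hv).2.1).resolve_left (b1 v hv).2.2
  obtain ⟨x, hx⟩ : ∃ x, x = cb (∑ t, ![(1 : ZMod 7), 0] t • b t) 0 := ⟨_, rfl⟩
  obtain ⟨y, hy⟩ : ∃ y, y = cb (∑ t, ![(1 : ZMod 7), 1] t • b t) 0 := ⟨_, rfl⟩
  have h2 : x = 4 ∨ x = 16 ∨ x = 40 := hx ▸ h1 ![1, 0] (by decide)
  have h3 : y = 4 ∨ y = 16 ∨ y = 40 := hy ▸ h1 ![1, 1] (by decide)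
  rw [sum_congr rfl (g := fun v => if v = 0 then 112 else if v 0 * v 1 = 0 then x else y) fun v _ => ?_] at hc
  · simp only [sum_ite, sum_const, smul_eq_mul] at hc
    rw [show #_ = 1 by decide +kernel, show #_ = 12 by decide +kernel, show #_ = 36 by decide +kernel] at hc
    omega
  obtain ⟨w, -, e⟩ := (show ∀ v, ∃ w ∈ W7, act g7 w v = if v = 0 then 0 else if v 0 * v 1 = 0 then ![1, 0] else ![1, 1] by
    decide +kernel) v
  rw [← b2 w v, e]
  split_ifs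
  exacts [by simp only [Pi.zero_apply, zero_smul, sum_const_zero]; decide +kernel, hx.symm, hy.symm]

theorem no15 [Finite K] (hK : Nat.card K ≡ 1 [MOD 5 ^ 2]) {L : Subgroup (chevE7.group K)}
    {ψ : L →* alternatingGroup (Fin 15)} (hψ : Function.Surjective ψ) : False := by
  have k5 := fun (b : Fin 8 → ZMod 5) h1 h2 => cb5 b h1 (cb_two (by decide) h2 1)
  obtain ⟨b, b1, -⟩ := e7_fin (m := 1) hK (by norm_num) (by norm_num) (a := ([4, 3, 2, 0] : List (Fin 7)))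
    (RS.orderOf_wprod cartE7_eq (n := 4) (by decide +kernel)) (show ∀ k ∈ ([4, 3, 2, 0] : List (Fin 7)), k.1 ≠ 1 by decide)
    (fun b h => cb5' b fun i => by
      rw [← h i]; congr 1; revert i; decide +kernel) (fun b h1 h2 h3 => (k5 b h1 h2).resolve_right (by omega)) hψ (by decide +kernel)
    (g := g5 ⟨2, 3, rfl, rfl⟩)
    (by decide +kernel) (W := (List.range 192).map fun n => List.replicate (n / 48) 2 ++ List.replicate (n / 24 % 2) 3 ++
      List.replicate (n / 3 % 8) 0 ++ List.replicate (n % 3) 1) (W' := [[0], [2]]) (by decide +kernel) (by decide +kernel)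
    (by decide +kernel) (by decide +kernel) (by decide +kernel)
  obtain ⟨c, hc⟩ := sum_cb b (n := 25) (k := 100) (by decide +kernel)
  rw [← add_sum_erase _ _ (mem_univ 0), sum_congr rfl fun v hv => (k5 _ (b1 v (ne_of_mem_erase hv)).1
    (b1 v (ne_of_mem_erase hv)).2.1).resolve_left (b1 v (ne_of_mem_erase hv)).2.2] at hc
  simp only [Pi.zero_apply, zero_smul, sum_const_zero, sum_const, smul_eq_mul] at hc
  rw [show cb _ _ = 112 by decide +kernel, show #_ = 124 by decide +kernel] at hc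
  omega

theorem e7_bound {F : Type*} [Field F] [Finite F] (p : ℕ) [hp : Fact p.Prime] [CharP F p] {H : Type*} [Group H]
    {j : H →* chevE7.group F} (hj : Function.Injective j) {N : Subgroup H} [N.Normal] {r : ℕ}
    (e : H ⧸ N ≃* alternatingGroup (Fin r)) : r ≤ 13 + if p = 7 then 1 else 0 := by
  have := Fintype.ofFinite F
  obtain ⟨k, -, hk⟩ := FiniteField.card F p
  let K := FiniteField.Extension F p 420
  have hK : ∀ l : ℕ, l.Prime → p ≠ l → (l ^ 2).totient ∣ 420 → Nat.card K ≡ 1 [MOD l ^ 2] := fun l hl h ⟨n, hn⟩ => by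
    have := (Nat.ModEq.pow_totient (((Nat.coprime_primes hp.out hl).2 h).pow k 2)).pow n
    rwa [FiniteField.natCard_extension, Nat.card_eq_fintype_card, hk, hn, pow_mul, ← one_pow n]
  have key : ∀ m ≤ r, ∃ (L : Subgroup (chevE7.group K)) (ψ : L →* alternatingGroup (Fin m)), Function.Surjective ψ := fun m hm => by
    obtain ⟨M, φ, hφ⟩ := H17.exists_alt_sec hm e
    have hi : Function.Injective ((fieldHom chevE7 (algebraMap F K)).comp (j.comp M.subtype)) :=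
      (fieldHom_injective _).comp (hj.comp Subtype.val_injective)
    exact ⟨_, φ.comp (MonoidHom.ofInjective hi).symm.toMonoidHom, hφ.comp (MonoidHom.ofInjective hi).symm.surjective⟩
  by_contra h
  split_ifs at h with h5
  · obtain ⟨L, ψ, hψ⟩ := key 15 (by omega)
    exact no15 (hK 5 (by norm_num) (by omega) (by decide)) hψ
  · obtain ⟨L, ψ, hψ⟩ := key 14 (by omega)
    exact no14 (hK 7 (by norm_num) h5 (by decide)) hψ

end Cfsg.Agent.H23.Wg
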