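import Mathlib
import Cfsg.Agent.H23.Ex1

/-! Weights of the elementary abelian three-subgroup generated by disjoint three-cycles. -/

set_option autoImplicit false
set_option linter.unusedSectionVars false
set_option linter.unusedVariables false

namespace Cfsg.Agent.H23.Wg

open Equiv Equiv.Perm Module

/-- number of non-zero entries -/
def nz {s : ℕ} (w : Fin s → Fin 3) : ℕ := (Finset.univ.filter fun i => w i ≠ 0).card

/-- block permutations carrying one weight to another -/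
def Adm {s : ℕ} (σ : Perm (Fin s × Fin 3)) (w w' : Fin s → Fin 3) : Prop :=
  ∀ j, ∃ i, σ (i, 0) = (j, 0) ∧ (σ (i, 1) = (j, 1) ∧ σ (i, 2) = (j, 2) ∧ w' j = w i ∨
    σ (i, 1) = (j, 2) ∧ σ (i, 2) = (j, 1) ∧ w' j = 2 * w i)

theorem Adm.mul {s : ℕ} {σ τ : Perm (Fin s × Fin 3)} {w w' w'' : Fin s → Fin 3} (h : Adm σ w' w'')
    (h' : Adm τ w w') : Adm (σ * τ) w w'' := fun j => by
  obtain ⟨i, h1, h2⟩ := h j
  obtain ⟨l, h3, h4⟩ := h' i
  refine ⟨l, by rw [Perm.mul_apply, h3, h1], ?_⟩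
  have e : ∀ x : Fin 3, 2 * (2 * x) = x := by decide
  rcases h2 with ⟨a, b, c⟩ | ⟨a, b, c⟩ <;> rcases h4 with ⟨d, f, g⟩ | ⟨d, f, g⟩ <;>
    simp only [Perm.mul_apply, a, b, c, d, f, g, e, true_or, or_true, and_self]

theorem exists_adm {s : ℕ} (hs : 3 ≤ s) {w w' : Fin s → Fin 3} (h : nz w = nz w') :
    ∃ σ, sign σ = 1 ∧ Adm σ w w' := by
  obtain ⟨σ, hσ⟩ : ∃ σ, Adm σ w w' := by
    let τ' := Fintype.equivOfCardEq (α := {i // w i ≠ 0}) (β := {i // w' i ≠ 0}) (by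
      rw [Fintype.card_subtype, Fintype.card_subtype]; exact h)
    let τ := τ'.extendSubtype
    have h1 : ∀ i, w i ≠ 0 → w' (τ i) ≠ 0 := fun i => Equiv.extendSubtype_mem τ' i
    have h2 : ∀ i, ¬ w i ≠ 0 → ¬ w' (τ i) ≠ 0 := fun i => Equiv.extendSubtype_not_mem τ' i
    refine ⟨Equiv.prodShear τ fun i => if w' (τ i) = w i then Equiv.refl _ else swap 1 2, fun j => ?_⟩
    obtain ⟨i, rfl⟩ := τ.surjective j
    refine ⟨i, ?_⟩
    by_cases e : w' (τ i) = w i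
    · simp [e]
    · have := (by decide : ∀ x y : Fin 3, (x ≠ 0 → y ≠ 0) → (¬ x ≠ 0 → ¬ y ≠ 0) → y ≠ x → y = 2 * x) _ _ (h1 i) (h2 i) e
      simp only [Equiv.prodShear_apply, if_neg e, swap_apply_left, swap_apply_right, true_and]
      exact ⟨congrArg _ (by decide), Or.inr this⟩
  obtain ⟨τ, h1, h2⟩ : ∃ τ, sign τ = -1 ∧ Adm τ w w := by
    by_cases e : ∃ i, w i = 0
    · obtain ⟨i, hi⟩ := e
      refine ⟨swap (i, 1) (i, 2), sign_swap (by simp), fun j => ⟨j, swap_apply_of_ne_of_ne (by simp) (by simp), ?_⟩⟩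
      by_cases e : j = i
      · subst e; simp [hi]
      · simp [swap_apply_of_ne_of_ne, e]
    · obtain ⟨i, j, hij, e⟩ : ∃ i j, i ≠ j ∧ w i = w j := by
        by_contra! H
        have := (by decide : ∀ x y z : Fin 3, x ≠ 0 → y ≠ 0 → z ≠ 0 → x ≠ y → x ≠ z → y ≠ z → False)
        push Not at e
        exact this _ _ _ (e ⟨0, by omega⟩) (e ⟨1, by omega⟩) (e ⟨2, by omega⟩) (H _ _ (by simp)) (H _ _ (by simp))
          (H _ _ (by simp))
      refine ⟨swap (i, 0) (j, 0) * swap (i, 1) (j, 1) * swap (i, 2) (j, 2), by simp [hij], fun l => ⟨swap i j l, ?_⟩⟩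
      by_cases h1 : l = i
      · subst h1; simp [swap_apply_of_ne_of_ne, e]
      by_cases h2 : l = j
      · subst h2; simp [swap_apply_of_ne_of_ne, e]
      · simp [swap_apply_of_ne_of_ne, h1, h2]
  rcases Int.units_eq_one_or (sign σ) with e | e
  exacts [⟨σ, e, hσ⟩, ⟨σ * τ, by rw [map_mul, e, h1]; simp, hσ.mul h2⟩]

theorem sum_nz {s : ℕ} (P : (Fin s → Fin 3) → Prop) [DecidablePred P] (F : ℕ → ℕ) :
    ∑ w with P w, F (nz w) = ∑ j ∈ Finset.range (s + 1), (Finset.univ.filter fun w => P w ∧ nz w = j).card * F j := by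
  rw [← Finset.sum_fiberwise_of_maps_to (t := Finset.range (s + 1)) (g := nz) fun w _ =>
    Finset.mem_range.2 (Nat.lt_succ_of_le ((Finset.card_le_univ _).trans (by simp)))]
  refine Finset.sum_congr rfl fun j _ => ?_
  rw [Finset.filter_filter, Finset.sum_congr rfl (g := fun _ => F j) fun w hw => by
    rw [(Finset.mem_filter.1 hw).2.2], Finset.sum_const, smul_eq_mul]

universe u v

variable {α : Type*} [Fintype α] [DecidableEq α] {G : Type u} [Group G] {π : G →* Perm α}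
  {k : Type*} {V : Type v} [Field k] [AddCommGroup V] [Module k V] [FiniteDimensional k V] {ρ : G →* End k V}
  {T : α → α → α → G} {s : ℕ} {e : Fin s × Fin 3 ↪ α} {ω : k}

/-- the three-cycle on a block -/
abbrev Tb (T : α → α → α → G) (e : Fin s × Fin 3 ↪ α) (i : Fin s) : G := T (e (i, 0)) (e (i, 1)) (e (i, 2))

/-- weight spaces -/
def Wt (ρ : G →* End k V) (T : α → α → α → G) (e : Fin s × Fin 3 ↪ α) (ω : k) (w : Fin s → Fin 3) :
    Submodule k V := ⨅ i, (ρ (Tb T e i)).eigenspace (ω ^ (w i).val)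

theorem mem_Wt {w : Fin s → Fin 3} {v : V} : v ∈ Wt ρ T e ω w ↔ ∀ i, ρ (Tb T e i) v = ω ^ (w i).val • v := by
  simp [Wt]

theorem eb (e : Fin s × Fin 3 ↪ α) (i : Fin s) :
    e (i, 0) ≠ e (i, 1) ∧ e (i, 0) ≠ e (i, 2) ∧ e (i, 1) ≠ e (i, 2) := by simp

theorem TS.b_pi (t : TS π T) (i : Fin s) : π (Tb T e i) = c3 (e (i, 0)) (e (i, 1)) (e (i, 2)) :=
  t.pi (eb e i).1 (eb e i).2.1 (eb e i).2.2

theorem TS.b_fix (t : TS π T) {i j : Fin s} (h : j ≠ i) (l : Fin 3) : π (Tb T e i) (e (j, l)) = e (j, l) := by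
  rw [t.b_pi, c3_o] <;> simp [h]

theorem TS.b_comm (t : TS π T) {g : G} {i : Fin s} (h : ∀ l, π g (e (i, l)) = e (i, l)) : Commute g (Tb T e i) :=
  t.comm (eb e i).1 (eb e i).2.1 (eb e i).2.2 (h 0) (h 1) (h 2)

theorem TS.bb (t : TS π T) (i j : Fin s) : Commute (Tb T e i) (Tb T e j) := by
  by_cases h : j = i
  · subst h; exact Commute.refl _
  · exact t.b_comm (t.b_fix h)

theorem TS.b_cube (t : TS π T) (i : Fin s) : ρ (Tb T e i) ^ 3 = 1 := by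
  rw [← map_pow, t.cube (eb e i).1 (eb e i).2.1 (eb e i).2.2, map_one]

theorem wt_le (h : CE π) (t : TS π T) (hω : ω ^ 2 + ω + 1 = 0) (hs : 3 ≤ s) {w w' : Fin s → Fin 3}
    (hw : nz w = nz w') : finrank k (Wt ρ T e ω w) ≤ finrank k (Wt ρ T e ω w') := by
  obtain ⟨σ, h1, h2⟩ := exists_adm hs hw
  obtain ⟨g, hg, -⟩ := h.exists_lift e σ h1
  refine finrank_le_of_map _ (r_inj ρ g) fun v hv => mem_Wt.2 fun j => ?_
  obtain ⟨i, i0, H⟩ := h2 j
  have := t.eig_eqv g (eb e i).1 (eb e i).2.1 (eb e i).2.2 (mem_Wt.1 hv i)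
  rw [hg, hg, hg, i0] at this
  rcases H with ⟨a, b, c⟩ | ⟨a, b, c⟩ <;> rw [a, b] at this <;> rw [c]
  · exact this
  · rw [← root3_sq hω]
    exact t.sq_eig (eb e j).1 (eb e j).2.1 (eb e j).2.2 this

/-- multiplicity of the weights with `j` non-zero entries -/
noncomputable def Mw (ρ : G →* End k V) (T : α → α → α → G) (e : Fin s × Fin 3 ↪ α) (ω : k) (j : ℕ) : ℕ :=
  open Classical in if h : ∃ w : Fin s → Fin 3, nz w = j then finrank k (Wt ρ T e ω h.choose) else 0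

theorem wt_eq (h : CE π) (t : TS π T) (hω : ω ^ 2 + ω + 1 = 0) (hs : 3 ≤ s) (w : Fin s → Fin 3) :
    finrank k (Wt ρ T e ω w) = Mw ρ T e ω (nz w) := by
  have H : ∃ w' : Fin s → Fin 3, nz w' = nz w := ⟨w, rfl⟩
  rw [Mw, dif_pos H]
  exact le_antisymm (wt_le h t hω hs H.choose_spec.symm) (wt_le h t hω hs H.choose_spec)

theorem sum_wt_le (h : CE π) (t : TS π T) (hω : ω ^ 2 + ω + 1 = 0) (h3 : (3 : k) ≠ 0) (hs : 3 ≤ s)
    (P : (Fin s → Fin 3) → Prop) [DecidablePred P] {U : Submodule k V} (hU : ∀ w, P w → Wt ρ T e ω w ≤ U)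
    (hi : ∀ i, ∀ u ∈ U, ρ (Tb T e i) u ∈ U) :
    ∑ j ∈ Finset.range (s + 1), (Finset.univ.filter fun w => P w ∧ nz w = j).card * Mw ρ T e ω j ≤ finrank k U := by
  rw [← sum_nz, Finset.sum_subtype (p := P) _ (by simp)]
  have := sum_le_of_wt (V := U) (fun i => (ρ (Tb T e i)).restrict (hi i))
    (fun (w : {w // P w}) i => ω ^ (w.1 i).val)
    (fun w w' e => Subtype.ext (funext fun i => root3_inj hω h3 (congrFun e i)))
    (fun w => (Wt ρ T e ω w.1).comap U.subtype) fun w v hv i => Subtype.ext (mem_Wt.1 hv i)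
  refine le_trans (le_of_eq (Finset.sum_congr rfl fun w _ => ?_)) this
  rw [← wt_eq h t hω hs, (Submodule.comapSubtypeEquivOfLe (hU w.1 w.2)).finrank_eq]

variable [IsAlgClosed k]

theorem le_wt (t : TS π T) (hω : ω ^ 2 + ω + 1 = 0) (h3 : (3 : k) ≠ 0) {U : Submodule k V}
    (hi : ∀ i, ∀ u ∈ U, ρ (Tb T e i) u ∈ U) : U ≤ ⨆ w, U ⊓ Wt ρ T e ω w := by
  refine (le_iSup_wt (fun i => ρ (Tb T e i)) (fun i j => (t.bb i j).map ρ)
    (fun i => ⟨3, by exact_mod_cast h3, t.b_cube i⟩) hi).trans (iSup_le fun χ v hv => ?_)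
  by_cases v0 : v = 0
  · simp [v0]
  have h1 := fun i => End.mem_eigenspace_iff.1 ((Submodule.mem_iInf _).1 hv.2 i)
  choose w hw using fun i => root3 hω (eig_pow (h1 i) v0 (t.b_cube i))
  exact Submodule.mem_iSup_of_mem w ⟨hv.1, mem_Wt.2 fun i => hw i ▸ h1 i⟩

theorem le_sum_wt (h : CE π) (t : TS π T) (hω : ω ^ 2 + ω + 1 = 0) (h3 : (3 : k) ≠ 0) (hs : 3 ≤ s)
    (P : (Fin s → Fin 3) → Prop) [DecidablePred P] {U : Submodule k V}
    (hU : ∀ w, ∀ v ∈ U, v ∈ Wt ρ T e ω w → v ≠ 0 → P w) (hi : ∀ i, ∀ u ∈ U, ρ (Tb T e i) u ∈ U) :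
    finrank k U ≤ ∑ j ∈ Finset.range (s + 1), (Finset.univ.filter fun w => P w ∧ nz w = j).card * Mw ρ T e ω j := by
  rw [← sum_nz]
  simp only [← wt_eq h t hω hs]
  refine finrank_le_sum _ _ ((le_wt t hω h3 hi).trans (iSup_le fun w v hv => ?_))
  by_cases v0 : v = 0
  · simp [v0]
  exact Submodule.mem_iSup_of_mem w (Submodule.mem_iSup_of_mem (by simpa using hU w v hv.1 hv.2 v0) hv.2)

theorem fix_of_wt (t : TS π T) (hω : ω ^ 2 + ω + 1 = 0) (h3 : (3 : k) ≠ 0) {U : Submodule k V}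
    (hi : ∀ i, ∀ u ∈ U, ρ (Tb T e i) u ∈ U) (f : End k V)
    (H : ∀ w, ∀ v ∈ U, v ∈ Wt ρ T e ω w → f v = 0) : ∀ v ∈ U, f v = 0 := fun v hv =>
  (iSup_le (a := LinearMap.ker f) fun w v hv => H w v hv.1 hv.2) (le_wt t hω h3 hi hv)

theorem Mw_zero (h : CE π) (t : TS π T) (hω : ω ^ 2 + ω + 1 = 0) (hs : 3 ≤ s) {w : Fin s → Fin 3}
    (H : Mw ρ T e ω (nz w) = 0) {v : V} (hv : v ∈ Wt ρ T e ω w) : v = 0 := by
  rw [← wt_eq h t hω hs, Submodule.finrank_eq_zero] at H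
  simpa [H] using hv

theorem TS.b_eig (t : TS π T) {g : G} {i : Fin s} (h : ∀ l, π g (e (i, l)) = e (i, l)) (c : k) :
    ∀ u ∈ (ρ (Tb T e i)).eigenspace c, ρ g u ∈ (ρ (Tb T e i)).eigenspace c := fun u hu => by
  rw [End.mem_eigenspace_iff] at hu ⊢
  rw [← r_comm (t.b_comm h), hu, map_smul]

theorem TS.bb_eig (t : TS π T) (i j : Fin s) (c : k) :
    ∀ u ∈ (ρ (Tb T e i)).eigenspace c, ρ (Tb T e j) u ∈ (ρ (Tb T e i)).eigenspace c := fun u hu => by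
  rw [End.mem_eigenspace_iff] at hu ⊢
  rw [r_comm (t.bb i j), hu, map_smul]

theorem wt_of_eig (hω : ω ^ 2 + ω + 1 = 0) (h3 : (3 : k) ≠ 0) {w : Fin s → Fin 3} {v : V} (hv : v ∈ Wt ρ T e ω w)
    (v0 : v ≠ 0) {i : Fin s} {j : Fin 3} (h : v ∈ (ρ (Tb T e i)).eigenspace (ω ^ j.val)) : w i = j :=
  root3_inj hω h3 (smul_left_injective k v0 ((mem_Wt.1 hv i).symm.trans (End.mem_eigenspace_iff.1 h)))

end Cfsg.Agent.H23.Wg
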