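import Mathlib
import Cfsg.Agent.H23.Ex2

/-! Projective representations of degree at most `27` of the alternating group of degree `12`. -/

set_option autoImplicit false
set_option linter.unusedSectionVars false
set_option linter.unusedVariables false

namespace Cfsg.Agent.H23.Wg

open Equiv Equiv.Perm Module

universe u v

variable {α : Type} [Fintype α] [DecidableEq α] {G : Type u} [Group G] {π : G →* Perm α}
  {k : Type*} {V : Type v} [Field k] [AddCommGroup V] [Module k V] [FiniteDimensional k V] {ρ : G →* End k V}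
  {T : α → α → α → G} {ω : k}

theorem fpf_of_one {α : Type*} [Fintype α] [DecidableEq α] {π : G →* Perm α} {T : α → α → α → G} (h : CE π)
    (t : TS π T) (h5 : 5 ≤ Fintype.card α) {a b c : α} (h1 : a ≠ b) (h2 : a ≠ c) (h3 : b ≠ c)
    (H : ∀ v, v ∈ W3 ρ (T a b c)) : Fpf ρ T := fun {x y z} i1 i2 i3 => LinearMap.ext fun v => by
  obtain ⟨g, hg⟩ := h.trans [a, b, c] [x, y, z] (by simp; grind) (by simp; grind) rfl (by simp; omega)
  simp only [List.map_cons, List.map_nil, List.cons.injEq, and_true] at hg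
  obtain ⟨rfl, rfl, rfl⟩ := hg
  have := t.W_eqv g h1 h2 h3 (H (ρ g⁻¹ v))
  rw [r_inv', mem_W3] at this
  simpa [sq] using this

theorem W3_of_eig (hω : ω ^ 2 + ω + 1 = 0) {g : G} {v : V} {j : Fin 3} (j0 : j ≠ 0) (h : ρ g v = ω ^ j.val • v) :
    ρ g (ρ g v) + ρ g v + v = 0 := by
  rw [h, map_smul, h]
  fin_cases j
  · exact absurd rfl j0
  · show ω ^ 1 • ω ^ 1 • v + ω ^ 1 • v + v = 0
    linear_combination (norm := module) hω • v
  · show ω ^ 2 • ω ^ 2 • v + ω ^ 2 • v + v = 0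
    linear_combination (norm := module) ((ω ^ 2 - ω + 1) * hω) • v

theorem exists_blk {s : ℕ} (h : CE π) (hs : 3 * (s + 3) ≤ Fintype.card α) {a b c x y z : α}
    (hd : [a, b, c, x, y, z].Nodup) :
    ∃ e : Fin (s + 3) × Fin 3 ↪ α, Tb T e 0 = T a b c ∧ Tb T e 1 = T x y z := by
  obtain ⟨e⟩ : Nonempty (Fin (s + 3) × Fin 3 ↪ α) := Function.Embedding.nonempty_of_card_le (by simp; omega)
  obtain ⟨g, hg⟩ := h.trans [e (0, 0), e (0, 1), e (0, 2), e (1, 0), e (1, 1), e (1, 2)] _ (by simp) hd rfl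
    (by simp; omega)
  simp only [List.map_cons, List.map_nil, List.cons.injEq, and_true] at hg
  obtain ⟨rfl, rfl, rfl, rfl, rfl, rfl⟩ := hg
  exact ⟨e.trans (π g).toEmbedding, rfl, rfl⟩

variable [IsAlgClosed k]

theorem low_eig {s : ℕ} {e : Fin s × Fin 3 ↪ α} (h : CE π) (t : TS π T) (hs : SC π ρ) (h3 : (3 : k) ≠ 0)
    (hω : ω ^ 2 + ω + 1 = 0) (h12 : 12 ≤ Fintype.card α) {i j : Fin s} (hij : i ≠ j) {U : Submodule k V}
    (hU : ∀ g, (∀ l, π g (e (i, l)) = e (i, l)) → ∀ v ∈ U, ρ g v ∈ U) (hn : ∃ v ∈ U, ρ (Tb T e j) v ≠ v) :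
    bd k (Fintype.card α - 3) ≤ finrank k U := by
  have hc : Fintype.card {x // x ∉ ({e (i, 0), e (i, 1), e (i, 2)} : Finset α)} = Fintype.card α - 3 := by
    rw [card_compl, Finset.card_eq_three.2 ⟨_, _, _, (eb e i).1, (eb e i).2.1, (eb e i).2.2, rfl⟩]
  have hU' : ∀ g, π g (e (i, 0)) = e (i, 0) → π g (e (i, 1)) = e (i, 1) → π g (e (i, 2)) = e (i, 2) →
      ∀ v ∈ U, ρ g v ∈ U := fun g a b c => hU g fun l => by fin_cases l <;> assumption
  have := (low_all (k := k) (hc.symm ▸ show 9 ≤ Fintype.card α - 3 by omega)).use' _ h hs U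
    (fun g hg => hU' g (hg _ (by simp)) (hg _ (by simp)) (hg _ (by simp))) (g := Tb T e j)
    (by simp only [Finset.mem_insert, Finset.mem_singleton]
        rintro _ (rfl | rfl | rfl) <;> exact t.b_fix hij _)
    (t.two_eig h h3 hω [e (i, 0), e (i, 1), e (i, 2)] (by simp; omega) (eb e j).1 (eb e j).2.1 (eb e j).2.2
      (by simp [hij.symm]) (by simp [hij.symm]) (by simp [hij.symm])
      (fun g hg => hU' g (hg _ (by simp)) (hg _ (by simp)) (hg _ (by simp))) hn).2.2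
  rwa [hc] at this

theorem ne_of_eig (hω : ω ^ 2 + ω + 1 = 0) (h3 : (3 : k) ≠ 0) {X : End k V} {v : V} (v0 : v ≠ 0) {j : Fin 3}
    (j0 : j ≠ 0) (h : X v = ω ^ j.val • v) : X v ≠ v := fun e =>
  j0 (root3_inj hω h3 (smul_left_injective k v0 (by simpa using h.symm.trans e)))

theorem Mw_pos {s : ℕ} {e : Fin s × Fin 3 ↪ α} (h : CE π) (t : TS π T) (hω : ω ^ 2 + ω + 1 = 0) (hs : 3 ≤ s)
    (w : Fin s → Fin 3) {j : ℕ} (hw : nz w = j) (H : Mw ρ T e ω j ≠ 0) : ∃ v ∈ Wt ρ T e ω w, v ≠ 0 := by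
  rw [← hw, ← wt_eq h t hω hs, Ne, Submodule.finrank_eq_zero] at H
  exact (Submodule.ne_bot_iff _).1 H

theorem spin_dim (t : TS π T) (h2 : (2 : k) ≠ 0) {a b c d : α} (hd : [a, b, c, d].Nodup)
    (hz : ρ (Dl T a b c d ^ 2) = -1) {U : Submodule k V} (hU : U ≠ ⊥) (h1 : ∀ u ∈ U, ρ (Dl T a b c d) u ∈ U)
    (h1' : ∀ u ∈ U, ρ (Dl T a c b d) u ∈ U) : 2 ≤ finrank k U := by
  obtain ⟨i, hi⟩ := IsAlgClosed.exists_pow_nat_eq (-1 : k) two_pos
  obtain ⟨v, v1, v0, v2⟩ := spin_eig t hd hz hU h1 h1' hi true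
  obtain ⟨w, w1, w0, w2⟩ := spin_eig t hd hz hU h1 h1' hi false
  by_contra! H
  obtain ⟨c, rfl⟩ := line_smul (le_antisymm (by omega) (Submodule.one_le_finrank_iff.2 hU)) v1 v0 w1
  rw [map_smul, v2, smul_comm] at w2
  exact neg_ne_of_sq hi h2 (smul_left_injective k w0 w2)

theorem nat12 {e : Fin 4 × Fin 3 ↪ α} (h : CE π) (t : TS π T) (hs : SC π ρ) (hc : Fintype.card α = 12)
    (h2 : (2 : k) ≠ 0) (h3 : (3 : k) ≠ 0) (hω : ω ^ 2 + ω + 1 = 0) (hd : finrank k V ≤ 27) :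
    Mw ρ T e ω 2 = 0 ∧ Mw ρ T e ω 3 = 0 ∧ Mw ρ T e ω 4 = 0 := by
  have s4 : 3 ≤ 4 := by omega
  have tot := sum_wt_le (ρ := ρ) (e := e) h t hω h3 s4 (fun _ => True) (U := ⊤) (by simp) (by simp)
  let E : Fin 4 → Fin 3 → Submodule k V := fun i j => (ρ (Tb T e i)).eigenspace (ω ^ j.val)
  have hE : ∀ {w v}, v ∈ Wt ρ T e ω w → ∀ i, v ∈ E i (w i) := fun hv i => End.mem_eigenspace_iff.2 (mem_Wt.1 hv i)
  have a1 := le_sum_wt (e := e) h t hω h3 s4 (fun w => w 0 = 1) (U := E 0 1)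
    (fun w v h1 h2 h0 => wt_of_eig hω h3 h2 h0 h1) fun i => t.bb_eig 0 i _
  have a2 := le_sum_wt (e := e) h t hω h3 s4 (fun w => w 0 = 1 ∧ w 1 = 0) (U := E 0 1 ⊓ E 1 0)
    (fun w v h1 h2 h0 => ⟨wt_of_eig hω h3 h2 h0 h1.1, wt_of_eig hω h3 h2 h0 h1.2⟩)
    fun i u hu => ⟨t.bb_eig 0 i _ u hu.1, t.bb_eig 1 i _ u hu.2⟩
  rw [Finset.sum_congr rfl (g := fun j => [1, 8, 24, 32, 16].getD j 0 * Mw ρ T e ω j) fun j hj => by
    congr 1; revert j; decide +kernel, finrank_top] at tot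
  rw [Finset.sum_congr rfl (g := fun j => [0, 1, 6, 12, 8].getD j 0 * Mw ρ T e ω j) fun j hj => by
    congr 1; revert j; decide +kernel] at a1
  rw [Finset.sum_congr rfl (g := fun j => [0, 1, 4, 4, 0].getD j 0 * Mw ρ T e ω j) fun j hj => by
    congr 1; revert j; decide +kernel] at a2
  simp only [Finset.sum_range_succ, Finset.sum_range_zero, List.getD_cons_zero, List.getD_cons_succ] at tot a1 a2
  by_contra H
  have b1 : ∃ v ∈ E 0 1, ρ (Tb T e 1) v ≠ v := by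
    have : ∀ w : Fin 4 → Fin 3, w 0 = 1 → w 1 = 1 → Mw ρ T e ω (nz w) ≠ 0 → ∃ v ∈ E 0 1, ρ (Tb T e 1) v ≠ v :=
      fun w w0 w1 H => by
        obtain ⟨v, v1, v0⟩ := Mw_pos h t hω s4 w rfl H
        exact ⟨v, w0 ▸ hE v1 0, ne_of_eig hω h3 v0 (by rw [w1]; decide) (mem_Wt.1 v1 1)⟩
    by_contra H'
    exact H ⟨by_contra fun e => H' (this ![1, 1, 0, 0] rfl rfl e), by_contra fun e => H' (this ![1, 1, 1, 0] rfl rfl e),
      by_contra fun e => H' (this ![1, 1, 1, 1] rfl rfl e)⟩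
  have b2 := low_eig h t hs h3 hω hc.ge (i := 0) (j := 1) (by decide) (fun g hg => t.b_eig hg _) b1
  rw [hc, bd, if_neg (by
    rw [show ((12 - 3 : ℕ) : k) = 3 * 3 by norm_num]; exact mul_ne_zero h3 h3)] at b2
  change 8 ≤ finrank k (E 0 1) at b2
  have m3 : Mw ρ T e ω 3 = 0 := by omega
  have m2 : Mw ρ T e ω 2 = 0 := by omega
  have m4 : Mw ρ T e ω 4 ≠ 0 := by tauto
  have z23 : ∀ w, nz w = 2 ∨ nz w = 3 → ∀ v ∈ Wt ρ T e ω w, v = 0 := fun w hw v hv =>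
    Mw_zero h t hω s4 (by rcases hw with e | e <;> rwa [e]) hv
  let f : Fin 2 × Fin 3 ↪ α := (Function.Embedding.prodMap (Fin.natAddEmb 2) (Function.Embedding.refl _)).trans e
  have fx : ∀ g, (∀ x, x ∉ Set.range f → π g x = x) → ∀ i : Fin 4, i.val < 2 → ∀ l, π g (e (i, l)) = e (i, l) :=
    fun g hg i hi l => hg _ fun ⟨x, hx⟩ => by
      have : 2 + x.1.val = i.val := congrArg (·.1.val) (e.injective hx)
      omega
  obtain ⟨v, v1, v0⟩ := Mw_pos h t hω s4 ![1, 1, 1, 1] rfl m4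
  obtain ⟨L, π', ρ', T', h', t', hs', r1, r2⟩ := exists_sub h t hs f (E 0 1 ⊓ E 1 1) fun g hg u hu =>
    ⟨t.b_eig (fx g hg 0 (by decide)) _ u hu.1, t.b_eig (fx g hg 1 (by decide)) _ u hu.2⟩
  have : Nontrivial ↥(E 0 1 ⊓ E 1 1) := nontrivial_of_ne ⟨v, hE v1 0, hE v1 1⟩ 0 fun e => v0 (congrArg Subtype.val e)
  have q : Fpf ρ' T' := fpf_of_one h' t' (by simp) (a := (0, 0)) (b := (0, 1)) (c := (0, 2)) (by simp) (by simp)
    (by simp) fun u => mem_W3.2 (Subtype.ext (by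
      rw [Submodule.coe_add, Submodule.coe_add, r1, r1, r2 _ _ _ (by simp) (by simp) (by simp)]
      refine fix_of_wt (e := e) t hω h3 (U := E 0 1 ⊓ E 1 1)
        (fun i u hu => ⟨t.bb_eig 0 i _ u hu.1, t.bb_eig 1 i _ u hu.2⟩)
        (ρ (Tb T e 2) * ρ (Tb T e 2) + ρ (Tb T e 2) + 1) (fun w x h1 h2 => ?_) u.1 u.2
      by_cases x0 : x = 0
      · simp [x0]
      refine W3_of_eig hω (fun e => x0 (z23 w ?_ x h2)) (mem_Wt.1 h2 2)
      exact (by decide +kernel : ∀ w : Fin 4 → Fin 3, w 0 = 1 → w 1 = 1 → w 2 = 0 → nz w = 2 ∨ nz w = 3) w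
        (wt_of_eig hω h3 h2 x0 h1.1) (wt_of_eig hω h3 h2 x0 h1.2) e))
  have nd : [e (2, 0), e (2, 1), e (2, 2), e (3, 0)].Nodup := by simp
  have nd' : [e (2, 0), e (2, 2), e (2, 1), e (3, 0)].Nodup := by simp
  have hz : ρ (Dl T (e (2, 0)) (e (2, 1)) (e (2, 2)) (e (3, 0)) ^ 2) = -1 := by
    obtain ⟨c, hc⟩ := hs _ (t.D_sq nd)
    have := congrArg (fun X => (X ⟨v, hE v1 0, hE v1 1⟩ : V)) (q.z h' t' hs' h3 (by simp) (a := (0, 0)) (b := (0, 1))
      (c := (0, 2)) (d := (1, 0)) (by simp))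
    simp only [r1, Dl, Subgroup.coe_pow, Subgroup.coe_mul] at this
    rw [r2 _ _ _ (by simp) (by simp) (by simp), r2 _ _ _ (by simp) (by simp) (by simp)] at this
    have e1 : c = -1 := smul_left_injective k v0 ((hc v).symm.trans (this.trans (by simp)))
    exact LinearMap.ext fun x => by rw [hc, e1]; simp
  have m1 : Mw ρ T e ω 1 = 0 := by
    by_contra e1
    obtain ⟨x, x1, x0⟩ := Mw_pos h t hω s4 ![1, 0, 0, 0] rfl e1
    have inv : ∀ {a b c d : Fin 4 × Fin 3}, [e a, e b, e c, e d].Nodup → (∀ i : Fin 4, i.val < 2 →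
        a.1 ≠ i ∧ b.1 ≠ i ∧ c.1 ≠ i ∧ d.1 ≠ i) → ∀ u ∈ E 0 1 ⊓ E 1 0, ρ (Dl T (e a) (e b) (e c) (e d)) u ∈
          E 0 1 ⊓ E 1 0 := fun {a b c d} n1 n2 u hu => by
      have : ∀ i : Fin 4, i.val < 2 → ∀ j, u ∈ E i j → ρ (Dl T (e a) (e b) (e c) (e d)) u ∈ E i j := fun i hi j hu => by
        rw [End.mem_eigenspace_iff] at hu ⊢
        rw [t.D_comm n1 (t.b_fix (n2 i hi).1 _) (t.b_fix (n2 i hi).2.1 _) (t.b_fix (n2 i hi).2.2.1 _)
          (t.b_fix (n2 i hi).2.2.2 _), hu, map_smul]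
      exact ⟨this 0 (by decide) _ hu.1, this 1 (by decide) _ hu.2⟩
    have := spin_dim t h2 nd hz (U := E 0 1 ⊓ E 1 0) ((Submodule.ne_bot_iff _).2 ⟨x, ⟨hE x1 0, hE x1 1⟩, x0⟩)
      (inv nd (by decide)) (inv nd' (by decide))
    omega
  obtain ⟨C, ρ'', _, c1, c2⟩ := fpf_quot h t hs (by omega) (a := e (0, 0)) (b := e (0, 1)) (c := e (0, 2))
    (x := e (1, 0)) (y := e (1, 1)) (z := e (1, 2)) (by simp) (fun u hu => sub_eq_zero.1
      (fix_of_wt (e := e) t hω h3 (U := E 0 0) (fun i => t.bb_eig 0 i _) (ρ (Tb T e 1) - 1) (fun w x h1 h2 => by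
        by_cases x0 : x = 0
        · simp [x0]
        by_cases w1 : w 1 = 0
        · simpa [w1, sub_eq_zero] using mem_Wt.1 h2 1
        refine absurd (Mw_zero h t hω s4 ?_ h2) x0
        rcases (by decide +kernel : ∀ w : Fin 4 → Fin 3, w 0 = 0 → w 1 ≠ 0 → nz w = 1 ∨ nz w = 2 ∨ nz w = 3) w
          (wt_of_eig hω h3 h2 x0 h1) w1 with e | e | e <;> rwa [e]) u (by simpa [E] using hu)))
    ⟨v, ne_of_eig hω h3 v0 (by decide) (mem_Wt.1 v1 0)⟩
  have := c2.cliff h t c1 h2 h3 (by omega) (m := 10) (n := 5) hc.ge (by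
    rw [show ((10 : ℕ) : k) + 2 = 2 * 2 * 3 by norm_num]; exact mul_ne_zero (mul_ne_zero h2 h2) h3) le_rfl
  have := C.finrank_quotient_add_finrank
  omega

theorem eight_le (h : CE π) (t : TS π T) (hs : SC π ρ) (hc : Fintype.card α = 12)
    (h2 : (2 : k) ≠ 0) (h3 : (3 : k) ≠ 0) (hω : ω ^ 2 + ω + 1 = 0) (hd : finrank k V ≤ 27) {a b c x y z : α}
    (nd : [a, b, c, x, y, z].Nodup) {j : Fin 3} (j0 : j ≠ 0) :
    8 * finrank k ((ρ (T a b c)).eigenspace (ω ^ j.val)) ≤ finrank k V ∧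
      ∀ v ∈ W3 ρ (T a b c), ρ (T x y z) v = v := by
  obtain ⟨e, e0, e1⟩ : ∃ e : Fin 4 × Fin 3 ↪ α, Tb T e 0 = T a b c ∧ Tb T e 1 = T x y z :=
    exists_blk (s := 1) h hc.ge nd
  rw [← e0, ← e1]
  have s4 : 3 ≤ 4 := by omega
  obtain ⟨m2, m3, m4⟩ := nat12 (e := e) h t hs hc h2 h3 hω hd
  constructor
  · have tot := sum_wt_le (ρ := ρ) (e := e) h t hω h3 s4 (fun _ => True) (U := ⊤) (by simp) (by simp)
    have a1 := le_sum_wt (ρ := ρ) (e := e) h t hω h3 s4 (fun w => w 0 = j)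
      (fun w v h1 h2 h0 => wt_of_eig hω h3 h2 h0 h1) fun i => t.bb_eig 0 i _
    rw [Finset.sum_congr rfl (g := fun j => [1, 8, 24, 32, 16].getD j 0 * Mw ρ T e ω j) fun j hj => by
      congr 1; revert j; decide +kernel, finrank_top] at tot
    rw [Finset.sum_congr rfl (g := fun j => [0, 1, 6, 12, 8].getD j 0 * Mw ρ T e ω j) fun l hl => by
      congr 1; clear a1; revert j l; decide +kernel] at a1
    simp only [Finset.sum_range_succ, Finset.sum_range_zero, List.getD_cons_zero, List.getD_cons_succ] at tot a1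
    omega
  · intro v hv
    refine sub_eq_zero.1 (fix_of_wt (ρ := ρ) (e := e) t hω h3 (U := W3 ρ (Tb T e 0)) (fun i u hu => ?_) (ρ (Tb T e 1) - 1)
      (fun w x h1 h2 => ?_) v hv)
    · have := W3_conj (Tb T e i) hu
      rwa [(t.bb i 0).eq, mul_inv_cancel_right] at this
    by_cases w1 : w 1 = 0
    · simpa [w1, sub_eq_zero] using mem_Wt.1 h2 1
    by_cases w0 : w 0 = 0
    · rw [W3_fix h3 h1 (by simpa [w0] using mem_Wt.1 h2 0), map_zero]
    rw [Mw_zero h t hω s4 ?_ h2, map_zero]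
    rcases (by decide +kernel : ∀ w : Fin 4 → Fin 3, w 0 ≠ 0 → w 1 ≠ 0 → nz w = 2 ∨ nz w = 3 ∨ nz w = 4) w
      w0 w1 with e | e | e <;> rwa [e]

end Cfsg.Agent.H23.Wg
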