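import Mathlib
import Cfsg.Agent.H23.Ex3
import Cfsg.Agent.H9.NormalP

/-! Minimal covers of alternating groups: structure of the kernel. -/

set_option autoImplicit false
set_option linter.unusedSectionVars false
set_option linter.unusedVariables false

namespace Cfsg.Agent.H23.Wg

open Equiv Equiv.Perm Module Cfsg.Agent.H18
open scoped commutatorElement

theorem exists_eigen {H A : Type*} [Group H] [Finite H] [Group A] {φ : H →* A} (hφ : Function.Surjective φ)
    {l c : ℕ} [hl : Fact l.Prime] {a b : A} (h0 : a ≠ 1) (h1 : a ^ l = 1) (h2 : b * a * b⁻¹ = a ^ c)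
    (hP : ∀ P : Subgroup H, IsPGroup l P → P ≤ (Subgroup.zpowers a).comap φ → ∀ x ∈ P, ∀ y ∈ P, Commute x y) :
    ∃ x g : H, φ x ∈ Subgroup.zpowers a ∧ x ≠ 1 ∧ x ^ l = 1 ∧ g * x * g⁻¹ = x ^ c := by
  have : Finite A := Finite.of_surjective φ hφ
  obtain ⟨P, hS, -⟩ := exists_sylIn_ge (p := l) IsPGroup.of_bot (bot_le (a := (Subgroup.zpowers a).comap φ))
  obtain ⟨x, hx, rfl⟩ : a ∈ P.map φ := by
    have := hS.map φ
    rw [Subgroup.map_comap_eq_self_of_surjective hφ] at this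
    rw [this.eq_of_isPGroup fun ⟨_, j, e⟩ => ⟨1, Subtype.ext (by
      subst e
      show (a ^ j) ^ l ^ 1 = 1
      rw [pow_one, ← zpow_natCast, ← zpow_mul, mul_comm, zpow_mul, zpow_natCast, h1, one_zpow])⟩]
    exact Subgroup.mem_zpowers a
  obtain ⟨y, rfl⟩ := hφ b
  obtain ⟨u, ⟨j, hu⟩, h4⟩ := hS.frattini (g := y) (mem_normalizer_of_conj_mem (by
    rintro v ⟨j, hj⟩
    simp only at hj
    rw [Subgroup.mem_comap, map_mul, map_mul, map_inv, ← hj, ← conj_zpow, h2]
    exact zpow_mem (pow_mem (Subgroup.mem_zpowers _) c) j))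
  simp only at hu
  have h5 : φ (u * y) * φ x * (φ (u * y))⁻¹ = φ x ^ c := by
    rw [map_mul, mul_inv_rev, show ∀ p q r s : A, p * q * s * (q⁻¹ * r) = p * (q * s * q⁻¹) * r by
      intros; simp only [mul_assoc], h2, ← hu, ((Commute.refl _).zpow_left j |>.pow_right c).eq, mul_inv_cancel_right]
  generalize u * y = g at h4 h5
  have cm := hP P hS.isP hS.le
  have hg : ∀ v ∈ P, g * v * g⁻¹ ∈ P := fun v hv => (Subgroup.mem_normalizer_iff.1 h4 v).1 hv
  let θ : P →* P :=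
    { toFun := fun v => ⟨g * v * g⁻¹ * ((v : H) ^ c)⁻¹, mul_mem (hg _ v.2) (inv_mem (pow_mem v.2 c))⟩
      map_one' := by simp
      map_mul' := fun v w => Subtype.ext (by
        show g * (v * w) * g⁻¹ * ((v * w : H) ^ c)⁻¹ =
          g * v * g⁻¹ * ((v : H) ^ c)⁻¹ * (g * w * g⁻¹ * ((w : H) ^ c)⁻¹)
        rw [(cm _ v.2 _ w.2).mul_pow, mul_inv_rev, ← (cm _ (inv_mem (pow_mem v.2 c)) _ (inv_mem (pow_mem w.2 c))).eq,
          (cm _ (inv_mem (pow_mem v.2 c)) _ (hg _ w.2)).mul_mul_mul_comm]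
        simp only [mul_assoc, inv_mul_cancel_left]) }
  obtain ⟨v, v1, v0⟩ : ∃ v, θ v = 1 ∧ v ≠ 1 := by
    by_contra! H
    obtain ⟨v, hv⟩ := Finite.injective_iff_surjective.1 ((injective_iff_map_eq_one θ).2 H) ⟨x, hx⟩
    obtain ⟨i, hi⟩ := hS.le v.2
    have := congrArg (fun z : P => φ z) hv
    simp only [θ, MonoidHom.coe_mk, OneHom.coe_mk, map_mul, map_inv, map_pow] at this hi
    rw [← hi, ← conj_zpow, h5, ← zpow_natCast, ← zpow_natCast, ← zpow_mul, ← zpow_mul, mul_comm,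
      mul_inv_cancel] at this
    exact h0 this.symm
  have v2 : g * v * g⁻¹ = v ^ c := mul_inv_eq_one.1 (congrArg Subtype.val v1)
  obtain ⟨n, hn⟩ := hS.isP v
  obtain ⟨m, -, hm⟩ := (Nat.dvd_prime_pow hl.out).1 (orderOf_dvd_of_pow_eq_one hn)
  obtain ⟨m, rfl⟩ : ∃ m', m = m' + 1 := Nat.exists_eq_succ_of_ne_zero fun e => v0 (by simpa [e] using hm)
  refine ⟨v ^ l ^ m, g, hS.le (pow_mem v.2 _), fun e => ?_, ?_, by rw [← conj_pow, v2, ← pow_mul, ← pow_mul, mul_comm]⟩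
  · have := Nat.le_of_dvd (pow_pos hl.out.pos m) (hm ▸ orderOf_dvd_of_pow_eq_one (x := v) (Subtype.ext e))
    exact absurd (Nat.pow_lt_pow_right hl.out.one_lt (Nat.lt_succ_self m)) this.not_gt
  · rw [← pow_mul, ← pow_succ, ← hm, ← Subgroup.coe_pow, pow_orderOf_eq_one, Subgroup.coe_one]

variable {G : Type} [Group G] [Finite G] {r : ℕ} {φ : G →* alternatingGroup (Fin r)} {l : ℕ}

theorem MC.syl (h : MC φ) [Fact l.Prime] {Q : Subgroup G} (hQ : SylIn l Q φ.ker) : Q.Normal :=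
  Subgroup.normalizer_eq_top_iff.1 (h.min _ (eq_top_iff.2 fun a _ => by
    obtain ⟨g, rfl⟩ := h.surj a
    obtain ⟨n, h1, h2⟩ := hQ.frattini (g := g) (by rw [Subgroup.normalizer_eq_top]; trivial)
    exact ⟨_, h2, by rw [map_mul, MonoidHom.mem_ker.1 h1, one_mul]⟩))

theorem MC.nil (h : MC φ) : Group.IsNilpotent φ.ker :=
  (Group.isNilpotent_of_finite_tfae.out 3 0).1 fun p (_ : Fact p.Prime) (P : Sylow p φ.ker) => by
    have := (h.syl (sylIn_map_subtype P)).comap φ.ker.subtype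
    rwa [Subgroup.comap_map_eq_self_of_injective φ.ker.subtype_injective] at this

/-- the `l`-part of the kernel is central -/
def Cen (φ : G →* alternatingGroup (Fin r)) (l : ℕ) : Prop :=
  ∀ z ∈ φ.ker, (∃ j, z ^ l ^ j = 1) → z ∈ Subgroup.center G

/-- minimal non-central normal `l`-subgroups -/
structure MN (φ : G →* alternatingGroup (Fin r)) (l : ℕ) (N : Subgroup G) : Prop where
  nrm : N.Normal
  le : N ≤ φ.ker
  nc : ¬ N ≤ Subgroup.center G
  isP : IsPGroup l N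
  min : ∀ M : Subgroup G, M.Normal → M ≤ N → M ≠ N → M ≤ Subgroup.center G

theorem MC.exists_MN (h : MC φ) [Fact l.Prime] (hc : ¬ Cen φ l) : ∃ N, MN φ l N := by
  simp only [Cen, not_forall] at hc
  obtain ⟨z, h1, ⟨j, h2⟩, h3⟩ := hc
  obtain ⟨Q, hQ, hz⟩ := exists_sylIn_ge (p := l) (P := Subgroup.zpowers z) (H := φ.ker) (fun ⟨_, i, e⟩ => ⟨j,
    Subtype.ext (by
      subst e
      show (z ^ i) ^ l ^ j = 1
      rw [← zpow_natCast, ← zpow_mul, mul_comm, zpow_mul, zpow_natCast, h2, one_zpow])⟩) (by simpa using h1)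
  obtain ⟨N, ⟨n1, n2, n3⟩, n4⟩ := exists_minimal_of_wellFoundedLT
    (fun N : Subgroup G => N.Normal ∧ N ≤ Q ∧ ¬ N ≤ Subgroup.center G)
    ⟨Q, h.syl hQ, le_rfl, fun e => h3 (e (hz (Subgroup.mem_zpowers z)))⟩
  exact ⟨N, n1, n2.trans hQ.le, n3, hQ.isP.to_le n2, fun M m1 m2 m3 =>
    by_contra fun m4 => m3 (le_antisymm m2 (n4 ⟨m1, m2.trans n2, m4⟩ m2))⟩

variable {N : Subgroup G}

theorem MN.comm_le (n : MN φ l N) (h : MC φ) : ⁅N, φ.ker⁆ ≤ Subgroup.center G := by
  have := n.nrm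
  refine n.min _ inferInstance (Subgroup.commutator_le_left _ _) fun e => n.nc ?_
  obtain ⟨m, hm⟩ := (Subgroup.isNilpotent_iff_lowerCentralSeries _).1 h.nil
  have : ∀ m, N ≤ φ.ker.lowerCentralSeries m := fun m => by
    induction m with
    | zero => exact n.le
    | succ m ih => exact e.ge.trans (Subgroup.commutator_mono ih le_rfl)
  exact (hm ▸ this m).trans bot_le

theorem MN.comm_top (n : MN φ l N) (h : MC φ) (h9 : 9 ≤ r) : ⁅N, (⊤ : Subgroup G)⁆ = N := by
  have := n.nrm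
  by_contra e
  have e1 := n.min _ inferInstance (Subgroup.commutator_le_left _ _) e
  have e2 : ⁅⁅N, (⊤ : Subgroup G)⁆, (⊤ : Subgroup G)⁆ = ⊥ :=
    Subgroup.commutator_eq_bot_iff_le_centralizer.2 (e1.trans (Subgroup.center_le_centralizer _))
  have e3 := Subgroup.commutator_commutator_eq_bot_of_rotate (H₁ := ⊤) (H₂ := ⊤) (H₃ := N)
    (by rwa [Subgroup.commutator_comm ⊤ N]) e2
  rw [← commutator_def, h.perfect h9, Subgroup.commutator_comm, Subgroup.commutator_eq_bot_iff_le_centralizer] at e3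
  exact n.nc fun x hx => Subgroup.mem_center_iff.2 fun g => e3 hx g trivial

theorem MN.pow_mem (n : MN φ l N) (h : MC φ) : ∀ x ∈ N, x ^ l ∈ Subgroup.center G := by
  have c1 := (Subgroup.commutator_mono le_rfl n.le).trans (n.comm_le h)
  let π := QuotientGroup.mk' (Subgroup.center G)
  have cm : ∀ a ∈ N, ∀ b ∈ N, Commute (π a) (π b) := fun a ha b hb => by
    rw [← commutatorElement_eq_one_iff_commute, ← map_commutatorElement]
    exact (QuotientGroup.eq_one_iff _).2 (c1 (Subgroup.commutator_mem_commutator ha hb))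
  let M : Subgroup G :=
    { carrier := {x | x ∈ N ∧ π x ^ l = 1}
      one_mem' := ⟨one_mem _, by simp⟩
      mul_mem' := fun {a b} ha hb => ⟨mul_mem ha.1 hb.1, by
        rw [map_mul, (cm a ha.1 b hb.1).mul_pow, ha.2, hb.2, one_mul]⟩
      inv_mem' := fun {a} ha => ⟨inv_mem ha.1, by rw [map_inv, inv_pow, ha.2, inv_one]⟩ }
  have hM : M = N := by_contra fun e => by
    have e1 := n.min M ⟨fun a ha g => ⟨n.nrm.conj_mem a ha.1 g, by
      rw [map_mul, map_mul, map_inv, conj_pow, ha.2]; simp⟩⟩ (fun a ha => ha.1) e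
    obtain ⟨x, x1, x2⟩ := SetLike.not_le_iff_exists.1 n.nc
    obtain ⟨j, hj⟩ := n.isP ⟨x, x1⟩
    have e2 : ∀ j, x ^ l ^ j ∉ Subgroup.center G := fun j => by
      induction j with
      | zero => simpa using x2
      | succ j ih => exact fun e => ih (e1 ⟨_root_.pow_mem x1 _, by
          rw [← map_pow, ← pow_mul, ← pow_succ]; exact (QuotientGroup.eq_one_iff _).2 e⟩)
    exact e2 j (by rw [show x ^ l ^ j = 1 from congrArg Subtype.val hj]; exact one_mem _)
  intro x hx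
  exact (QuotientGroup.eq_one_iff _).1 ((map_pow π x l).trans (show x ∈ M from hM ▸ hx).2)

theorem MN.card [Fact l.Prime] (n : MN φ l N) (h : MC φ) (h9 : 9 ≤ r) :
    ∃ m, r - 2 ≤ m ∧ Nat.card (N ⧸ (Subgroup.center G).subgroupOf N) = l ^ m := by
  have := n.nrm
  obtain ⟨m, m1, σ, g, hg⟩ := exists_modrep (h.perfect h9) n.nc
    ((Subgroup.commutator_mono le_rfl n.le).trans (n.comm_le h)) (n.pow_mem h)
  let K := AlgebraicClosure (ZMod l)
  have := main_bound h9 m G φ K (Fin m → K) ((Matrix.toLinAlgEquiv' (R := K) (n := Fin m)).toMulEquiv.toMonoidHom.comp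
    ((algebraMap (ZMod l) K).mapMatrix.toMonoidHom.comp σ)) h (by simp) ⟨g, fun e => hg (by
      have e1 : (algebraMap (ZMod l) K).mapMatrix (σ g) = 1 :=
        (Matrix.toLinAlgEquiv' (R := K) (n := Fin m)).injective (e.trans (map_one _).symm)
      exact Matrix.map_injective (algebraMap (ZMod l) K).injective
        (e1.trans (map_one (algebraMap (ZMod l) K).mapMatrix).symm))⟩
  exact ⟨m, (bd_le r).1.trans this, m1⟩

variable {k V : Type} [Field k] [IsAlgClosed k] [AddCommGroup V] [Module k V] [FiniteDimensional k V]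
  {ρ : G →* End k V}

/-- irreducible -/
def Irr (ρ : G →* End k V) : Prop := ∀ U : Submodule k V, (∀ g, ∀ v ∈ U, ρ g v ∈ U) → U ≠ ⊥ → U = ⊤

theorem pair_case [Nontrivial V] (hi : Irr ρ) {K : Subgroup G} (h2 : ⁅K, N⁆ ≤ Subgroup.center G)
    (h3 : ∀ n ∈ N, (∀ a ∈ K, Commute (ρ a) (ρ n)) → n ∈ Subgroup.center G) :
    Nat.card (N ⧸ (Subgroup.center G).subgroupOf N) ≤ finrank k V * finrank k V := by
  have := Fintype.ofFinite (N ⧸ (Subgroup.center G).subgroupOf N)
  choose c hc using fun (a : K) (b : N) => schur_scal hi (h2 (Subgroup.commutator_mem_commutator a.2 b.2))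
  have hc' : ∀ (a : K) (b : N) v, ρ a (ρ b v) = c a b • ρ b (ρ a v) := fun a b v => by
    rw [← hc, ← r_mul, ← r_mul, ← r_mul]; simp [commutatorElement_def, mul_assoc]
  rw [Nat.card_eq_fintype_card, ← Module.finrank_linearMap k k V V]
  refine card_le_of_wt (V := End k V) (fun a : K => LinearMap.mulLeft k (ρ a) ∘ₗ LinearMap.mulRight k (ρ a⁻¹))
    (fun b a => c a b.out) (fun b b' e => ?_) fun b => ⟨ρ b.out, fun e => ?_, fun a => ?_⟩
  · rw [← b.out_eq, ← b'.out_eq]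
    refine QuotientGroup.eq.2 (h3 _ (b.out⁻¹ * b'.out).2 fun a ha => LinearMap.ext fun v => r_inj ρ b.out ?_)
    have e1 : c ⟨a, ha⟩ b.out = c ⟨a, ha⟩ b'.out := congrFun e _
    have e2 := hc' ⟨a, ha⟩ b.out (ρ ((b.out : G)⁻¹ * b'.out) v)
    have e3 := hc' ⟨a, ha⟩ b'.out v
    rw [← r_mul ρ b.out, mul_inv_cancel_left, e3, e1] at e2
    have c0 : c ⟨a, ha⟩ b'.out ≠ 0 := fun e => by
      obtain ⟨w, w0⟩ := exists_ne (0 : V)
      exact r_ne ρ _ w0 ((hc _ _ w).trans (by rw [e, zero_smul]))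
    change ρ b.out (ρ a (ρ ((b.out : G)⁻¹ * b'.out) v)) = ρ b.out (ρ ((b.out : G)⁻¹ * b'.out) (ρ a v))
    rw [← r_mul ρ b.out ((b.out : G)⁻¹ * b'.out), mul_inv_cancel_left]
    exact (smul_right_injective V c0 e2).symm
  · obtain ⟨v, v0⟩ := exists_ne (0 : V)
    exact r_ne ρ _ v0 (by rw [e]; rfl)
  · refine LinearMap.ext fun v => ?_
    have := hc' a b.out (ρ (a : G)⁻¹ v)
    rw [r_inv'] at this
    simpa using this

theorem exists_irr {U : Submodule k V} (hU : ∀ g, ∀ v ∈ U, ρ g v ∈ U) (h0 : U ≠ ⊥) : ∃ W ≤ U, ∃ hW, W ≠ ⊥ ∧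
    Irr (Representation.subrepresentation ρ W hW) := by
  obtain ⟨W, ⟨w1, w2, w3⟩, w4⟩ := exists_minimal_of_wellFoundedLT
    (fun W : Submodule k V => W ≤ U ∧ (∀ g, ∀ v ∈ W, ρ g v ∈ W) ∧ W ≠ ⊥) ⟨U, le_rfl, hU, h0⟩
  refine ⟨W, w1, w2, w3, fun X x1 x2 => eq_top_iff.2 fun v _ => ?_⟩
  obtain ⟨u, u1, u2⟩ := w4 (y := X.map W.subtype) ⟨(Submodule.map_subtype_le _ _).trans w1, by
    rintro g _ ⟨u, hu, rfl⟩
    exact ⟨_, x1 g u hu, rfl⟩, fun e => x2 (Submodule.map_injective_of_injective W.injective_subtype (by simpa using e))⟩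
    (Submodule.map_subtype_le _ _) v.2
  exact Subtype.ext u2 ▸ u1

theorem MN.comm_ker [hl : Fact l.Prime] (n : MN φ l N) (h : MC φ) (h9 : 9 ≤ r) (hf : Function.Injective ρ)
    (hk : (l : k) ≠ 0) (hd : finrank k V * finrank k V < l ^ (r - 2)) : ∀ a ∈ φ.ker, ∀ b ∈ N, Commute a b := by
  intro a ha b hb
  by_contra H
  have := n.nrm
  have c1 : ⁅φ.ker, N⁆ ≤ Subgroup.center G := Subgroup.commutator_comm N φ.ker ▸ n.comm_le h
  have z1 := c1 (Subgroup.commutator_mem_commutator ha hb)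
  obtain ⟨j, hj⟩ := n.isP ⟨_, Subgroup.commutator_le_right _ _ (Subgroup.commutator_mem_commutator ha hb)⟩
  obtain ⟨c, c0, -, v, -, v0, v1⟩ := exists_eig_ne (U := ⊤) (X := ρ ⁅a, b⁆) (by simp) (m := l ^ j)
    (by simpa using fun e => absurd e hk) (by rw [← map_pow, show ⁅a, b⁆ ^ l ^ j = 1 from congrArg Subtype.val hj, map_one])
    (by
      by_contra! H'
      exact H (commutatorElement_eq_one_iff_commute.1 (hf (LinearMap.ext fun v => by simpa using H' v trivial))))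
  obtain ⟨W, w1, w2, w3, w4⟩ := exists_irr (ρ := ρ) (U := (ρ ⁅a, b⁆).eigenspace c) (fun g w hw => by
    rw [End.mem_eigenspace_iff] at hw ⊢
    rw [← r_comm (Subgroup.mem_center_iff.1 z1 g), hw, map_smul])
    ((Submodule.ne_bot_iff _).2 ⟨v, End.mem_eigenspace_iff.2 v1, v0⟩)
  have := Submodule.nontrivial_iff_ne_bot.2 w3
  generalize hσ : Representation.subrepresentation ρ W w2 = σ at w4
  let M : Subgroup G :=
    { carrier := {x | x ∈ N ∧ ∀ a ∈ φ.ker, Commute (σ a) (σ x)}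
      one_mem' := ⟨one_mem _, by simp⟩
      mul_mem' := fun {x y} hx hy => ⟨mul_mem hx.1 hy.1, fun a ha => by
        rw [map_mul]; exact (hx.2 a ha).mul_right (hy.2 a ha)⟩
      inv_mem' := fun {x} hx => ⟨inv_mem hx.1, fun a ha => LinearMap.ext fun v => r_inj σ x (by
        rw [End.mul_apply, End.mul_apply, r_inv', ← End.mul_apply, ← (hx.2 a ha).eq, End.mul_apply, r_inv'])⟩ }
  have e1 := pair_case w4 c1 fun x hx hx' => n.min M ⟨fun x hx g => ⟨n.nrm.conj_mem x hx.1 g, fun a ha => by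
      have := (hx.2 _ ((inferInstance : φ.ker.Normal).conj_mem a ha g⁻¹)).eq
      rw [← map_mul, ← map_mul] at this
      rw [Commute, SemiconjBy, ← map_mul, ← map_mul, show a * (g * x * g⁻¹) = g * (g⁻¹ * a * g⁻¹⁻¹ * x) * g⁻¹ by group,
        map_mul, map_mul, this, ← map_mul, ← map_mul]
      congr 1; group⟩⟩ (fun x hx => hx.1) (fun e => by
      obtain ⟨w, w0⟩ := exists_ne (0 : W)
      have e2 := ((show b ∈ M from e ▸ hb).2 a ha).eq
      have e3 : σ ⁅a, b⁆ w = w := by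
        rw [commutatorElement_def, r_mul, r_mul, map_mul, e2, End.mul_apply, r_inv', r_inv']
      subst hσ
      exact c0 (smul_left_injective k (fun e => w0 (Subtype.ext e)) ((End.mem_eigenspace_iff.1 (w1 w.2)).symm.trans
        ((congrArg Subtype.val e3).trans (one_smul k _).symm)))) ⟨hx, hx'⟩
  obtain ⟨m, m1, m2⟩ := n.card h h9
  have := Nat.pow_le_pow_right hl.out.pos m1
  have := Nat.mul_le_mul W.finrank_le W.finrank_le
  omega

theorem MC.scal (h : MC φ) [Nontrivial V] (hi : Irr ρ) (hK : ∀ l : ℕ, l.Prime → (l : k) ≠ 0 → Cen φ l) :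
    φ.ker ≤ scal ρ ⊤ := by
  refine Subgroup.subgroupOf_eq_top.1 (Subgroup.index_eq_one.1 (by_contra fun e => ?_))
  obtain ⟨l, hl, hd⟩ := Nat.exists_prime_and_dvd e
  have := Fact.mk hl
  obtain ⟨Q, hQ, -⟩ := exists_sylIn_ge (p := l) IsPGroup.of_bot (bot_le (a := φ.ker))
  refine hQ.not_dvd_relIndex (hd.trans (Subgroup.relIndex_dvd_of_le_left _ fun z hz => ?_))
  by_cases hk : (l : k) = 0
  · have : CharP k l := (CharP.charP_iff_prime_eq_zero hl).2 hk
    obtain ⟨v, v0⟩ := exists_ne (0 : V)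
    obtain ⟨w, -, w0, w1⟩ := H9.exists_fixed_vec ρ hQ.isP ⊤ (by simp) trivial v0
    have := hi (⨅ q : Q, (ρ q).eigenspace 1) (fun g u hu => by
      simp only [Submodule.mem_iInf, End.mem_eigenspace_iff, one_smul] at hu ⊢
      intro q
      have := hu ⟨_, (h.syl hQ).conj_mem _ q.2 g⁻¹⟩
      conv_rhs => rw [← this]
      rw [← r_mul, ← r_mul]
      simp [mul_assoc]) ((Submodule.ne_bot_iff _).2 ⟨w, by simpa using w1, w0⟩)
    exact ⟨1, fun u _ => End.mem_eigenspace_iff.1 ((Submodule.mem_iInf _).1 (this ▸ Submodule.mem_top) ⟨z, hz⟩)⟩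
  · obtain ⟨j, hj⟩ := hQ.isP ⟨z, hz⟩
    obtain ⟨c, hc⟩ := schur_scal hi (hK l hl hk z (hQ.le hz) ⟨j, congrArg Subtype.val hj⟩)
    exact ⟨c, fun v _ => hc v⟩

omit [Finite G] in
theorem TS.eq_of_inv {α : Type*} [Fintype α] [DecidableEq α] {π : G →* Perm α} {T : α → α → α → G} (h : CE π)
    (t : TS π T) (h8 : 8 ≤ Fintype.card α) {a b c : α} (h1 : a ≠ b) (h2 : a ≠ c) (h3 : b ≠ c) {x g : G}
    (hx : π x = c3 a b c) (x3 : x ^ 3 = 1) (hg : g * x * g⁻¹ = x ^ 2) : x = T a b c := by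
  obtain ⟨y, y1, y2, y3, -⟩ := h.exists_inv [] (by simp; omega) h1 h2 h3
  have e1 := t.conj y h1 h2 h3
  rw [y1, y2, y3, t.sq h1 h2 h3] at e1
  have e2 := h.cent_c3 h8 h1 h2 h3 hx (k := y⁻¹ * g) (by
    have a1 := congrArg π e1
    have a2 := congrArg π hg
    simp only [map_mul, map_inv, map_pow, t.pi h1 h2 h3, ← hx] at a1 a2 ⊢
    rw [← a1] at a2
    rw [Commute, SemiconjBy]
    calc π x * ((π y)⁻¹ * π g) = (π y)⁻¹ * (π y * π x * (π y)⁻¹) * π g := by group
      _ = _ := by rw [← a2]; group)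
  have hz := h.cen (x * (T a b c)⁻¹) (by rw [map_mul, map_inv, hx, t.pi h1 h2 h3, mul_inv_cancel])
  have c3 := t.cube h1 h2 h3
  generalize T a b c = u at *
  obtain ⟨z, rfl⟩ : ∃ z, x = z * u := ⟨x * u⁻¹, by group⟩
  rw [mul_inv_cancel_right] at hz
  have e3 : y * (z * u) * y⁻¹ = g * (z * u) * g⁻¹ := by
    calc _ = y * ((z * u) * (y⁻¹ * g)) * g⁻¹ := by group
      _ = _ := by rw [e2.eq]; group
  rw [hg, (hz u).mul_pow, ← mul_assoc, ← (hz y).eq, mul_assoc, mul_assoc, ← mul_assoc y, e1, mul_left_inj, pow_two,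
    left_eq_mul] at e3
  rw [e3, one_mul]

omit [IsAlgClosed k] in
theorem finrank_eig_le (X : End k V) {U : Submodule k V} (hU : ∀ v ∈ U, X v ∈ U) (c : k) :
    finrank k (X.eigenspace c) ≤ finrank k (End.eigenspace (X.restrict hU) c) +
      finrank k (End.eigenspace (U.mapQ U X hU) c) := by
  let f : X.eigenspace c →ₗ[k] End.eigenspace (U.mapQ U X hU) c := (U.mkQ.domRestrict _).codRestrict _ fun v => by
    rw [End.mem_eigenspace_iff, LinearMap.domRestrict_apply, Submodule.mkQ_apply, Submodule.mapQ_apply,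
      End.mem_eigenspace_iff.1 v.2, Submodule.Quotient.mk_smul]
  have e1 := f.finrank_range_add_finrank_ker
  have e2 := (LinearMap.range f).finrank_le
  let g : LinearMap.ker f →ₗ[k] End.eigenspace (X.restrict hU) c :=
    ((((X.eigenspace c).subtype.comp (LinearMap.ker f).subtype).codRestrict U fun v =>
      (Submodule.Quotient.mk_eq_zero _).1 (congrArg Subtype.val v.2))).codRestrict _ fun v =>
        End.mem_eigenspace_iff.2 (Subtype.ext (End.mem_eigenspace_iff.1 v.1.2))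
  have e3 := g.finrank_le_finrank_of_injective fun v w e =>
    Subtype.ext (Subtype.ext (congrArg (fun x => (x.1 : V)) e))
  omega

theorem MC.eig_ind (h : MC φ) (h9 : 9 ≤ r) (hK : ∀ l : ℕ, l.Prime → (l : k) ≠ 0 → Cen φ l) {a b c : Fin r}
    (h1 : a ≠ b) (h2 : a ≠ c) (h3 : b ≠ c) {x g : G} (hx : (φ x).1 = c3 a b c) (x3 : x ^ 3 = 1)
    (hg : g * x * g⁻¹ = x ^ 2) {ω : k} (hω : ω ≠ 1) {m D : ℕ} {B : ℕ → ℕ}
    (hB : ∀ i j, i + j ≤ D → B i + B j ≤ B (i + j))
    (H : ∀ (G : Type) [Group G] (π : G →* Perm (Fin r)) (T : Fin r → Fin r → Fin r → G) (V : Type) [AddCommGroup V]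
      [Module k V] [FiniteDimensional k V] (ρ : G →* End k V), CE π → TS π T → SC π ρ → finrank k V ≤ D →
        m * finrank k ((ρ (T a b c)).eigenspace ω) ≤ B (finrank k V)) (n : ℕ) :
    ∀ (V : Type) [AddCommGroup V] [Module k V] [FiniteDimensional k V] (ρ : G →* End k V), finrank k V = n → n ≤ D →
      m * finrank k ((ρ x).eigenspace ω) ≤ B n := by
  induction n using Nat.strong_induction_on with
  | _ n ih =>
  intro V _ _ _ ρ hn hD
  subst hn
  by_cases h0 : ρ x = 1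
  · rw [(Submodule.eq_bot_iff ((ρ x).eigenspace ω)).2 fun v hv => by_contra fun v0 => hω (smul_left_injective k v0 (by
      simpa [h0] using (End.mem_eigenspace_iff.1 hv).symm))]
    simp
  have : Nontrivial V := by
    by_contra! H
    exact h0 (Subsingleton.elim _ _)
  by_cases hi : Irr ρ
  swap
  · simp only [Irr, not_forall] at hi
    obtain ⟨U, u1, u2, u3⟩ := hi
    have e1 := U.finrank_quotient_add_finrank
    have e2 := Submodule.finrank_lt u3
    have e3 := Submodule.one_le_finrank_iff.2 u2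
    have e4 := ih _ e2 U (Representation.subrepresentation ρ U u1) rfl (by omega)
    have e5 := ih _ (by omega) (V ⧸ U) (Representation.quotient ρ U u1) rfl (by omega)
    have e6 := hB _ _ (e1.le.trans hD)
    rw [e1] at e6
    refine (Nat.mul_le_mul_left m (finrank_eig_le (ρ x) (u1 x) ω)).trans ?_
    rw [mul_add]
    exact (Nat.add_le_add e4 e5).trans (by omega)
  have e1 := h.le_ker h9 (L := ρ.ker) inferInstance fun e => h0 (show x ∈ ρ.ker from e ▸ Subgroup.mem_top x)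
  let π := (alternatingGroup _).subtype.comp (QuotientGroup.lift _ φ e1)
  let σ : G ⧸ ρ.ker →* End k V := QuotientGroup.lift _ ρ le_rfl
  have hs : SC π σ := fun z hz => by
    obtain ⟨z, rfl⟩ := QuotientGroup.mk_surjective z
    obtain ⟨c, hc⟩ := h.scal hi hK (show z ∈ φ.ker from Subtype.ext hz)
    exact ⟨c, fun v => hc v trivial⟩
  have hσ : Function.Injective σ := (injective_iff_map_eq_one _).2 fun x hx => by
    obtain ⟨x, rfl⟩ := QuotientGroup.mk_surjective x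
    exact (QuotientGroup.eq_one_iff _).2 hx
  have hc : CE π := ⟨fun s hs => by
      obtain ⟨g, hg⟩ := h.surj ⟨s, mem_alternatingGroup.2 hs⟩
      exact ⟨g, congrArg Subtype.val hg⟩, fun g => mem_alternatingGroup.1 (QuotientGroup.lift _ φ e1 g).2,
    fun z hz g => hσ (LinearMap.ext fun v => by
      obtain ⟨c, hc⟩ := hs z hz
      rw [r_mul, r_mul, hc, hc, map_smul])⟩
  obtain ⟨T, t⟩ := hc.exists_TS (by simp; omega)
  have := H _ π T V σ hc t hs hD
  rwa [← TS.eq_of_inv hc t (by simp; omega) h1 h2 h3 (x := x) (g := g) hx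
    (by rw [← QuotientGroup.mk_pow, x3]; rfl) (congrArg QuotientGroup.mk hg)] at this

theorem MC.exists_t (h : MC φ) (h9 : 9 ≤ r) (hK : Cen φ 3) : ∃ (a b c : Fin r) (x g : G), a ≠ b ∧ a ≠ c ∧ b ≠ c ∧
    (φ x).1 = c3 a b c ∧ x ^ 3 = 1 ∧ g * x * g⁻¹ = x ^ 2 := by
  obtain ⟨e⟩ := exists_emb (α := Fin r) (m := 5) (by simp; omega)
  have n : ∀ {i j : Fin 5}, i ≠ j → e i ≠ e j := fun h => e.injective.ne h
  have h1 : e 0 ≠ e 1 := n (by decide)
  have h2 : e 0 ≠ e 2 := n (by decide)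
  have h3 : e 1 ≠ e 2 := n (by decide)
  let a : alternatingGroup (Fin r) := ⟨c3 (e 0) (e 1) (e 2), mem_alternatingGroup.2 (sign_c3 h1 h2)⟩
  have a3 : a ^ 3 = 1 := Subtype.ext (c3_cube h1 h2 h3)
  have a0 : a ≠ 1 := fun e1 => h1 ((congrArg (·.1 (e 0)) e1).symm.trans (c3_1 h1 h3))
  have := Nat.fact_prime_three
  have ao := orderOf_eq_prime a3 a0
  obtain ⟨x, g, x1, x0, x3, hg⟩ := exists_eigen h.surj (c := 2) a0 a3
    (b := ⟨swap (e 1) (e 2) * swap (e 3) (e 4), by simp [h3, n (i := 3) (j := 4) (by decide)]⟩) (Subtype.ext (by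
      show _ * c3 _ _ _ * _ = c3 _ _ _ ^ 2
      rw [c3_sq h1 h2 h3]
      refine (c3_conj _ _ _ _).trans ?_
      simp [swap_apply_def])) (fun P p1 p2 => by
      have := commutative_of_cyclic_center_quotient
        ((φ.comp P.subtype).codRestrict (Subgroup.zpowers a) fun x => p2 x.2) fun z hz => by
        obtain ⟨j, hj⟩ := p1 z
        exact Subgroup.mem_center_iff.2 fun y => Subtype.ext (Subgroup.mem_center_iff.1
          (hK z (congrArg Subtype.val hz) ⟨j, congrArg Subtype.val hj⟩) y)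
      exact fun x hx y hy => congrArg Subtype.val (this ⟨x, hx⟩ ⟨y, hy⟩))
  obtain ⟨j, hj, e1⟩ := Finset.mem_image.1 (mem_zpowers_iff_mem_range_orderOf.1 x1)
  rw [ao, Finset.mem_range] at hj
  interval_cases j
  · rw [Subgroup.mem_center_iff.1 (hK x (by simpa using e1.symm) ⟨1, x3⟩), mul_inv_cancel_right, pow_two,
      left_eq_mul] at hg
    exact absurd hg x0
  · exact ⟨_, _, _, x, g, h1, h2, h3, by rw [← e1, pow_one], x3, hg⟩
  · exact ⟨_, _, _, x, g, h2, h1, h3.symm, by rw [← e1]; exact c3_sq h1 h2 h3, x3, hg⟩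

end Cfsg.Agent.H23.Wg
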