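import Mathlib
import Cfsg.Agent.H23.Ex4

/-! No section `A₁₂` in a group preserving a suitable trilinear form in `27` variables. -/

set_option autoImplicit false
set_option linter.unusedSectionVars false
set_option linter.unusedVariables false

namespace Cfsg.Agent.H23.Wg

open Equiv Equiv.Perm Module
open scoped commutatorElement

theorem TS.all_fix {α : Type*} [Fintype α] [DecidableEq α] {G : Type*} [Group G] {π : G →* Perm α}
    {k V : Type*} [Field k] [AddCommGroup V] [Module k V] [FiniteDimensional k V] {ρ : G →* End k V}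
    {T : α → α → α → G} (t : TS π T) (h : CE π) (h9 : 9 ≤ Fintype.card α) {v : V} (h0 : ∀ z, π z = 1 → ρ z v = v)
    {a b c x y : α} (nd : [a, b, c, x, y].Nodup) (h1 : ρ (T a b c) v = v) (h2 : ρ (T a x y) v = v)
    (h3 : ∀ p q s, [a, b, c, p, q, s].Nodup → ρ (T p q s) v = v) (g : G) : ρ g v = v := by
  have nd' := nd
  simp only [List.nodup_cons, List.mem_cons, List.not_mem_nil, or_false, not_or] at nd'
  have gen : ∀ S : α → Prop, (∀ u v' w, u ≠ v' → u ≠ w → v' ≠ w → ¬ S u → ¬ S v' → ¬ S w → ρ (T u v' w) v = v) →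
      ∀ g, (∀ s, S s → π g s = s) → ρ g v = v := fun S H g hg =>
    h.gen S (fixs ρ {v}) (fun z hz w hw => hw ▸ h0 z hz) (fun u v' w a1 a2 a3 a4 a5 a6 =>
      ⟨_, fun _ hw => hw ▸ H u v' w a1 a2 a3 a4 a5 a6, t.pi a1 a2 a3⟩) hg v rfl
  have cj : ∀ g {p q s}, p ≠ q → p ≠ s → q ≠ s → ρ g v = v → ρ (T p q s) v = v →
      ρ (T (π g p) (π g q) (π g s)) v = v := fun g p q s a1 a2 a3 e1 e2 => by
    have := t.r (ρ := ρ) g a1 a2 a3 v
    rwa [e2, e1, eq_comm] at this
  have f1 : ∀ p q, [a, b, c, p, q].Nodup → ρ (T a p q) v = v := fun p q hn => by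
    obtain ⟨g, hg⟩ := h.trans _ _ nd hn rfl (by simp; omega)
    simp only [List.map_cons, List.map_nil, List.cons.injEq, and_true] at hg
    have := cj g (by grind only) (by grind only) (by grind only) (gen (· ∈ [a, b, c]) (fun u v' w a1 a2 a3 a4 a5 a6 =>
      h3 _ _ _ (by simp at a4 a5 a6 ⊢; grind only)) g (by simp; grind only)) h2
    rwa [hg.1, hg.2.2.2.1, hg.2.2.2.2] at this
  have f2 : ∀ u p q, [a, b, c, p, q].Nodup → u ≠ p → u ≠ q → ρ (T u p q) v = v := fun u p q hn a1 a2 => by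
    have e0 := f1 p q hn
    simp only [List.nodup_cons, List.mem_cons, List.not_mem_nil, or_false, not_or] at hn
    have hp : ∀ u, π (T a b c) u = c3 a b c u := fun u => by rw [t.pi (by grind only) (by grind only) (by grind only)]
    have e1 := cj _ (by grind only) (by grind only) (by grind only) h1 e0
    rw [hp, hp, hp, c3_1 (by grind only) (by grind only), c3_o (by grind only) (by grind only) (by grind only),
      c3_o (by grind only) (by grind only) (by grind only)] at e1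
    have e2 := cj _ (by grind only) (by grind only) (by grind only) h1 e1
    rw [hp, hp, hp, c3_2, c3_o (by grind only) (by grind only) (by grind only), c3_o (by grind only) (by grind only) (by grind only)] at e2
    by_cases hu : u = a ∨ u = b ∨ u = c
    · rcases hu with rfl | rfl | rfl <;> assumption
    · exact h3 _ _ _ (by simp; grind only)
  refine gen (fun _ => False) (fun u v' w a1 a2 a3 _ _ _ => ?_) g (by simp)
  obtain ⟨p, hp⟩ := fresh [a, b, c, u, v', w] (by simp; omega)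
  obtain ⟨q, hq⟩ := fresh [a, b, c, u, v', w, p] (by simp; omega)
  obtain ⟨s, hs⟩ := fresh [a, b, c, u, v', w, p, q] (by simp; omega)
  simp only [List.mem_cons, List.not_mem_nil, or_false, not_or] at hp hq hs
  exact t.fix3 (p := p) (q := q) (s := s) (by simp; grind only) (f2 _ _ _ (by simp; grind only) (by grind only) (by grind only))
    (f2 _ _ _ (by simp; grind only) (by grind only) (by grind only)) (f2 _ _ _ (by simp; grind only) (by grind only) (by grind only))

variable {G : Type} [Group G] [Finite G] {k V : Type} [Field k] [IsAlgClosed k] [AddCommGroup V] [Module k V]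
  [FiniteDimensional k V] {ρ : G →* End k V} {f : V →ₗ[k] V →ₗ[k] V →ₗ[k] k}

/-- invariant trilinear forms with small radicals -/
structure Cub (ρ : G →* End k V) (f : V →ₗ[k] V →ₗ[k] V →ₗ[k] k) : Prop where
  inv : ∀ g x y z, f (ρ g x) (ρ g y) (ρ g z) = f x y z
  rad : ∀ v, v ≠ 0 → finrank k (LinearMap.ker (f v)) ≤ 17
  dim : finrank k V = 27

theorem Cub.bound (c : Cub ρ f) {v : V} (v0 : v ≠ 0) {X Y : Submodule k V}
    (H : ∀ x ∈ X, (∀ y ∈ Y, f v x y = 0) → ∀ y, f v x y = 0) : finrank k X ≤ 17 + finrank k Y := by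
  let g : X →ₗ[k] Dual k Y := (f v).domRestrict₁₂ X Y
  have e1 := g.finrank_range_add_finrank_ker
  have e2 := (LinearMap.range g).finrank_le
  have e3 := Submodule.finrank_mono (show (LinearMap.ker g).map X.subtype ≤ LinearMap.ker (f v) by
    rintro _ ⟨x, hx, rfl⟩
    exact LinearMap.ext (H x x.2 fun y hy => congrArg (· ⟨y, hy⟩) hx))
  rw [Submodule.finrank_map_subtype_eq] at e3
  have := c.rad v v0
  rw [Subspace.dual_finrank_eq] at e2
  omega

theorem Cub.eig (c : Cub ρ f) {g : G} {x y z : V} {a b d : k} (h1 : ρ g x = a • x) (h2 : ρ g y = b • y)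
    (h3 : ρ g z = d • z) (h : f x y z ≠ 0) : a * b * d = 1 := by
  have := c.inv g x y z
  simp only [h1, h2, h3, map_smul, LinearMap.smul_apply, smul_eq_mul] at this
  exact mul_right_cancel₀ h (by linear_combination this)

variable {φ : G →* alternatingGroup (Fin 12)}

theorem perm_ds {Ω : Type} [Fintype Ω] (k : Type) [Field k] [IsAlgClosed k] (h2 : (2 : k) ≠ 0) (h3 : (3 : k) ≠ 0)
    (hc : Fintype.card Ω ≤ 27) (σ : alternatingGroup (Fin 12) →* Perm Ω) :
    ∃ T, TS (alternatingGroup (Fin 12)).subtype T ∧ CE (alternatingGroup (Fin 12)).subtype ∧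
      (∀ μ, (∀ a b c, a ≠ b → a ≠ c → b ≠ c → σ (T a b c) μ = μ) → ∀ g, σ g μ = μ) ∧
      (∀ μ a b c x y z, [a, b, c, x, y, z].Nodup → σ (T a b c) μ ≠ μ → σ (T x y z) μ = μ) ∧
      ∀ μ a b c, a ≠ b → a ≠ c → b ≠ c → σ (T a b c) μ = μ →
        (∀ x y z, [a, b, c, x, y, z].Nodup → σ (T x y z) μ = μ) → ∀ g, σ g μ = μ := by
  classical
  have h : CE (alternatingGroup (Fin 12)).subtype := ⟨fun s hs => ⟨⟨s, mem_alternatingGroup.2 hs⟩, rfl⟩,
    fun g => mem_alternatingGroup.1 g.2, fun z hz g => by rw [show z = 1 from Subtype.ext hz]; exact Commute.one_left g⟩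
  obtain ⟨T, t⟩ := h.exists_TS (by simp)
  let ρ : alternatingGroup (Fin 12) →* End k (Ω → k) :=
    { toFun := fun g => LinearMap.funLeft k k (σ g).symm
      map_one' := by rw [map_one]; rfl
      map_mul' := fun a b => by ext; simp [Perm.mul_def] }
  have hρ : ∀ g μ, ρ g (Pi.single μ 1) = Pi.single (σ g μ) 1 := fun g μ => funext fun ν => by
    simp [ρ, Pi.single_apply, Equiv.symm_apply_eq]
  have fx : ∀ {g μ}, ρ g (Pi.single μ 1) = Pi.single μ 1 ↔ σ g μ = μ := fun {g μ} => by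
    rw [hρ]
    refine ⟨fun e => by_contra fun e' => ?_, fun e => by rw [e]⟩
    simpa [Pi.single_apply, Ne.symm e'] using congrFun e μ
  obtain ⟨ω, hω⟩ : ∃ ω : k, ω ^ 2 + ω + 1 = 0 := by
    obtain ⟨ω, hω⟩ := IsAlgClosed.exists_root (Polynomial.X ^ 2 + Polynomial.X + 1 : Polynomial k)
      (by rw [show (Polynomial.X ^ 2 + Polynomial.X + 1 : Polynomial k).degree = 2 by compute_degree!]; decide)
    exact ⟨ω, by simpa using hω⟩
  have h0 : ∀ z, (alternatingGroup (Fin 12)).subtype z = 1 → ∀ v, ρ z v = v := fun z hz v => by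
    rw [show z = 1 from Subtype.ext hz, map_one]; rfl
  have ds : ∀ μ a b c x y z, [a, b, c, x, y, z].Nodup → σ (T a b c) μ ≠ μ → σ (T x y z) μ = μ := by
    intro μ a b c x y z nd hn
    have nd' := nd
    simp only [List.nodup_cons, List.mem_cons, List.not_mem_nil, or_false, not_or] at nd'
    have := congrFun ((eight_le (ρ := ρ) h t (fun z hz => ⟨1, fun v => by rw [h0 z hz, one_smul]⟩) (by simp) h2 h3 hω
      (by simpa using hc) nd (j := 1) (by decide)).2 _ (W3_sub (t.cube (by grind only) (by grind only) (by grind only))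
        (Pi.single μ 1))) μ
    rw [map_sub, hρ, hρ, hρ] at this
    by_contra e
    simp only [Pi.sub_apply, Pi.single_apply, if_neg (Ne.symm e), if_neg (Ne.symm hn), if_true] at this
    split_ifs at this
    · exact h2 (by linear_combination this)
    · simp at this
  refine ⟨T, t, h, fun μ H g => fx.1 (h.gen (fun _ => False) (fixs ρ {Pi.single μ 1}) (fun z hz v _ => h0 z hz v)
    (fun u v w a1 a2 a3 _ _ _ => ⟨_, fun _ hw => hw ▸ fx.2 (H u v w a1 a2 a3), t.pi a1 a2 a3⟩) (by simp) _ rfl), ds,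
    fun μ a b c h1 h2 h3 H1 H2 g => fx.1 ?_⟩
  obtain ⟨x, hx⟩ := fresh [a, b, c] (by simp)
  obtain ⟨y, hy⟩ := fresh [a, b, c, x] (by simp)
  obtain ⟨z, hz⟩ := fresh [a, b, c, x, y] (by simp)
  obtain ⟨w, hw⟩ := fresh [a, b, c, x, y, z] (by simp)
  simp only [List.mem_cons, List.not_mem_nil, or_false, not_or] at hx hy hz hw
  by_cases e : σ (T a x y) μ = μ
  · exact t.all_fix h (by simp) (fun z hz => h0 z hz _) (by simp; grind only) (fx.2 H1) (fx.2 e)
      (fun p q s hn => fx.2 (H2 p q s hn)) g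
  · exact t.all_fix h (by simp) (fun z hz => h0 z hz _) (a := b) (b := c) (c := a) (by simp; grind only)
      (fx.2 (t.rot h1 h2 h3 ▸ H1)) (fx.2 (ds μ a x y b z w (by simp; grind only) e))
      (fun p q s hn => fx.2 (H2 p q s (by simp at hn ⊢; grind only))) g

theorem Cub.cen (c : Cub ρ f) (h : MC φ) (hf : Function.Injective ρ) (h2 : (2 : k) ≠ 0) (h3 : (3 : k) ≠ 0) (l : ℕ)
    (hl : l.Prime) (hk : (l : k) ≠ 0) : Cen φ l := by
  classical
  have := Fact.mk hl
  by_contra H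
  obtain ⟨N, n⟩ := h.exists_MN H
  have := n.nrm
  have cm := n.comm_ker h (by omega) hf hk (by
    rw [c.dim]; exact lt_of_lt_of_le (by norm_num) (Nat.pow_le_pow_left hl.two_le _))
  let E : (N → k) → Submodule k V := fun χ => ⨅ n : N, (ρ n).eigenspace (χ n)
  have hE : ∀ {χ v}, v ∈ E χ ↔ ∀ n : N, ρ n v = χ n • v := by simp [E]
  let Ω := {χ : N → k // E χ ≠ ⊥}
  have ex : ∀ μ : Ω, ∃ v ≠ 0, ∀ n : N, ρ n v = μ.1 n • v := fun μ => by
    obtain ⟨v, v1, v0⟩ := (Submodule.ne_bot_iff _).1 μ.2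
    exact ⟨v, v0, hE.1 v1⟩
  have fin : Finite Ω := by
    by_contra! H
    obtain ⟨s, hs⟩ := Infinite.exists_subset_card_eq Ω (finrank k V + 1)
    have := card_le_of_wt (fun n : N => ρ n) (fun x : s => x.1.1) (fun x y e => Subtype.ext (Subtype.ext e))
      fun x => ex x.1
    simp [hs] at this
  have := Fintype.ofFinite Ω
  have hc := card_le_of_wt (fun n : N => ρ n) (fun x : Ω => x.1) Subtype.val_injective ex
  have hs := sum_le_of_wt (fun n : N => ρ n) (fun x : Ω => x.1) Subtype.val_injective (fun x => E x.1)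
    fun _ v hv => hE.1 hv
  have top : ∀ U : Submodule k V, (∀ μ : Ω, E μ.1 ≤ U) → ⊤ ≤ U := fun U hU => by
    rw [← iSup_wt (fun n : N => ρ n) (fun a b => (cm a (n.le a.2) b b.2).map ρ) fun a => by
      obtain ⟨j, hj⟩ := n.isP a
      exact ⟨l ^ j, by simpa using fun e => absurd e hk, by
        rw [← map_pow, show (a : G) ^ l ^ j = 1 from congrArg Subtype.val hj, map_one]⟩]
    refine iSup_le fun χ => ?_
    by_cases e : E χ = ⊥
    · exact e.le.trans bot_le
    · exact hU ⟨χ, e⟩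
  have mv : ∀ g χ, ∀ v ∈ E χ, ρ g v ∈ E fun n => χ (MulAut.conjNormal g⁻¹ n) := fun g χ v hv => hE.2 fun n => by
    rw [← map_smul, ← hE.1 hv, ← r_mul, ← r_mul]
    simp [mul_assoc]
  let : MulAction G Ω :=
    { smul := fun g f => ⟨fun n => f.1 (MulAut.conjNormal g⁻¹ n), by
        obtain ⟨v, v1, v0⟩ := (Submodule.ne_bot_iff _).1 f.2
        exact (Submodule.ne_bot_iff _).2 ⟨_, mv g _ v v1, r_ne ρ g v0⟩⟩
      one_smul := fun f => Subtype.ext (funext fun n => by
        change f.1 (MulAut.conjNormal 1⁻¹ n) = _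
        simp)
      mul_smul := fun g g' f => Subtype.ext (funext fun n => by
        change f.1 (MulAut.conjNormal (g * g')⁻¹ n) = f.1 (MulAut.conjNormal g'⁻¹ (MulAut.conjNormal g⁻¹ n))
        simp) }
  obtain ⟨σ, hσ⟩ : ∃ σ : alternatingGroup (Fin 12) →* Perm Ω, ∀ g μ n,
      (σ (φ g) μ).1 n = μ.1 (MulAut.conjNormal g⁻¹ n) :=
    ⟨φ.liftOfSurjective h.surj ⟨MulAction.toPermHom G Ω, fun z hz => Equiv.ext fun μ => Subtype.ext (funext fun a => by
      change μ.1 (MulAut.conjNormal z⁻¹ a) = μ.1 a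
      exact congrArg μ.1 (Subtype.ext ((MulAut.conjNormal_apply z⁻¹ a).trans (by
        rw [(cm _ (inv_mem hz) a a.2).eq, mul_inv_cancel_right]))))⟩, fun g μ n => by
        rw [MonoidHom.liftOfRightInverse_comp_apply]; rfl⟩
  rw [c.dim] at hc hs
  obtain ⟨T, t, ce, g1, ds, g2⟩ := perm_ds k h2 h3 hc σ
  have triv : ∀ μ : Ω, (∀ g, σ g μ = μ) → ∀ a, μ.1 a = 1 := fun μ H a => by
    obtain ⟨v, v0, v1⟩ := ex μ
    have : N ≤ fixs ρ {v} := (n.comm_top h (by omega)).ge.trans (Subgroup.commutator_le.2 fun a ha g _ w hw => by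
      have e1 := hσ g⁻¹ μ ⟨a⁻¹, inv_mem ha⟩
      rw [H] at e1
      have e2 := v1 (MulAut.conjNormal g⁻¹⁻¹ ⟨a⁻¹, inv_mem ha⟩)
      rw [← e1, ← v1] at e2
      rw [hw, show ⁅a, g⁆ = a * (g⁻¹⁻¹ * a⁻¹ * g⁻¹⁻¹⁻¹) by simp [commutatorElement_def, mul_assoc], r_mul]
      exact (congrArg (ρ a) e2).trans (r_inv' ρ a v))
    exact smul_left_injective k v0 ((v1 a).symm.trans ((this a.2 v rfl).trans (one_smul k v).symm))
  have mle : ∀ s (μ : Ω), finrank k (E μ.1) ≤ finrank k (E (σ s μ).1) := fun s μ => by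
    obtain ⟨g, rfl⟩ := h.surj s
    rw [show (σ (φ g) μ).1 = _ from funext (hσ g μ)]
    exact finrank_le_of_map _ (r_inj ρ g) (mv g _)
  have pf : ∀ s {x y z : Ω}, (∀ a, x.1 a * y.1 a * z.1 a = 1) → σ s x = x → σ s y = y → σ s z = z := by
    intro s x y z H e1 e2
    obtain ⟨g, rfl⟩ := h.surj s
    refine Subtype.ext (funext fun a => ?_)
    have := H (MulAut.conjNormal g⁻¹ a)
    rw [← hσ, ← hσ, ← hσ, e1, e2, ← H a] at this
    exact mul_left_cancel₀ (left_ne_zero_of_mul_eq_one (H a)) this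
  obtain ⟨μ, a, b, d, h4, h5, h6, hμ⟩ : ∃ μ a b c, a ≠ b ∧ a ≠ c ∧ b ≠ c ∧ σ (T a b c) μ ≠ μ := by
    by_contra! H
    refine n.nc fun z hz => ?_
    rw [show z = 1 from hf (by
      rw [map_one]
      exact LinearMap.ext fun v => sub_eq_zero.1 (top (LinearMap.ker (ρ z - 1)) (fun μ v hv => by
        simp [hE.1 hv ⟨z, hz⟩, triv μ (g1 μ (H μ))]) trivial))]
    exact one_mem _
  obtain ⟨x, hx⟩ := fresh [a, b, d] (by simp)
  obtain ⟨y, hy⟩ := fresh [a, b, d, x] (by simp)
  obtain ⟨z, hz⟩ := fresh [a, b, d, x, y] (by simp)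
  obtain ⟨e, e0, -⟩ : ∃ e : Fin 4 × Fin 3 ↪ Fin 12, Tb T e 0 = T a b d ∧ Tb T e 1 = T x y z :=
    exists_blk (s := 1) ce (by simp) (by simp at hx hy hz ⊢; grind only)
  let S : Fin 4 → Finset Ω := fun i => Finset.univ.filter fun ν => σ (Tb T e i) ν ≠ ν
  have hS : ∀ {i ν}, ν ∈ S i ↔ σ (Tb T e i) ν ≠ ν := by simp [S]
  have d1 : ∀ i, ∑ ν ∈ S 0, finrank k (E ν.1) ≤ ∑ ν ∈ S i, finrank k (E ν.1) := fun i => by
    obtain ⟨g, hg⟩ := ce.trans [e (0, 0), e (0, 1), e (0, 2)] [e (i, 0), e (i, 1), e (i, 2)] (by simp) (by simp) rfl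
      (by simp)
    simp only [List.map_cons, List.map_nil, List.cons.injEq, and_true] at hg
    have e1 := t.conj' g (eb e 0).1 (eb e 0).2.1 (eb e 0).2.2
    rw [hg.1, hg.2.1, hg.2.2] at e1
    refine (Finset.sum_le_sum fun ν _ => mle g ν).trans ?_
    rw [← Finset.sum_image (f := fun ν : Ω => finrank k (E ν.1)) (σ g).injective.injOn]
    refine Finset.sum_le_sum_of_subset (Finset.image_subset_iff.2 fun ν hν => hS.2 fun e2 => hS.1 hν ?_)
    rw [← Perm.mul_apply, ← map_mul, ← e1, map_mul, Perm.mul_apply] at e2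
    exact (σ g).injective e2
  have d2 : 4 * ∑ ν ∈ S 0, finrank k (E ν.1) ≤ 27 := by
    have := Finset.sum_biUnion (s := Finset.univ) (t := S) (f := fun ν : Ω => finrank k (E ν.1))
      fun i _ j _ hij => Finset.disjoint_left.2 fun ν h1 h2 =>
        hS.1 h2 (ds ν _ _ _ _ _ _ (by simp [hij]) (hS.1 h1))
    have e1 := Finset.sum_le_sum fun i (_ : i ∈ Finset.univ) => d1 i
    rw [← this] at e1
    simpa using e1.trans ((Finset.sum_le_sum_of_subset (Finset.subset_univ _)).trans hs)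
  have d3 : ∀ ν ∈ S 0, 3 * finrank k (E ν.1) ≤ ∑ ν ∈ S 0, finrank k (E ν.1) := fun ν hν => by
    have c3 : ∀ x, σ (Tb T e 0) (σ (Tb T e 0) (σ (Tb T e 0) x)) = x := fun x => by
      rw [← Perm.mul_apply, ← Perm.mul_apply, ← pow_three', ← map_pow, t.cube (eb e 0).1 (eb e 0).2.1 (eb e 0).2.2,
        map_one, Perm.one_apply]
    have i := (σ (Tb T e 0)).injective
    have n1 := hS.1 hν
    have n2 := i.ne n1
    have n3 : ν ≠ σ (Tb T e 0) (σ (Tb T e 0) ν) := fun e => n1 ((congrArg _ e).trans (c3 ν))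
    have := Finset.sum_le_sum_of_subset (f := fun ν : Ω => finrank k (E ν.1))
      (show {ν, σ (Tb T e 0) ν, σ (Tb T e 0) (σ (Tb T e 0) ν)} ⊆ S 0 by
        simp only [Finset.insert_subset_iff, Finset.singleton_subset_iff]
        exact ⟨hν, hS.2 n2, hS.2 (i.ne n2)⟩)
    rw [Finset.sum_insert (by rw [Finset.mem_insert, Finset.mem_singleton]; exact not_or.2 ⟨n1.symm, n3⟩),
      Finset.sum_pair n2.symm] at this
    have := mle (Tb T e 0) ν
    have := mle (Tb T e 0) (σ (Tb T e 0) ν)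
    omega
  let X := ⨆ ν ∈ (S 0)ᶜ, E ν.1
  have d4 : 27 ≤ finrank k X + ∑ ν ∈ S 0, finrank k (E ν.1) := by
    have e1 := Submodule.finrank_mono (top (X ⊔ ⨆ ν ∈ S 0, E ν.1) fun ν => by
      by_cases e : ν ∈ S 0
      · exact le_sup_of_le_right (le_iSup₂_of_le ν e le_rfl)
      · exact le_sup_of_le_left (le_iSup₂_of_le ν (Finset.mem_compl.2 e) le_rfl))
    have e2 := finrank_le_sum (S 0) (fun ν => E ν.1) le_rfl
    have e3 := Submodule.finrank_add_le_finrank_add_finrank X (⨆ ν ∈ S 0, E ν.1)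
    rw [finrank_top, c.dim] at e1
    omega
  obtain ⟨v, v0, v1⟩ := ex μ
  have d5 : 3 * finrank k (E fun a => (μ.1 a)⁻¹) ≤ ∑ ν ∈ S 0, finrank k (E ν.1) := by
    by_cases e1 : E (fun a => (μ.1 a)⁻¹) = ⊥
    · rw [e1, finrank_bot]; omega
    refine d3 ⟨_, e1⟩ (hS.2 fun e2 => hμ ?_)
    rw [← e0]
    obtain ⟨g, hg⟩ := h.surj (Tb T e 0)
    rw [← hg] at e2 ⊢
    exact Subtype.ext (funext fun a => by
      rw [hσ]; exact inv_injective ((hσ g ⟨_, e1⟩ a).symm.trans (congrFun (congrArg Subtype.val e2) a)))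
  have := c.bound v0 (X := X) (Y := E fun a => (μ.1 a)⁻¹) fun x hx H y => by
    refine top (LinearMap.ker (f v x)) (fun ν y hy => ?_) trivial
    by_cases e1 : ν.1 = fun a => (μ.1 a)⁻¹
    · exact H y (e1 ▸ hy)
    refine (iSup₂_le (a := LinearMap.ker ((f v).flip y)) fun κ hκ x hx => by_contra fun e2 => e1 ?_) hx
    have e3 := fun a : N => c.eig (v1 a) (hE.1 hx a) (hE.1 hy a) e2
    have e4 : σ (T a b d) κ = κ := e0 ▸ not_not.1 fun e => Finset.mem_compl.1 hκ (hS.2 e)
    have e5 : σ (T a b d) ν ≠ ν := fun e => hμ (pf _ (fun a => by rw [← e3 a]; ring) e4 e)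
    have e6 := triv κ (g2 κ a b d h4 h5 h6 e4 fun p q s hn =>
      pf _ (fun a => by rw [← e3 a]; ring) (ds μ _ _ _ _ _ _ hn hμ) (ds ν _ _ _ _ _ _ hn e5))
    exact funext fun a => eq_inv_of_mul_eq_one_right (by simpa [e6] using e3 a)
  omega

theorem Cub.no12 (c : Cub ρ f) (h : MC φ) (hf : Function.Injective ρ) (h2 : (2 : k) ≠ 0) (h3 : (3 : k) ≠ 0) :
    False := by
  have hK := c.cen h hf h2 h3
  obtain ⟨a, b, d, x, g, h4, h5, h6, hx, x3, hg⟩ := h.exists_t (by omega) (hK 3 Nat.prime_three (by exact_mod_cast h3))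
  have r3 : ρ x ^ 3 = 1 := by rw [← map_pow, x3, map_one]
  obtain ⟨ω, ω1, ω3, v, -, v0, v1⟩ := exists_eig_ne (U := ⊤) (X := ρ x) (by simp) (m := 3) (by exact_mod_cast h3) r3 (by
    by_contra! H
    rw [show x = 1 from hf (LinearMap.ext fun v => by simpa using H v trivial), map_one] at hx
    exact h4 ((congrArg (· a) hx).trans (c3_1 h4 h6)))
  have hω : ω ^ 2 + ω + 1 = 0 := (mul_eq_zero.1 (show (ω - 1) * (ω ^ 2 + ω + 1) = 0 by
    linear_combination ω3)).resolve_left (sub_ne_zero.2 ω1)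
  obtain ⟨p, hp⟩ := fresh [a, b, d] (by simp)
  obtain ⟨q, hq⟩ := fresh [a, b, d, p] (by simp)
  obtain ⟨s, hs⟩ := fresh [a, b, d, p, q] (by simp)
  have i3 := root3_inj hω h3
  have e1 : ∀ j : Fin 3, j ≠ 0 → 8 * finrank k ((ρ x).eigenspace (ω ^ j.val)) ≤ 27 := fun j j0 =>
    h.eig_ind (by omega) hK h4 h5 h6 hx x3 hg (fun e => j0 (i3 (by simpa using e))) (B := id) (D := 27)
      (fun _ _ _ => le_rfl) (fun G _ π T V _ _ _ ρ h t hs' hd => (eight_le h t hs' (by simp) h2 h3 hω hd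
        (x := p) (y := q) (z := s) (by simp at hp hq hs ⊢; grind only) j0).1) 27 V ρ c.dim le_rfl
  have top : ⊤ ≤ ⨆ j ∈ (Finset.univ : Finset (Fin 3)), (ρ x).eigenspace (ω ^ j.val) := by
    rw [← iSup_wt (fun _ : Unit => ρ x) (fun _ _ => Commute.refl _) fun _ => ⟨3, by exact_mod_cast h3, r3⟩]
    refine iSup_le fun χ w hw => ?_
    by_cases w0 : w = 0
    · simp [w0]
    have := (Submodule.mem_iInf _).1 hw ()
    obtain ⟨j, hj⟩ := root3 hω (eig_pow (End.mem_eigenspace_iff.1 this) w0 r3)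
    exact Submodule.mem_iSup_of_mem j (Submodule.mem_iSup_of_mem (Finset.mem_univ _) (hj ▸ this))
  have e2 := finrank_le_sum _ _ top
  rw [Fin.sum_univ_three, finrank_top, c.dim] at e2
  have := c.bound v0 (X := (ρ x).eigenspace (ω ^ (0 : Fin 3).val)) (Y := (ρ x).eigenspace (ω ^ (2 : Fin 3).val))
    fun u hu H y => by
      refine (top.trans (iSup₂_le fun j _ y hy => ?_) : ⊤ ≤ LinearMap.ker (f v u)) trivial
      by_contra e
      have := c.eig v1 (End.mem_eigenspace_iff.1 hu) (End.mem_eigenspace_iff.1 hy) e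
      fin_cases j
      · exact ω1 (by simpa using this)
      · exact absurd (i3 (a₁ := 2) (a₂ := 0) (by simpa [sq] using this)) (by decide)
      · exact e (H y hy)
  have := e1 1 (by decide)
  have := e1 2 (by decide)
  omega

end Cfsg.Agent.H23.Wg
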