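import Mathlib
import Cfsg.Agent.H23.Ex5
import Cfsg.Agent.H7.Cub2
import Cfsg.Agent.H17.AltSecG
import Cfsg.Agent.H12.WeylE6

/-! Alternating sections of groups of type `E₆`. -/

set_option autoImplicit false
set_option linter.unusedSectionVars false
set_option linter.unusedVariables false
set_option maxRecDepth 100000

namespace Cfsg.Agent.H23.Wg

open Cfsg.Lie Cfsg.Agent.H12 Cfsg.Agent.H7.Cub Matrix Module

variable {F : Type*} [Field F]

variable (F) in
/-- the trilinear form -/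
def tri : (I27 → F) →ₗ[F] (I27 → F) →ₗ[F] (I27 → F) →ₗ[F] F where
  toFun v := LinearMap.mk₂ F (fun x y => ∑ k, y k * B k x v)
    (fun a b c => by rw [← Finset.sum_add_distrib]; exact Finset.sum_congr rfl fun k _ => by simp [B, M, H7.Cub.star]; ring)
    (fun a b c => by rw [Finset.smul_sum]; exact Finset.sum_congr rfl fun k _ => by simp [B, M, H7.Cub.star]; ring)
    (fun a b c => by simp [add_mul, Finset.sum_add_distrib])
    (fun a b c => by simp [Finset.mul_sum, mul_assoc])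
  map_add' v w := LinearMap.ext₂ fun x y => by
    simp only [LinearMap.mk₂_apply, LinearMap.add_apply, ← Finset.sum_add_distrib]
    exact Finset.sum_congr rfl fun k _ => by simp [B, M, H7.Cub.star]; ring
  map_smul' c v := LinearMap.ext₂ fun x y => by
    simp only [LinearMap.mk₂_apply, LinearMap.smul_apply, Finset.smul_sum]
    exact Finset.sum_congr rfl fun k _ => by simp [B, M, H7.Cub.star]; ring

theorem tri_apply (v x y : I27 → F) : tri F v x y = ∑ k, y k * B k x v := rfl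

theorem tri_e (v : I27 → F) (a k : I27) : tri F v (e a) (e k) = (th k a).2 * v (th k a).1 := by
  rw [tri_apply, Finset.sum_eq_single k (fun j _ hj => by simp [hj]) (by simp), B_e]; simp

theorem tri_rad {v : I27 → F} (hv : v ≠ 0) : finrank F (LinearMap.ker (tri F v)) ≤ 17 := by
  obtain ⟨c, hc⟩ := Function.ne_iff.1 hv
  have key : ∀ c a0, adj c a0 → ∃ k, (th k a0).1 = c ∧ (th k a0).2 ≠ 0 ∧
      ∀ a, adj c a → a ≠ a0 → (th k a).2 = 0 := by decide +kernel
  let g : LinearMap.ker (tri F v) →ₗ[F] ({a // ¬ adj c a} → F) :=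
    (LinearMap.funLeft F F Subtype.val).comp (Submodule.subtype _)
  have := LinearMap.finrank_le_finrank_of_injective (f := g) ((injective_iff_map_eq_zero g).2 fun x hx =>
    Subtype.ext (funext fun a0 => by_contra fun h0 => ?_))
  · rwa [Module.finrank_fintype_fun_eq_card, (show ∀ c, Fintype.card {a // ¬ adj c a} = 17 by decide +kernel) c] at this
  have h1 : ∀ a, ¬ adj c a → x.1 a = 0 := fun a ha => congrFun hx ⟨a, ha⟩
  obtain ⟨k, rfl, k2, k3⟩ := key c a0 (by_contra fun e => h0 (h1 _ e))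
  have h2 := congrArg (· (e k)) (LinearMap.mem_ker.1 x.2)
  rw [pi_eq_sum_univ' x.1] at h2
  simp only [map_sum, map_smul, LinearMap.sum_apply, LinearMap.smul_apply, LinearMap.zero_apply] at h2
  rw [Finset.sum_eq_single a0 (fun a _ ha => ?_) (by simp), tri_e] at h2
  · exact mul_ne_zero h0 (mul_ne_zero (th_ne k2) hc) h2
  · by_cases h3 : adj (th k a0).1 a
    · rw [tri_e, k3 a h3 ha]; simp
    · simp [h1 a h3]

variable (F) in
/-- diagonal matrices -/
def Dg : Subgroup (GL I27 F) where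
  carrier := {g | ∀ a, ∃ d, ∀ w, (g.1 *ᵥ w) a = d * w a}
  mul_mem' {g h} hg hh a := by
    obtain ⟨d, hd⟩ := hg a
    obtain ⟨d', hd'⟩ := hh a
    exact ⟨d * d', fun w => by rw [Units.val_mul, ← mulVec_mulVec, hd, hd', mul_assoc]⟩
  one_mem' a := ⟨1, by simp⟩
  inv_mem' {g} hg a := by
    obtain ⟨d, hd⟩ := hg a
    have h : ∀ w, w a = d * ((g⁻¹).1 *ᵥ w) a := fun w => by
      rw [← hd, mulVec_mulVec, Units.mul_inv, one_mulVec]
    refine ⟨d⁻¹, fun w => ?_⟩
    rw [h w, inv_mul_cancel_left₀ fun e0 => by simpa [e0] using h (e a)]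

theorem exists_diag {g : GL I27 F} (hg : g ∈ Dg F) : ∃ d, g.1 = diagonal d := by
  choose d hd using hg
  exact ⟨d, Matrix.ext fun i j => by simpa [diagonal_apply, Pi.single_apply] using hd i (e j)⟩

theorem H_le_Dg : (st F).H ≤ Dg F := by
  rw [(chev_nc (st F)).H_eq_closure, Subgroup.closure_le]
  rintro _ ⟨i, t, ht, rfl⟩ a
  have key : ∀ i a, let r := ((rsOf chevE6).simple i).1
      let s := ((rsOf chevE6).neg ((rsOf chevE6).simple i)).1
      (sg r a = 0 ∧ sg s a = 0) ∨ (sg s a = 0 ∧ sg r (src r a) = 0 ∧ src s (src r a) = a ∧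
        (sg r a = 1 ∧ sg s (src r a) = 1 ∨ sg r a = -1 ∧ sg s (src r a) = -1)) ∨
        (sg r a = 0 ∧ sg s (src s a) = 0 ∧ src r (src s a) = a ∧
        (sg s a = 1 ∧ sg r (src s a) = 1 ∨ sg s a = -1 ∧ sg r (src s a) = -1)) := by decide +kernel
  simp only [StSys.h, StSys.n, st, Units.val_mul, ← mulVec_mulVec, X_mulVec]
  rcases key i a with h | ⟨h1, h2, h3, h⟩ | ⟨h1, h2, h3, h⟩
  · exact ⟨1, fun w => by simp only [h]; simp⟩
  · exact ⟨t, fun w => by rcases h with h | h <;> simp only [h, h1, h2, h3] <;> simp <;> field_simp <;> ring⟩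
  · exact ⟨t⁻¹, fun w => by rcases h with h | h <;> simp only [h, h1, h2, h3] <;> simp <;> field_simp <;> ring⟩

theorem sum9 {R : Type*} [CommRing R] (x y : Fin 3 → R) (hx : x 2 = -x 0 - x 1) (hy : y 2 = -y 0 - y 1) {a b c d : R}
    (ha : a = x 0 ^ 2 + x 0 * x 1 + x 1 ^ 2) (hb : b = x 0 * x 1 * x 2)
    (hc : c = y 0 ^ 2 + y 0 * y 1 + y 1 ^ 2) (hd : d = y 0 * y 1 * y 2) :
    ∑ i, ∑ j, (x i - y j) ^ 2 = 6 * (a + c) ∧ ∑ i, ∑ j, (x i - y j) ^ 5 = 15 * (a * b - c * d) + 60 * (b * c - a * d) ∧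
    ∑ i, ∑ j, (x i - y j) ^ 10 = 3 * (2 * a ^ 5 + 15 * a ^ 2 * b ^ 2 + 2 * c ^ 5 + 15 * c ^ 2 * d ^ 2) +
      90 * (a * (2 * c ^ 4 + 8 * c * d ^ 2) + c * (2 * a ^ 4 + 8 * a * b ^ 2)) - 2520 * (b * c ^ 2 * d + d * a ^ 2 * b) +
      420 * (a ^ 2 * (2 * c ^ 3 + 3 * d ^ 2) + c ^ 2 * (2 * a ^ 3 + 3 * b ^ 2)) - 6300 * a * b * c * d := by
  simp only [Fin.sum_univ_three, ha, hb, hc, hd, hx, hy]
  refine ⟨by ring, by ring, by ring⟩

theorem chi_zero (χ : I27 → ZMod 11) (h : ∀ k a, (th k a).2 ≠ 0 → χ (th k a).1 + χ a + χ k = 0)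
    (h2 : Finset.univ.val.map χ = Finset.univ.val.map fun a => 2 * χ a) (a : I27) : χ a = 0 := by
  have h11 : (11 : ZMod 11) = 0 := rfl
  have t1 : ∀ i j l, χ (2, l, i) + χ (1, j, l) + χ (0, i, j) = 0 := fun i j l => by
    have := (show ∀ i j l : Fin 3, th (0, i, j) (1, j, l) = ((2, l, i), -1) by decide +kernel) i j l
    simpa [this] using h (0, i, j) (1, j, l)
  have t2 : ∀ c, χ (c, 2, 2) + χ (c, 1, 1) + χ (c, 0, 0) = 0 := fun c => by
    have := (show ∀ c : Fin 3, th (c, 0, 0) (c, 1, 1) = ((c, 2, 2), 1) by decide +kernel) c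
    simpa [this] using h (c, 0, 0) (c, 1, 1)
  obtain ⟨s, hs⟩ : ∃ s, s = 4 * (χ (2, 0, 0) + χ (2, 0, 1) + χ (2, 0, 2)) := ⟨_, rfl⟩
  let x : Fin 3 → ZMod 11 := fun i => s - χ (2, 0, i)
  let y : Fin 3 → ZMod 11 := fun i => s + χ (1, i, 0)
  let z : Fin 3 → ZMod 11 := fun i => y 0 - χ (1, 0, i)
  have e0 : ∀ i j, χ (0, i, j) = x i - y j := fun i j => by simp only [x, y]; linear_combination t1 i j 0
  have e2 : ∀ i j, χ (2, i, j) = z i - x j := fun i j => by simp only [z]; linear_combination t1 j 0 i - e0 j 0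
  have e1 : ∀ i j, χ (1, i, j) = y i - z j := fun i j => by linear_combination t1 0 i j - e0 0 i - e2 j 0
  have hx : x 2 = -x 0 - x 1 := by
    simp only [x]; linear_combination 3 * hs + (χ (2, 0, 0) + χ (2, 0, 1) + χ (2, 0, 2)) * h11
  have hy : y 2 = -y 0 - y 1 := by linear_combination hx - t2 0 + e0 0 0 + e0 1 1 + e0 2 2
  have hz : z 2 = -z 0 - z 1 := by linear_combination hy - t2 1 + e1 0 0 + e1 1 1 + e1 2 2
  have hp : ∀ n, ∑ a, χ a ^ n = ∑ i, ∑ j, (x i - y j) ^ n + ∑ i, ∑ j, (y i - z j) ^ n + ∑ i, ∑ j, (z i - x j) ^ n :=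
    fun n => by simp only [Fintype.sum_prod_type (α₁ := Fin 3), Fin.sum_univ_three (f := fun c => ∑ i, ∑ j, χ (c, i, j) ^ n), e0, e1, e2]
  let f : ZMod 11 → ℕ := fun c => (Finset.univ.val.map χ).count c
  have f1 : ∀ c, f (2 * c) = f c := fun c => by
    simp only [f]
    conv_lhs => rw [h2, ← Function.comp_def (2 * ·) χ, ← Multiset.map_map]
    exact Multiset.count_map_eq_count' _ _ (by decide) c
  have f2 : ∀ c, c ≠ 0 → f c = f 1 := fun c hc => by
    obtain ⟨i, -, rfl⟩ := (show ∀ c : ZMod 11, c ≠ 0 → ∃ i < 10, 2 ^ i = c by decide) c hc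
    clear hc
    induction i with
    | zero => rfl
    | succ i ih => rw [pow_succ', f1, ih]
  have f3 : ∀ {R : Type} [Semiring R] (g : ZMod 11 → R), ∑ a, g (χ a) = f 0 * g 0 + f 1 * ∑ c ∈ Finset.univ.erase 0, g c :=
    fun g => by
      rw [← Finset.sum_fiberwise_of_maps_to (t := Finset.univ) (g := χ) (by simp), ← Finset.add_sum_erase _ _ (Finset.mem_univ 0),
        Finset.mul_sum]
      have : ∀ c, ∑ a with χ a = c, g (χ a) = f c * g c := fun c => by
        rw [Finset.sum_congr rfl fun a ha => congrArg g (Finset.mem_filter.1 ha).2, Finset.sum_const, nsmul_eq_mul]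
        simp only [f, Multiset.count_map, eq_comm (a := c)]; rfl
      rw [this]
      exact congrArg _ (Finset.sum_congr rfl fun c hc => by rw [this, f2 c (Finset.ne_of_mem_erase hc)])
  have g0 := f3 (fun _ => (1 : ℕ))
  have g2 := f3 (· ^ 2)
  have g5 := f3 (· ^ 5)
  have g10 := f3 (· ^ 10)
  obtain ⟨a1, a2, a3⟩ := sum9 x y hx hy rfl rfl rfl rfl
  obtain ⟨b1, b2, b3⟩ := sum9 y z hy hz rfl rfl rfl rfl
  obtain ⟨c1, c2, c3⟩ := sum9 z x hz hx rfl rfl rfl rfl
  rw [hp, a1, b1, c1, show ∑ c ∈ Finset.univ.erase (0 : ZMod 11), c ^ 2 = 0 by decide] at g2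
  rw [hp, a2, b2, c2, show ∑ c ∈ Finset.univ.erase (0 : ZMod 11), c ^ 5 = 0 by decide] at g5
  rw [hp, a3, b3, c3, show ∑ c ∈ Finset.univ.erase (0 : ZMod 11), c ^ 10 = -1 by decide] at g10
  generalize x 0 ^ 2 + x 0 * x 1 + x 1 ^ 2 = A, x 0 * x 1 * x 2 = B, y 0 ^ 2 + y 0 * y 1 + y 1 ^ 2 = C,
    y 0 * y 1 * y 2 = D, z 0 ^ 2 + z 0 * z 1 + z 1 ^ 2 = E, z 0 * z 1 * z 2 = G at g2 g5 g10
  obtain rfl : E = -A - C := by linear_combination g2 - (A + C + E) * h11
  have g : (40 : ZMod 11) * (f 1 : ZMod 11) = 0 := by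
    linear_combination 40 * g10 - 7 * (15 * (A * B - C * D) + 60 * (B * C - A * D) + (15 * (C * D - (-A - C) * G) +
      60 * (D * (-A - C) - C * G)) + (15 * ((-A - C) * G - A * B) + 60 * (G * A - (-A - C) * B))) * g5
  have g' := (ZMod.natCast_eq_zero_iff _ _).1 ((show ∀ u : ZMod 11, 40 * u = 0 → u = 0 by decide) _ g)
  simp at g0
  by_contra ha
  have := Multiset.count_pos.2 (Multiset.mem_map_of_mem χ (Finset.mem_univ_val a))
  change 0 < f _ at this
  rw [f2 _ ha] at this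
  omega

theorem diag_eq_one {s : F} (h0 : s ≠ 0) (h1 : s ≠ 1) {x g y : GL I27 F} (hy : y ∈ E6univ F) (hD : y ∈ Dg F)
    (h11 : y ^ 11 = 1) (hg : g * y * g⁻¹ = y ^ 2) : y = 1 := by
  classical
  obtain ⟨d, hd⟩ := exists_diag hD
  have e1 : ∀ a, d a ^ 11 = 1 := fun a => by
    have := congrArg (fun u : GL I27 F => u.1 a a) h11
    simpa [Units.val_pow_eq_pow_val, hd, diagonal_pow] using this
  by_contra hne
  obtain ⟨a0, ha0⟩ : ∃ a, d a ≠ 1 := by
    by_contra! H
    exact hne (Units.ext (by rw [hd, funext H]; exact diagonal_one))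
  have : Fact (Nat.Prime 11) := ⟨by norm_num⟩
  have hζ : IsPrimitiveRoot (d a0) 11 := orderOf_eq_prime (e1 a0) ha0 ▸ IsPrimitiveRoot.orderOf _
  choose i hi hi' using fun a => hζ.eq_pow_of_pow_eq_one (e1 a)
  have e2 : ∀ n : ℕ, d a0 ^ (n : ZMod 11).val = d a0 ^ n := fun n => by
    rw [ZMod.val_natCast, hζ.eq_orderOf, pow_mod_orderOf]
  have e3 : Function.Injective fun c : ZMod 11 => d a0 ^ c.val := fun a b e =>
    ZMod.val_injective _ (hζ.pow_inj a.val_lt b.val_lt e)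
  have := chi_zero (fun a => (i a : ZMod 11)) (fun k a hk => e3 ?_) (Multiset.map_injective e3 ?_) a0
  · exact ha0 (by rw [← hi' a0, ← e2, this]; simp)
  · have := inv_B h0 h1 hy (e a) (e (th k a).1) (e k)
    have e4 : ∀ a, y.1 *ᵥ e a = d a • e a := fun a => by rw [hd, diagonal_mulVec_single, ← Pi.single_smul]; simp
    rw [← tri_apply, ← tri_apply, e4, e4, e4] at this
    simp only [map_smul, LinearMap.smul_apply, tri_e, Pi.single_eq_same, smul_eq_mul, mul_one] at this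
    simp only [← Nat.cast_add, e2, pow_add, hi', ZMod.val_zero, pow_zero]
    exact mul_right_cancel₀ (th_ne hk) (by linear_combination this)
  · have e4 := congrArg (fun u : GL I27 F => u.1.charpoly.roots) hg
    simp only [Units.val_mul, Units.val_pow_eq_pow_val, coe_units_inv, charpoly_units_conj, hd, diagonal_pow, charpoly_diagonal] at e4
    have e5 : ∀ u : I27 → F, (∏ a, (Polynomial.X - Polynomial.C (u a))).roots = Finset.univ.val.map u := fun u => by
      rw [← Polynomial.roots_multiset_prod_X_sub_C (Finset.univ.val.map u), Multiset.map_map]; rfl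
    rw [e5, e5] at e4
    simp only [Multiset.map_map, Function.comp_def, ← Nat.cast_ofNat (R := ZMod 11) (n := 2), ← Nat.cast_mul, e2, pow_mul', hi']
    exact e4

theorem exists_s [Finite F] (h : 2 < Nat.card F) : ∃ s : F, s ≠ 0 ∧ s ≠ 1 := by
  have := Fintype.ofFinite F
  obtain ⟨a, b, c, h1, h2, h3⟩ := Fintype.two_lt_card_iff.1 (Nat.card_eq_fintype_card (α := F) ▸ h)
  by_contra! H
  have : ∀ x : F, x = 0 ∨ x = 1 := fun x => (em _).imp_right (H x)
  rcases this a with rfl | rfl <;> rcases this b with rfl | rfl <;> rcases this c with rfl | rfl <;> contradiction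

theorem exists_pi {s : F} (h0 : s ≠ 0) (h1 : s ≠ 1) : ⨆ r, ((st F).restrict _ X_mem).U r = ⊤ ∧
    ∃ f : E6univ F →* chevE6.group F, ((st F).restrict _ X_mem).Hom (grpSt chevE6 F) f := by
  have top := (st F).restrict_top _ X_mem (le_G0 h0 h1)
  have : Nontrivial (E6univ F) := ⟨⟨⟨_, X_mem ⟨56, by decide⟩ 1⟩, 1, fun h => by
    have := X_mulVec ⟨56, by decide⟩ (1 : F) (e (0, 1, 0)) (0, 0, 0)
    rw [show X _ (1 : F) = 1 from congrArg Subtype.val h, show src 56 (0, 0, 0) = (0, 1, 0) by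
      decide +kernel, show sg 56 (0, 0, 0) = 1 by decide +kernel] at this
    simp at this⟩⟩
  exact ⟨top, H17.exists_hom_of_ne _ (der_of_mem5 (by simp)) top⟩

theorem no13 [Finite F] (h2 : 2 < Nat.card F) (hK : Nat.card F ≡ 1 [MOD 11]) {L : Subgroup (E6univ F)}
    {ψ : L →* alternatingGroup (Fin 13)} (hψ : Function.Surjective ψ) : False := by
  obtain ⟨s, h0, h1⟩ := exists_s h2
  obtain ⟨top, f, hf⟩ := exists_pi h0 h1
  have : Fact (Nat.Prime 11) := ⟨by norm_num⟩
  have hM := hf.nm grpNM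
  obtain ⟨S, s1, s2⟩ := H17.sylIn_grp (X := StSys.rgd (chev_nc _) hM) RGD.T_le_grp (H17.not_dvd_relIndex_T (l := 11)
    (fun r => by rw [StSys.rgd_U, StSys.card_U (chev_nc _) hM]; exact hK) (by rw [card_W_E6]; norm_num))
  rw [StSys.grp_eq, top] at s2
  have key : ∀ P : Subgroup L, IsPGroup 11 P → ∃ d : GL I27 F, d ∈ E6univ F ∧ ∀ x ∈ P, d * x.1.1 * d⁻¹ ∈ Dg F := fun P hP => by
    obtain ⟨d, -, d2⟩ := s2.exists_conj_mem (P := P.map L.subtype) le_top (hP.map _)
    refine ⟨d, d.2, fun x hx => H_le_Dg ?_⟩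
    exact ((st F).restrict_H _ X_mem).le (s1 (d2 _ ⟨x, hx, rfl⟩))
  obtain ⟨x, g, -, x1, x2, x3⟩ := exists_eigen hψ (l := 11) (c := 2)
    (a := ⟨List.formPerm [0, 1, 2, 3, 4, 5, 6, 7, 8, 9, 10], Equiv.Perm.mem_alternatingGroup.2 (by decide +kernel)⟩)
    (b := ⟨List.formPerm [1, 2, 4, 8, 5, 10, 9, 7, 3, 6] * Equiv.swap 11 12, Equiv.Perm.mem_alternatingGroup.2 (by decide +kernel)⟩)
    (fun e => absurd (congrArg Subtype.val e) (by decide +kernel)) (Subtype.ext (by decide +kernel))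
    (Subtype.ext (by decide +kernel)) fun P hP _ x hx y hy => by
      obtain ⟨d, -, hd⟩ := key P hP
      obtain ⟨u, hu⟩ := exists_diag (hd x hx)
      obtain ⟨v, hv⟩ := exists_diag (hd y hy)
      refine Subtype.ext (Subtype.ext ((MulAut.conj d).injective ?_))
      simp only [Subgroup.coe_mul, map_mul, MulAut.conj_apply]
      exact Units.ext (by rw [Units.val_mul, Units.val_mul (d * y.1.1 * d⁻¹), hu, hv, diagonal_mul_diagonal,
        diagonal_mul_diagonal]; simp only [mul_comm])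
  obtain ⟨d, d1, hd⟩ := key _ (H17.isPGroup_zpowers_of_pow x2)
  have := diag_eq_one h0 h1 (x := 1) (g := d * g.1.1 * d⁻¹) (mul_mem (mul_mem d1 x.1.2) (inv_mem d1)) (hd x (Subgroup.mem_zpowers x))
    (by rw [conj_pow, ← Subgroup.coe_pow, ← Subgroup.coe_pow, x2]; simp) (by
      rw [conj_pow, ← Subgroup.coe_pow, ← Subgroup.coe_pow, ← x3]; simp [mul_assoc])
  exact x1 (Subtype.ext (Subtype.ext (by simpa using this)))

theorem exists_MC {G : Type} [Group G] [Finite G] {r : ℕ} {ψ : G →* alternatingGroup (Fin r)} (hψ : Function.Surjective ψ) :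
    ∃ L : Subgroup G, MC (ψ.comp L.subtype) := by
  obtain ⟨L, l1, l2⟩ := exists_minimal_of_wellFoundedLT (fun L : Subgroup G => L.map ψ = ⊤)
    ⟨⊤, Subgroup.map_top_of_surjective _ hψ⟩
  exact ⟨L, fun a => by
      obtain ⟨x, h1, h2⟩ : a ∈ L.map ψ := l1 ▸ Subgroup.mem_top a
      exact ⟨⟨x, h1⟩, h2⟩, fun M hM => by
      rw [← Subgroup.map_map] at hM
      refine Subgroup.map_injective L.subtype_injective ?_
      rw [← MonoidHom.range_eq_map, Subgroup.range_subtype]
      exact le_antisymm (Subgroup.map_subtype_le _) (l2 hM (Subgroup.map_subtype_le _))⟩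

theorem no12' {K : Type} [Field K] [Finite K] (hK : 2 < Nat.card K) (h2 : (2 : K) ≠ 0) (h3 : (3 : K) ≠ 0)
    {L : Subgroup (E6univ K)} {ψ : L →* alternatingGroup (Fin 12)} (hψ : Function.Surjective ψ) : False := by
  obtain ⟨s, h0, h1⟩ := exists_s hK
  obtain ⟨N, hN⟩ := exists_MC hψ
  let k := AlgebraicClosure K
  let ι := algebraMap K k
  have hι : Function.Injective ι := ι.injective
  have hm : G0 K ≤ (E6univ k).comap (GeneralLinearGroup.map (n := I27) ι) := iSup_le fun r => (st K).U_le.2 fun t => by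
    refine Set.mem_of_eq_of_mem (y := X r (ι t)) (Units.ext (Matrix.ext fun i j => ?_)) (X_mem r (ι t))
    change ι ((1 + t • E K r) i j) = (1 + ι t • E k r) i j
    simp [E, one_apply, apply_ite ι]
  let ρ : N →* End k (I27 → k) := (toLinAlgEquiv' (R := k) (n := I27)).toMulEquiv.toMonoidHom.comp
    ((Units.coeHom _).comp ((GeneralLinearGroup.map ι).comp ((E6univ K).subtype.comp (L.subtype.comp N.subtype))))
  refine Cub.no12 (ρ := ρ) (f := tri k) ⟨fun g x y z => inv_B ((map_ne_zero ι).2 h0) (fun e => h1 (hι (e.trans (map_one ι).symm)))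
    (hm (le_G0 h0 h1 g.1.1.2)) y x z, fun v => tri_rad, by simp⟩ hN (fun a b e => Subtype.ext (Subtype.ext (Subtype.ext
      (Units.ext (Matrix.map_injective hι ((toLinAlgEquiv' (R := k) (n := I27)).injective e)))))) ?_ ?_
  exacts [map_ofNat ι 2 ▸ (map_ne_zero ι).2 h2, map_ofNat ι 3 ▸ (map_ne_zero ι).2 h3]

theorem e6_bound [Finite F] (p : ℕ) [hp : Fact p.Prime] [CharP F p] {H : Type*} [Group H] {j : H →* chevE6.group F}
    (hj : Function.Injective j) {N : Subgroup H} [N.Normal] {r : ℕ} (e : H ⧸ N ≃* alternatingGroup (Fin r)) :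
    r ≤ 11 + if p = 2 ∨ p = 3 then 1 else 0 := by
  have := Fintype.ofFinite F
  obtain ⟨k, -, hk⟩ := FiniteField.card F p
  let K := FiniteField.Extension F p 10
  have hK : Nat.card K = (p ^ (k : ℕ)) ^ 10 := by rw [FiniteField.natCard_extension, Nat.card_eq_fintype_card, hk]
  have h2 : 2 < Nat.card K := hK ▸ lt_of_lt_of_le (by norm_num) (Nat.pow_le_pow_left (Nat.one_lt_pow k.ne_zero hp.out.one_lt) 10)
  obtain ⟨s, h0, h1⟩ := exists_s h2
  obtain ⟨-, f, hf⟩ := exists_pi h0 h1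
  have key : ∀ m ≤ r, ∃ (L : Subgroup (E6univ K)) (ψ : L →* alternatingGroup (Fin m)), Function.Surjective ψ := fun m hm => by
    obtain ⟨M, φ, hφ⟩ := H17.exists_alt_sec hm e
    have hi : Function.Injective ((fieldHom chevE6 (algebraMap F K)).comp (j.comp M.subtype)) :=
      (fieldHom_injective _).comp (hj.comp Subtype.val_injective)
    exact ⟨_, φ.comp ((MonoidHom.ofInjective hi).symm.toMonoidHom.comp (f.subgroupComap _)), hφ.comp
      ((MonoidHom.ofInjective hi).symm.surjective.comp (f.subgroupComap_surjective_of_surjective _ (hf.surjective grpSt_top)))⟩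
  by_contra h
  split_ifs at h with h5
  · obtain ⟨L, ψ, hψ⟩ := key 13 (by omega)
    exact no13 h2 (hK ▸ H17.pow_modEq_one hp.out (by norm_num) (by omega) dvd_rfl) hψ
  · obtain ⟨L, ψ, hψ⟩ := key 12 (by omega)
    have : CharP K p := charP_of_injective_algebraMap (algebraMap F K).injective p
    have h6 : ∀ l : ℕ, l.Prime → (l : K) = 0 → p = l := fun l hl e =>
      (Nat.prime_dvd_prime_iff_eq hp.out hl).1 ((CharP.cast_eq_zero_iff K p l).1 e)
    exact no12' h2 (fun e => h5 (.inl (h6 2 Nat.prime_two e))) (fun e => h5 (.inr (h6 3 Nat.prime_three e))) hψ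

end Cfsg.Agent.H23.Wg
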