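import Mathlib
import Cfsg.Agent.H23.Ex5

/-! Clifford bounds in characteristic two, and local criteria for spin constituents. -/

set_option autoImplicit false
set_option linter.unusedSectionVars false
set_option linter.unusedVariables false

namespace Cfsg.Agent.H23.Wg

open Equiv Equiv.Perm Module

section Lin

variable {k V : Type*} [Field k] [AddCommGroup V] [Module k V] [FiniteDimensional k V]

theorem ev_two (h0 : (2 : k) = 0) (n : ℕ) : ((2 * n : ℕ) : End k V) = 0 := by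
  have := cast_end (k := k) (V := V) 2
  rw [Nat.cast_mul, show ((2 : ℕ) : End k V) = 0 by simpa [h0] using this, zero_mul]

theorem anP {A : Type*} [Ring A] {s : ℕ → A} {m : ℕ} (h1 : ∀ i < m, s i * s i = 1)
    (h2 : ∀ i < m, ∀ j < m, i ≠ j → s i * s j + s j * s i = 1) {j : ℕ} (hj : j < m) (N : ℕ) (hN : N ≤ m) :
    (∑ i ∈ Finset.range N, s i) * s j + s j * ∑ i ∈ Finset.range N, s i = ((if j < N then N + 1 else N : ℕ) : A) := by
  induction N with
  | zero => simp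
  | succ N ih =>
    rw [Finset.sum_range_succ, add_mul, mul_add, add_add_add_comm, ih (by omega)]
    by_cases e : N = j
    · subst e; simp [h1 N hj, add_assoc, one_add_one_eq_two]
    · rw [h2 N (by omega) j hj e]
      split_ifs <;> first | omega | simp

theorem sqP {A : Type*} [Ring A] {s : ℕ → A} {m : ℕ} (h1 : ∀ i < m, s i * s i = 1)
    (h2 : ∀ i < m, ∀ j < m, i ≠ j → s i * s j + s j * s i = 1) (N : ℕ) (hN : N ≤ m) :
    (∑ i ∈ Finset.range N, s i) * ∑ i ∈ Finset.range N, s i = ((N + 1).choose 2 : ℕ) := by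
  induction N with
  | zero => simp
  | succ N ih =>
    have := anP h1 h2 (j := N) (by omega) N (by omega)
    rw [if_neg (by omega)] at this
    rw [Finset.sum_range_succ, Nat.choose_succ_succ' (N + 1), Nat.choose_one_right]
    push_cast
    linear_combination (norm := noncomm_ring) ih (by omega) + this + h1 N (by omega)

variable [IsAlgClosed k]

theorem cl_twoN [Nontrivial V] (h0 : (2 : k) = 0) {n : ℕ} (s : ℕ → End k V) (h1 : ∀ i < 2 * n, s i * s i = 1)
    (h2 : ∀ i < 2 * n, ∀ j < 2 * n, i ≠ j → s i * s j + s j * s i = 1) : 2 ^ n ≤ finrank k V := by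
  have ev := ev_two (V := V) h0
  have two : (2 : End k V) = 0 := by simpa using ev 1
  let P : ℕ → End k V := fun i => ∑ l ∈ Finset.range (2 * i), s l
  have hP : ∀ i ≤ n, ∀ j < 2 * n, P i * s j + s j * P i = if j < 2 * i then 1 else 0 := fun i hi j hj => by
    rw [anP h1 h2 hj _ (by omega)]
    split_ifs
    · rw [Nat.cast_succ, ev, zero_add]
    · exact ev i
  have hPP : ∀ i ≤ n, ∀ j ≤ i, P i * P j + P j * P i = 0 := fun i hi j hj => by
    simp only [P]
    rw [Finset.mul_sum, Finset.sum_mul (f := s) (s := Finset.range (2 * j)), ← Finset.sum_add_distrib,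
      Finset.sum_congr rfl fun l hl => (hP i hi l (by simp at hl; omega)).trans (if_pos (by simp at hl; omega))]
    simpa using ev j
  refine clN (n := n) (fun i => s (2 * i) + s (2 * i + 1)) (fun i => s (2 * i + 1) + P i) 1 (fun i => ?_)
    (fun i j e => ?_) (fun i j e => ?_) (fun i j e => ?_) (fun i => ?_)
    fun i c v hv e e' => one_ne_zero (α := k) (by linear_combination e' + c * h0)
  · refine Function.LeftInverse.injective (g := (s (2 * i) + s (2 * i + 1) : End k V)) fun v => ?_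
    rw [← End.mul_apply, show (s (2 * i) + s (2 * i + 1)) * (s (2 * i) + s (2 * i + 1)) = 1 by
      linear_combination (norm := (noncomm_ring; norm_num)) h1 (2 * i) (by omega) + h1 (2 * i + 1) (by omega) +
        h2 (2 * i) (by omega) (2 * i + 1) (by omega) (by omega) + two, End.one_apply]
  · have := Fin.val_ne_iff.2 e
    linear_combination (norm := (noncomm_ring; norm_num)) h2 (2 * i) (by omega) (2 * j) (by omega) (by omega) +
      h2 (2 * i) (by omega) (2 * j + 1) (by omega) (by omega) + h2 (2 * i + 1) (by omega) (2 * j) (by omega) (by omega) +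
      h2 (2 * i + 1) (by omega) (2 * j + 1) (by omega) (by omega) + two * 2
  · have := Fin.val_ne_iff.2 e
    have a1 := hP j j.2.le (2 * i) (by omega)
    have a2 := hP j j.2.le (2 * i + 1) (by omega)
    have a3 := h2 (2 * i) (by omega) (2 * j + 1) (by omega) (by omega)
    have a4 := h2 (2 * i + 1) (by omega) (2 * j + 1) (by omega) (by omega)
    split_ifs at a1 a2 <;> try omega
    · linear_combination (norm := (noncomm_ring; norm_num)) a1 + a2 + a3 + a4 + two * 2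
    · linear_combination (norm := (noncomm_ring; norm_num)) a1 + a2 + a3 + a4 + two
  · have := Fin.val_ne_iff.2 e
    have a1 := hP j j.2.le (2 * i + 1) (by omega)
    have a2 := hP i i.2.le (2 * j + 1) (by omega)
    have a3 := h2 (2 * i + 1) (by omega) (2 * j + 1) (by omega) (by omega)
    have a4 : P i * P j + P j * P i = 0 := by
      rcases le_total i.1 j.1 with h | h
      exacts [(add_comm _ _).trans (hPP j j.2.le i h), hPP i i.2.le j h]
    split_ifs at a1 a2 <;> try omega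
    all_goals linear_combination (norm := (noncomm_ring; norm_num)) a1 + a2 + a3 + a4 + two
  · have a1 := hP i i.2.le (2 * i) (by omega)
    have a2 := hP i i.2.le (2 * i + 1) (by omega)
    rw [if_neg (by omega)] at a1 a2
    rw [one_smul]
    linear_combination (norm := noncomm_ring) a1 + a2 + h2 (2 * i) (by omega) (2 * i + 1) (by omega) (by omega) +
      two * (s (2 * i + 1) * s (2 * i + 1))

theorem cl_twoR [Nontrivial V] (h0 : (2 : k) = 0) {n : ℕ} (s : ℕ → End k V) (h1 : ∀ i < 4 * n + 3, s i * s i = 1)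
    (h2 : ∀ i < 4 * n + 3, ∀ j < 4 * n + 3, i ≠ j → s i * s j + s j * s i = 1) (x : End k V)
    (h3 : ∀ i < 4 * n + 3, x * s i + s i * x = s i + 1) : 2 ^ (2 * n + 2) ≤ finrank k V := by
  have ev := ev_two (V := V) h0
  obtain ⟨r, hr⟩ : ∃ r, r = ∑ l ∈ Finset.range (4 * n + 3), s l := ⟨_, rfl⟩
  have r1 : r * r = 0 := by
    rw [hr, sqP h1 h2 _ le_rfl, show (4 * n + 3 + 1).choose 2 = 2 * ((n + 1) * (4 * n + 3)) by
      rw [Nat.choose_two_right, Nat.div_eq_iff_eq_mul_left two_pos ⟨2 * (n + 1) * (4 * n + 3), by simp; ring⟩]; simp; ring, ev]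
  have r2 : ∀ j < 4 * n + 3, r * s j = -(s j * r) := fun j hj => by
    rw [eq_neg_iff_add_eq_zero, hr, anP h1 h2 hj _ le_rfl, if_pos hj, ← ev (2 * n + 2)]; congr 1; ring
  have r3 : x * r + r * x = r + 1 := by
    rw [hr, Finset.mul_sum, Finset.sum_mul, ← Finset.sum_add_distrib, Finset.sum_congr rfl fun l hl => h3 l (by simpa using hl),
      Finset.sum_add_distrib, Finset.sum_const, Finset.card_range, nsmul_one, show 4 * n + 3 = 2 * (2 * n + 1) + 1 by ring,
      Nat.cast_succ, ev, zero_add]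
  have hU : ∀ j, ∀ v ∈ LinearMap.ker r, (if j < 4 * n + 3 then s j else 1) v ∈ LinearMap.ker r := fun j v hv => by
    split_ifs with h
    · rw [LinearMap.mem_ker, ← End.mul_apply, r2 j h, LinearMap.neg_apply, End.mul_apply, LinearMap.mem_ker.1 hv]; simp
    · exact hv
  have : Nontrivial (LinearMap.ker r) := Submodule.nontrivial_iff_ne_bot.2 fun e => by
    obtain ⟨v, v0⟩ := exists_ne (0 : V)
    have i := LinearMap.ker_eq_bot.1 e
    exact v0 (i (i ((congrArg (· v) r1).trans (by simp))))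
  have e1 := cl_twoN h0 (n := 2 * n + 1) (fun j => LinearMap.restrict _ (hU j)) (fun i hi => LinearMap.ext fun v =>
    Subtype.ext (by simpa [if_pos (show i < 4 * n + 3 by omega)] using congrArg (· v.1) (h1 i (by omega))))
    fun i hi j hj e => LinearMap.ext fun v => Subtype.ext (by
      simpa [if_pos (show i < 4 * n + 3 by omega), if_pos (show j < 4 * n + 3 by omega)] using
        congrArg (· v.1) (h2 i (by omega) j (by omega) e))
  have e2 := r.finrank_range_add_finrank_ker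
  have e3 := Submodule.finrank_mono (show LinearMap.ker r ≤ LinearMap.range r from fun v hv =>
    ⟨x v, by simpa [LinearMap.mem_ker.1 hv] using congrArg (· v) r3⟩)
  rw [pow_succ]
  omega

end Lin

universe u v

variable {α : Type} [Fintype α] [DecidableEq α] {G : Type u} [Group G] {π : G →* Perm α}
  {k : Type*} {V : Type v} [Field k] [AddCommGroup V] [Module k V] [FiniteDimensional k V] {ρ : G →* End k V}
  {T : α → α → α → G} {ω : k} [IsAlgClosed k]

/-- lower bounds for spin modules -/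
def SpB (k : Type*) [Field k] (n d : ℕ) : Prop :=
  (11 ≤ n → 16 ≤ d) ∧ (14 ≤ n → (7 : k) ≠ 0 → 64 ≤ d) ∧ (15 ≤ n → 64 ≤ d) ∧ (18 ≤ n → 256 ≤ d)

theorem Fpf.big [Nontrivial V] (hq : Fpf ρ T) (h : CE π) (t : TS π T) (hs : SC π ρ) (h3 : (3 : k) ≠ 0) :
    SpB k (Fintype.card α) (finrank k V) := by
  have a1 : 11 ≤ Fintype.card α → 16 ≤ finrank k V := fun hc =>
    Wg.cliff h t hs (hq.nt h t h3 (by omega)) h3 (.inr hc) hq
  by_cases h2 : (2 : k) = 0
  · have two : (2 : End k V) = 0 := by simpa using ev_two (V := V) h2 1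
    have key : ∀ n, 4 * n + 6 ≤ Fintype.card α → 2 ^ (2 * n + 2) ≤ finrank k V := fun n hn => by
      obtain ⟨x, x1, x2⟩ := hq.gens h t hs h3 (by omega) (m := 4 * n + 3 + 1) hn
      let y : ℕ → Fin (4 * n + 3 + 1) := fun i => Fin.ofNat _ (i + 1)
      have y1 : ∀ i < 4 * n + 3, (y i).1 = i + 1 := fun i hi => Nat.mod_eq_of_lt (by omega)
      have y0 : ∀ i < 4 * n + 3, y i ≠ 0 := fun i hi e => by simpa [e] using y1 i hi
      refine cl_twoR h2 (fun i => x (y i) + x 0) (fun i hi => ?_) (fun i hi j hj e => ?_) (x 0) fun i hi => ?_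
      · linear_combination (norm := (noncomm_ring; norm_num)) x1 (y i) + x1 0 + x2 (y i) 0 (y0 i hi) - two * (x (y i) + x 0 + 2)
      · linear_combination (norm := (noncomm_ring; norm_num)) x2 (y i) (y j) (fun e' => e (by
          have := y1 i hi; have := y1 j hj; grind only)) + x2 (y i) 0 (y0 i hi) + x2 (y j) 0 (y0 j hj) +
          two * (x 0 * x 0 - x (y i) - x (y j) - x 0 - 2)
      · linear_combination (norm := noncomm_ring) x2 (y i) 0 (y0 i hi) + two * (x 0 * x 0 - x (y i) - x 0 - 1)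
    exact ⟨a1, fun hc _ => key 2 hc, fun hc => key 2 (by omega), key 3⟩
  have c := fun m n (a : 5 ≤ Fintype.card α) => hq.cliff h t hs h2 h3 a (m := m) (n := n)
  have a2 : 14 ≤ Fintype.card α → (7 : k) ≠ 0 → 64 ≤ finrank k V := fun hc h7 => c 12 6 (by omega) hc
    (fun e => mul_ne_zero h2 h7 (by push_cast at e; linear_combination e)) le_rfl
  refine ⟨a1, a2, fun hc => ?_, fun hc => c 16 8 (by omega) hc (fun e => mul_ne_zero h2 (mul_ne_zero h3 h3)
    (by push_cast at e; linear_combination e)) le_rfl⟩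
  by_cases h7 : (7 : k) = 0
  · exact c 13 6 (by omega) hc (fun e => one_ne_zero (α := k) (by push_cast at e; linear_combination e - 2 * h7)) (by omega)
  · exact a2 (by omega) h7

/-- the largest subspace on which the three-cycles supported on `S` have no fixed vectors -/
def Zs (ρ : G →* End k V) (T : α → α → α → G) (S : Set α) : Submodule k V :=
  ⨅ (x ∈ S) (y ∈ S) (z ∈ S) (_ : x ≠ y ∧ x ≠ z ∧ y ≠ z), W3 ρ (T x y z)

theorem mem_Zs {S : Set α} {v : V} :
    v ∈ Zs ρ T S ↔ ∀ x ∈ S, ∀ y ∈ S, ∀ z ∈ S, x ≠ y ∧ x ≠ z ∧ y ≠ z → v ∈ W3 ρ (T x y z) := by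
  simp only [Zs, Submodule.mem_iInf]

theorem Zs_inv (t : TS π T) {S : Set α} {g : G} (hg : ∀ x, x ∉ S → π g x = x) : ∀ v ∈ Zs ρ T S, ρ g v ∈ Zs ρ T S :=
  fun v hv => mem_Zs.2 fun x hx y hy z hz hn => by
    have m : ∀ x ∈ S, (π g).symm x ∈ S := fun x hx => by_contra fun e => e (by
      rwa [← hg _ e, Equiv.apply_symm_apply])
    have i := (π g).symm.injective
    simpa using t.W_eqv g (i.ne hn.1) (i.ne hn.2.1) (i.ne hn.2.2)
      (mem_Zs.1 hv _ (m x hx) _ (m y hy) _ (m z hz) ⟨i.ne hn.1, i.ne hn.2.1, i.ne hn.2.2⟩)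

theorem Zs_bound {β : Type} [Fintype β] [DecidableEq β] (h : CE π) (t : TS π T) (hs : SC π ρ) (h3 : (3 : k) ≠ 0)
    (f : β ↪ α) {U : Submodule k V} (hU : ∀ g, (∀ x, x ∉ Set.range f → π g x = x) → ∀ v ∈ U, ρ g v ∈ U) {v : V}
    (v0 : v ≠ 0) (v1 : v ∈ U ⊓ Zs ρ T (Set.range f)) :
    SpB k (Fintype.card β) (finrank k ↥(U ⊓ Zs ρ T (Set.range f))) := by
  obtain ⟨L, π', ρ', T', h', t', hs', r1, r2⟩ := exists_sub h t hs f (U ⊓ Zs ρ T (Set.range f)) fun g hg u hu =>
    ⟨hU g hg u hu.1, Zs_inv t hg u hu.2⟩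
  have : Nontrivial ↥(U ⊓ Zs ρ T (Set.range f)) := nontrivial_of_ne ⟨v, v1⟩ 0 fun e => v0 (congrArg Subtype.val e)
  refine Fpf.big (fun {a b c} h1 h2 h3 => LinearMap.ext fun u => Subtype.ext ?_) h' t' hs' h3
  have := mem_W3.1 (mem_Zs.1 u.2.2 _ ⟨a, rfl⟩ _ ⟨b, rfl⟩ _ ⟨c, rfl⟩ ⟨f.injective.ne h1, f.injective.ne h2, f.injective.ne h3⟩)
  simpa [sq, r1, r2 _ _ _ h1 h2 h3] using this

variable {s : ℕ} {e : Fin s × Fin 3 ↪ α}

/-- joint eigenspaces -/
def Ej (ρ : G →* End k V) (T : α → α → α → G) (e : Fin s × Fin 3 ↪ α) (ω : k) (S : Finset (Fin s))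
    (w : Fin s → Fin 3) : Submodule k V := ⨅ i ∈ S, (ρ (Tb T e i)).eigenspace (ω ^ (w i).val)

theorem mem_Ej {S : Finset (Fin s)} {w : Fin s → Fin 3} {v : V} :
    v ∈ Ej ρ T e ω S w ↔ ∀ i ∈ S, v ∈ (ρ (Tb T e i)).eigenspace (ω ^ (w i).val) := by
  simp only [Ej, Submodule.mem_iInf]

theorem Ej_of_wt {S : Finset (Fin s)} {w w' : Fin s → Fin 3} {v : V} (hv : v ∈ Wt ρ T e ω w') (h : ∀ i ∈ S, w' i = w i) :
    v ∈ Ej ρ T e ω S w := mem_Ej.2 fun i hi => End.mem_eigenspace_iff.2 (h i hi ▸ mem_Wt.1 hv i)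

theorem TS.Ej_bb (t : TS π T) (S : Finset (Fin s)) (w : Fin s → Fin 3) (j : Fin s) :
    ∀ u ∈ Ej ρ T e ω S w, ρ (Tb T e j) u ∈ Ej ρ T e ω S w :=
  fun u hu => mem_Ej.2 fun i hi => t.bb_eig i j _ u (mem_Ej.1 hu i hi)

theorem TS.Ej_inv (t : TS π T) {S : Finset (Fin s)} (w : Fin s → Fin 3) {g : G} (hg : ∀ i ∈ S, ∀ l, π g (e (i, l)) = e (i, l)) :
    ∀ u ∈ Ej ρ T e ω S w, ρ g u ∈ Ej ρ T e ω S w :=
  fun u hu => mem_Ej.2 fun i hi => t.b_eig (hg i hi) _ u (mem_Ej.1 hu i hi)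

theorem Ej_wt (hω : ω ^ 2 + ω + 1 = 0) (h3 : (3 : k) ≠ 0) {S : Finset (Fin s)} {w w' : Fin s → Fin 3} {v : V}
    (h1 : v ∈ Ej ρ T e ω S w) (h2 : v ∈ Wt ρ T e ω w') (v0 : v ≠ 0) : ∀ i ∈ S, w' i = w i :=
  fun i hi => wt_of_eig hω h3 h2 v0 (mem_Ej.1 h1 i hi)

theorem exists_pts (e : Fin s × Fin 3 ↪ α) (S : Finset (Fin s)) : ∃ L : List α, L.Nodup ∧ L.length = 3 * S.card ∧
    ∀ x, x ∈ L ↔ ∃ i ∈ S, ∃ l, e (i, l) = x :=
  ⟨((S ×ˢ Finset.univ).map e).toList, Finset.nodup_toList _, by simp [mul_comm], by simp⟩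

theorem low_Ej (h : CE π) (t : TS π T) (hs : SC π ρ) (h3 : (3 : k) ≠ 0) (hω : ω ^ 2 + ω + 1 = 0) (hs3 : 3 ≤ s)
    (S : Finset (Fin s)) (hS : 3 * S.card + 9 ≤ Fintype.card α) (w : Fin s → Fin 3) {j : Fin s} (hj : j ∉ S)
    (w0 : w j ≠ 0) (H : Mw ρ T e ω (nz w) ≠ 0) : bd k (Fintype.card α - 3 * S.card) ≤ ∑ j ∈ Finset.range (s + 1),
      (Finset.univ.filter fun w' => (∀ i ∈ S, w' i = w i) ∧ nz w' = j).card * Mw ρ T e ω j := by
  obtain ⟨L, l1, l2, l3⟩ := exists_pts e S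
  obtain ⟨v, v1, v0⟩ := Mw_pos h t hω hs3 w rfl H
  have hc : Fintype.card {x // x ∉ L.toFinset} = Fintype.card α - 3 * S.card := by
    rw [card_compl, List.toFinset_card_of_nodup l1, l2]
  have hU : ∀ g, (∀ a ∈ L, π g a = a) → ∀ v ∈ Ej ρ T e ω S w, ρ g v ∈ Ej ρ T e ω S w := fun g hg =>
    t.Ej_inv w fun i hi l => hg _ ((l3 _).2 ⟨i, hi, l, rfl⟩)
  have nj : ∀ l, e (j, l) ∉ L := fun l hl => by
    obtain ⟨i, hi, l', e1⟩ := (l3 _).1 hl
    exact hj ((show i = j from congrArg Prod.fst (e.injective e1)) ▸ hi)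
  have := (low_all (k := k) (hc.symm ▸ show 9 ≤ Fintype.card α - 3 * S.card by omega)).use' _ h hs _
    (fun g hg => hU g fun a ha => hg a (List.mem_toFinset.2 ha)) (g := Tb T e j) (fun x hx => by
      obtain ⟨i, hi, l, rfl⟩ := (l3 _).1 (List.mem_toFinset.1 hx)
      exact t.b_fix (fun e : i = j => hj (e ▸ hi)) l)
    (t.two_eig h h3 hω L (by omega) (eb e j).1 (eb e j).2.1 (eb e j).2.2 (nj 0) (nj 1) (nj 2) hU
      ⟨v, Ej_of_wt v1 fun _ _ => rfl, ne_of_eig hω h3 v0 w0 (mem_Wt.1 v1 j)⟩).2.2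
  rw [hc] at this
  exact this.trans (le_sum_wt h t hω h3 hs3 _ (fun w' v => Ej_wt hω h3) (t.Ej_bb S w))

theorem blk_fpf (h : CE π) (t : TS π T) (h3 : (3 : k) ≠ 0) (hω : ω ^ 2 + ω + 1 = 0) (hs3 : 3 ≤ s)
    (S : Finset (Fin s)) (hS : 3 * S.card + 5 ≤ Fintype.card α) (w : Fin s → Fin 3) {j : Fin s} (hj : j ∉ S)
    (H : ∀ w', (∀ i ∈ S, w' i = w i) → w' j = 0 → Mw ρ T e ω (nz w') = 0) {x y z : α} (h1 : x ≠ y) (h2 : x ≠ z)
    (h4 : y ≠ z) (hx : ∀ i ∈ S, ∀ l, e (i, l) ∉ [x, y, z]) : ∀ v ∈ Ej ρ T e ω S w, v ∈ W3 ρ (T x y z) := by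
  obtain ⟨L, l1, l2, l3⟩ := exists_pts e S
  obtain ⟨g, hg⟩ := h.trans ([e (j, 0), e (j, 1), e (j, 2)] ++ L) ([x, y, z] ++ L)
    (List.nodup_append.2 ⟨by simp, l1, fun a ha b hb e1 => by
      obtain ⟨i, hi, l, rfl⟩ := (l3 _).1 hb
      simp only [List.mem_cons, List.not_mem_nil, or_false] at ha
      rcases ha with rfl | rfl | rfl <;> exact hj ((show j = i from congrArg Prod.fst (e.injective e1)) ▸ hi)⟩)
    (List.nodup_append.2 ⟨by simp [h1, h2, h4], l1, fun a ha b hb e1 => by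
      obtain ⟨i, hi, l, rfl⟩ := (l3 _).1 hb
      exact hx i hi l (e1 ▸ ha)⟩) (by simp) (by simp; omega)
  rw [List.map_append] at hg
  obtain ⟨g1, g2⟩ := List.append_inj hg (by simp)
  simp only [List.map_cons, List.map_nil, List.cons.injEq, and_true] at g1
  obtain ⟨rfl, rfl, rfl⟩ := g1
  intro v hv
  have e1 := t.Ej_inv w (g := g⁻¹) (fun i hi l => by
    rw [map_inv, Perm.inv_def, Equiv.symm_apply_eq]
    exact ((List.map_inj_left (g := id)).1 (g2.trans (List.map_id L).symm) _ ((l3 _).2 ⟨i, hi, l, rfl⟩)).symm) v hv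
  have := t.W_eqv g (eb e j).1 (eb e j).2.1 (eb e j).2.2 (v := ρ g⁻¹ v) (mem_W3.2 (fix_of_wt t hω h3 (t.Ej_bb S w)
    (ρ (Tb T e j) * ρ (Tb T e j) + ρ (Tb T e j) + 1) (fun w' x h1 h2 => by
      by_cases x0 : x = 0
      · simp [x0]
      exact W3_of_eig hω (fun e => x0 (Mw_zero h t hω hs3 (H w' (Ej_wt hω h3 h1 h2 x0) e) h2)) (mem_Wt.1 h2 j)) _ e1))
  rwa [r_inv'] at this

theorem exists_free (e : Fin s × Fin 3 ↪ α) (x y z : α) (A : Finset (Fin s)) {n : ℕ} (h : n + 3 ≤ A.card) :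
    ∃ S ⊆ A, S.card = n ∧ ∀ i ∈ S, ∀ l, e (i, l) ∉ [x, y, z] := by
  let B := (Finset.univ.filter fun p => e p ∈ [x, y, z]).image Prod.fst
  have hB : B.card ≤ 3 := Finset.card_image_le.trans ((Finset.card_le_card_of_injOn (t := [x, y, z].toFinset) e
    (fun p hp => by simpa using hp) e.injective.injOn).trans (List.toFinset_card_le _))
  obtain ⟨S, s1, s2⟩ := Finset.exists_subset_card_eq (s := A \ B) (n := n) (by have := Finset.le_card_sdiff B A; omega)
  exact ⟨S, s1.trans Finset.sdiff_subset, s2, fun i hi l hl => (Finset.mem_sdiff.1 (s1 hi)).2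
    (Finset.mem_image.2 ⟨(i, l), by simpa using hl, rfl⟩)⟩

theorem nz_bds {S A : Finset (Fin s)} {w : Fin s → Fin 3} (h1 : ∀ i ∈ S, w i ≠ 0) (h2 : ∀ i ∈ A, w i = 0) :
    S.card ≤ nz w ∧ nz w + A.card ≤ s := by
  refine ⟨Finset.card_le_card fun i hi => by simpa using h1 i hi, ?_⟩
  rw [nz, ← Finset.card_union_of_disjoint (Finset.disjoint_left.2 fun i a b => by simp [h2 i b] at a)]
  exact (Finset.card_le_univ _).trans (by simp)

end Cfsg.Agent.H23.Wg
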