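import Mathlib
import Cfsg.Agent.H23.Ex7

/-! Projective representations of degree at most `248` of the alternating group of degree `18`. -/

set_option autoImplicit false
set_option linter.unusedSectionVars false
set_option linter.unusedVariables false
set_option maxRecDepth 100000

namespace Cfsg.Agent.H23.Wg

open Equiv Equiv.Perm Module

theorem sum_ev {n : ℕ} {c F : ℕ → ℕ} (L : List ℕ) (h : ∀ j ∈ Finset.range n, c j = L.getD j 0) :
    ∑ j ∈ Finset.range n, c j * F j = ∑ j ∈ Finset.range n, L.getD j 0 * F j :=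
  Finset.sum_congr rfl fun j hj => by rw [h j hj]

theorem exists_omega (k : Type*) [Field k] [IsAlgClosed k] : ∃ ω : k, ω ^ 2 + ω + 1 = 0 := by
  obtain ⟨ω, hω⟩ := IsAlgClosed.exists_root (Polynomial.X ^ 2 + Polynomial.X + 1 : Polynomial k)
    (by rw [show (Polynomial.X ^ 2 + Polynomial.X + 1 : Polynomial k).degree = 2 by compute_degree!]; decide)
  exact ⟨ω, by simpa using hω⟩

universe u v

section
variable {α : Type} [Fintype α] [DecidableEq α] {G : Type u} [Group G] {π : G →* Perm α}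
  {k : Type*} {V : Type v} [Field k] [AddCommGroup V] [Module k V] [FiniteDimensional k V] {ρ : G →* End k V}
  {T : α → α → α → G} {ω : k} [IsAlgClosed k]

theorem nat18 {e : Fin 6 × Fin 3 ↪ α} (h : CE π) (t : TS π T) (hs : SC π ρ) (hc : Fintype.card α = 18)
    (h3 : (3 : k) ≠ 0) (hω : ω ^ 2 + ω + 1 = 0) (hd : finrank k V ≤ 248) :
    Mw ρ T e ω 3 = 0 ∧ Mw ρ T e ω 4 = 0 ∧ Mw ρ T e ω 5 = 0 ∧ Mw ρ T e ω 6 = 0 := by
  have s3 : 3 ≤ 6 := by omega
  have tot := sum_wt_le (ρ := ρ) (e := e) h t hω h3 s3 (fun _ => True) (U := ⊤) (by simp) (by simp)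
  have a1 := low_Ej (e := e) h t hs h3 hω s3 {0, 1, 2} (by simp [hc]) ![1, 1, 0, 1, 0, 0] (j := 3) (by decide) (by decide)
  have a2 := low_Ej (e := e) h t hs h3 hω s3 {0, 1, 2} (by simp [hc]) ![1, 1, 1, 1, 0, 0] (j := 3) (by decide) (by decide)
  rw [sum_ev [1, 12, 60, 160, 240, 192, 64] (by decide +kernel), finrank_top] at tot
  rw [sum_ev [0, 0, 1, 6, 12, 8, 0] (by decide +kernel)] at a1
  rw [sum_ev [0, 0, 0, 1, 6, 12, 8] (by decide +kernel)] at a2
  rw [hc, show 18 - 3 * Finset.card ({0, 1, 2} : Finset (Fin 6)) = 9 from rfl, bd,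
    if_neg (by rw [show ((9 : ℕ) : k) = 3 * 3 by norm_num]; exact mul_ne_zero h3 h3)] at a1 a2
  simp only [Finset.sum_range_succ, Finset.sum_range_zero, List.getD_cons_zero, List.getD_cons_succ] at tot a1 a2
  change Mw ρ T e ω 3 ≠ 0 → _ at a1
  change Mw ρ T e ω 4 ≠ 0 → _ at a2
  have m3 : Mw ρ T e ω 3 = 0 := by_contra fun H => by
    have := a1 H
    have : Mw ρ T e ω 3 = 1 ∧ Mw ρ T e ω 4 = 0 ∧ Mw ρ T e ω 5 = 0 := by omega
    omega
  have m4 : Mw ρ T e ω 4 = 0 := by_contra fun H => by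
    have := a2 H
    have : Mw ρ T e ω 4 = 1 ∧ Mw ρ T e ω 5 = 0 ∧ Mw ρ T e ω 6 = 0 := by omega
    omega
  have m5 : Mw ρ T e ω 5 = 0 := by
    by_contra H
    have m2 : Mw ρ T e ω 2 = 0 := by omega
    let w : Fin 6 → Fin 3 := ![0, 1, 1, 1, 1, 1]
    obtain ⟨v, v1, v0⟩ := Mw_pos h t hω s3 w rfl H
    let f : Fin 5 × Fin 3 ↪ α := (Function.Embedding.prodMap (Fin.succEmb 5) (Function.Embedding.refl _)).trans e
    have n0 : ∀ l, e (0, l) ∉ Set.range f := fun l ⟨x, hx⟩ => Fin.succ_ne_zero _ (congrArg Prod.fst (e.injective hx))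
    have := (Zs_bound h t hs h3 f (U := Ej ρ T e ω {0} w) (fun g hg => t.Ej_inv w fun i hi l => by
      rw [Finset.mem_singleton.1 hi]; exact hg _ (n0 l)) v0 ⟨Ej_of_wt v1 fun _ _ => rfl, mem_Zs.2 fun x hx y hy z hz hn => by
        obtain ⟨S, s1, s2, s4⟩ := exists_free e x y z (Finset.univ.erase 0) (n := 2) (by simp)
        have s0 : 0 ∉ S := fun e => by simpa using s1 e
        obtain ⟨j, -, hj⟩ := Finset.exists_mem_notMem_of_card_lt_card (s := insert 0 S) (t := Finset.univ) (by simp [s0, s2])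
        refine blk_fpf h t h3 hω s3 (insert 0 S) (by simp [s0, s2, hc]) w hj (fun w' e1 e2 => ?_) hn.1 hn.2.1 hn.2.2
          (fun i hi l hl => ?_) v (Ej_of_wt v1 fun _ _ => rfl)
        · have := nz_bds (S := S) (A := {0, j}) (w := w') (fun i hi => by
            rw [e1 i (Finset.mem_insert_of_mem hi)]
            exact (by decide : ∀ i, i ≠ 0 → w i ≠ 0) i (Finset.ne_of_mem_erase (s1 hi))) (by simp [e2, e1, w])
          rw [Finset.card_pair fun e => hj (by simp [← e])] at this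
          obtain e | e | e : nz w' = 2 ∨ nz w' = 3 ∨ nz w' = 4 := by omega
          all_goals rwa [e]
        · rcases Finset.mem_insert.1 hi with rfl | hi
          · simp only [List.mem_cons, List.not_mem_nil, or_false] at hl
            rcases hl with e | e | e <;> exact n0 l (e ▸ ‹_›)
          · exact s4 i hi l hl⟩).2.2.1 (by simp)
    have b1 := le_sum_wt (e := e) h t hω h3 s3 (fun w' => w' 0 = 0 ∧ ∀ i : Fin 5, w' i.succ ≠ 0)
      (U := Ej ρ T e ω {0} w ⊓ Zs ρ T (Set.range f)) (fun w' u u1 u2 u0 => ⟨Ej_wt hω h3 u1.1 u2 u0 0 (by simp), fun i e1 =>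
        u0 (W3_fix h3 (mem_Zs.1 u1.2 _ ⟨(i, 0), rfl⟩ _ ⟨(i, 1), rfl⟩ _ ⟨(i, 2), rfl⟩ (eb e i.succ))
          ((mem_Wt.1 u2 i.succ).trans (by simp [e1])))⟩) fun i u hu => ⟨t.Ej_bb _ _ i u hu.1, by
            induction i using Fin.cases with
            | zero => rw [show ρ (Tb T e 0) u = u by simpa [w] using mem_Ej.1 hu.1 0 (by simp)]; exact hu.2
            | succ i => exact Zs_inv t (fun x hx => by
                rw [t.b_pi, c3_o] <;> rintro rfl <;> exact hx ⟨(i, _), rfl⟩) u hu.2⟩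
    rw [sum_ev [0, 0, 0, 0, 0, 32, 0] (by decide +kernel)] at b1
    simp only [Finset.sum_range_succ, Finset.sum_range_zero, List.getD_cons_zero, List.getD_cons_succ] at b1
    omega
  refine ⟨m3, m4, m5, by_contra fun H => ?_⟩
  obtain ⟨v, v1, v0⟩ := Mw_pos h t hω s3 (fun _ => 1) rfl H
  have := (Zs_bound h t hs h3 (Function.Embedding.refl α) (U := ⊤) (by simp) v0 ⟨trivial, mem_Zs.2 fun x _ y _ z _ hn => by
    obtain ⟨S, s1, s2, s4⟩ := exists_free e x y z Finset.univ (n := 3) (by simp)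
    obtain ⟨j, -, hj⟩ := Finset.exists_mem_notMem_of_card_lt_card (s := S) (t := Finset.univ) (by simp [s2])
    refine blk_fpf h t h3 hω s3 S (by simp [s2, hc]) (fun _ => 1) hj (fun w' e1 e2 => ?_) hn.1 hn.2.1 hn.2.2 s4 v
      (Ej_of_wt v1 fun _ _ => rfl)
    have := nz_bds (S := S) (A := {j}) (w := w') (fun i hi => by simp [e1 i hi]) (by simp [e2])
    rw [Finset.card_singleton] at this
    obtain e | e | e : nz w' = 3 ∨ nz w' = 4 ∨ nz w' = 5 := by omega
    all_goals rwa [e]⟩).2.2.2 hc.ge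
  have := this.trans (Submodule.finrank_le _)
  omega

theorem exists_blk1 {s : ℕ} (h : CE π) (hs : 3 * (s + 3) ≤ Fintype.card α) {a b c : α} (h1 : a ≠ b) (h2 : a ≠ c)
    (h3 : b ≠ c) : ∃ e : Fin (s + 3) × Fin 3 ↪ α, Tb T e 0 = T a b c := by
  obtain ⟨p, hp⟩ := fresh [a, b, c] (by simp; omega)
  obtain ⟨q, hq⟩ := fresh [a, b, c, p] (by simp; omega)
  obtain ⟨r, hr⟩ := fresh [a, b, c, p, q] (by simp; omega)
  exact (exists_blk h hs (x := p) (y := q) (z := r) (by simp at hp hq hr ⊢; grind only)).imp fun _ h => h.1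

theorem six_le (h : CE π) (t : TS π T) (hs : SC π ρ) (hc : Fintype.card α = 18) (h3 : (3 : k) ≠ 0)
    (hω : ω ^ 2 + ω + 1 = 0) (hd : finrank k V ≤ 248) {a b c : α} (h1 : a ≠ b) (h2 : a ≠ c) (h4 : b ≠ c) {j : Fin 3}
    (j0 : j ≠ 0) : 6 * finrank k ((ρ (T a b c)).eigenspace (ω ^ j.val)) ≤ finrank k V := by
  obtain ⟨e, e0⟩ : ∃ e : Fin 6 × Fin 3 ↪ α, Tb T e 0 = T a b c := exists_blk1 (s := 3) h hc.ge h1 h2 h4
  rw [← e0]
  have s3 : 3 ≤ 6 := by omega
  obtain ⟨m3, m4, m5, m6⟩ := nat18 (e := e) h t hs hc h3 hω hd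
  have tot := sum_wt_le (ρ := ρ) (e := e) h t hω h3 s3 (fun _ => True) (U := ⊤) (by simp) (by simp)
  have a1 := le_sum_wt (ρ := ρ) (e := e) h t hω h3 s3 (fun w => w 0 = j)
    (fun w v h1 h2 h0 => wt_of_eig hω h3 h2 h0 h1) fun i => t.bb_eig 0 i _
  rw [sum_ev [1, 12, 60, 160, 240, 192, 64] (by decide +kernel), finrank_top] at tot
  rw [sum_ev [0, 1, 10, 40, 80, 80, 32] (by clear a1; revert j; decide +kernel)] at a1
  simp only [Finset.sum_range_succ, Finset.sum_range_zero, List.getD_cons_zero, List.getD_cons_succ] at tot a1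
  omega

end

/-- permutation modules -/
def pm {G Ω : Type} [Group G] (σ : G →* Perm Ω) : G →* End ℂ (Ω → ℂ) where
  toFun := fun g => LinearMap.funLeft ℂ ℂ (σ g).symm
  map_one' := by rw [map_one]; rfl
  map_mul' := fun a b => by ext; simp [Perm.mul_def]

theorem pm_fix {G Ω : Type} [Group G] [Fintype Ω] [DecidableEq Ω] (σ : G →* Perm Ω) {g : G} (h : g ^ 3 = 1) :
    3 * finrank ℂ ((pm σ g).eigenspace 1) + 2 * (Finset.univ.filter fun μ => σ g μ ≠ μ).card = 3 * Fintype.card Ω := by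
  have tr : ∀ g, LinearMap.trace ℂ _ (pm σ g) = (Finset.univ.filter fun μ => σ g μ = μ).card := fun g => by
    rw [LinearMap.trace_eq_matrix_trace ℂ (Pi.basisFun ℂ Ω), Matrix.trace, Finset.card_filter]
    simp only [Matrix.diag, LinearMap.toMatrix_apply, pm, Pi.basisFun_apply, Pi.basisFun_repr, MonoidHom.coe_mk,
      OneHom.coe_mk, LinearMap.funLeft_apply, Pi.single_apply, Equiv.symm_apply_eq]
    simp [eq_comm]
  have e1 := (show LinearMap.IsProj ((pm σ g).eigenspace 1) ((3 : ℂ)⁻¹ • (1 + pm σ g + pm σ (g ^ 2))) from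
    ⟨fun v => by
      rw [End.mem_eigenspace_iff, one_smul, LinearMap.smul_apply, map_smul, map_pow, sq]
      simp only [LinearMap.add_apply, End.mul_apply, End.one_apply, map_add, cube_app h]
      congr 1; abel, fun v hv => by
      rw [End.mem_eigenspace_iff, one_smul] at hv
      simp only [map_mul, sq, LinearMap.smul_apply, LinearMap.add_apply, End.mul_apply, End.one_apply, hv]
      module⟩).trace
  rw [map_smul, map_add, map_add, tr, tr, LinearMap.trace_one, Module.finrank_fintype_fun_eq_card,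
    Finset.filter_congr (p := fun μ => σ (g ^ 2) μ = μ) (q := fun μ => σ g μ = μ) fun μ _ => ⟨fun e => by
      have e2 := congrArg (σ g) e
      rwa [← Perm.mul_apply, ← map_mul, ← pow_succ', h, map_one, eq_comm] at e2, fun e => by
        rw [map_pow, sq, Perm.mul_apply, e, e]⟩] at e1
  have e2 := Finset.card_filter_add_card_filter_not (s := Finset.univ) fun μ => σ g μ = μ
  have e3 : 3 * finrank ℂ ((pm σ g).eigenspace 1) = Fintype.card Ω + 2 * (Finset.univ.filter fun μ => σ g μ = μ).card := by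
    apply Nat.cast_injective (R := ℂ)
    push_cast
    rw [← e1, smul_eq_mul]; field_simp; ring
  rw [Finset.card_univ] at e2
  simp only [ne_eq]
  omega

theorem alt_CE (r : ℕ) : CE (alternatingGroup (Fin r)).subtype := ⟨fun s hs => ⟨⟨s, mem_alternatingGroup.2 hs⟩, rfl⟩,
  fun g => mem_alternatingGroup.1 g.2, fun z hz g => by rw [show z = 1 from Subtype.ext hz]; exact Commute.one_left g⟩

theorem alt_SC {r : ℕ} {k V : Type*} [Field k] [AddCommGroup V] [Module k V] (ρ : alternatingGroup (Fin r) →* End k V) :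
    SC (alternatingGroup (Fin r)).subtype ρ := fun z hz => ⟨1, fun v => by rw [show z = 1 from Subtype.ext hz]; simp⟩

/-- three-cycles move few points -/
def PB (r D b : ℕ) : Prop := ∀ (Ω : Type) [Fintype Ω] [DecidableEq Ω] (σ : alternatingGroup (Fin r) →* Perm Ω),
  Fintype.card Ω ≤ D → ∃ g, g ≠ 1 ∧ (Finset.univ.filter fun μ => σ g μ ≠ μ).card < b

theorem pb18 : PB 18 248 110 := by
  intro Ω _ _ σ hc
  have h := alt_CE 18
  obtain ⟨T, t⟩ := h.exists_TS (by simp)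
  obtain ⟨ω, hω⟩ := exists_omega ℂ
  obtain ⟨e⟩ : Nonempty (Fin 6 × Fin 3 ↪ Fin 18) := Function.Embedding.nonempty_of_card_le (by simp)
  have s3 : 3 ≤ 6 := by omega
  have h3 : (3 : ℂ) ≠ 0 := by norm_num
  obtain ⟨m3, m4, m5, m6⟩ := nat18 (e := e) h t (alt_SC (pm σ)) (by simp) h3 hω (by simpa using hc)
  have c0 := t.cube (eb e 0).1 (eb e 0).2.1 (eb e 0).2.2
  have a0 := sum_wt_le (ρ := pm σ) (e := e) h t hω h3 s3 (fun _ => True) (U := ⊤) (by simp) (by simp)
  have a1 := le_sum_wt (ρ := pm σ) (e := e) h t hω h3 s3 (fun _ => True) (U := ⊤) (by simp) (by simp)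
  have a2 := sum_wt_le (ρ := pm σ) (e := e) h t hω h3 s3 (fun w => w 0 = 0) (U := (pm σ (Tb T e 0)).eigenspace 1)
    (fun w hw v hv => by simpa [hw] using mem_Wt.1 hv 0) fun i => t.bb_eig 0 i _
  have cm : ∀ i, Commute (Tb T e i) (Tb T e 0 * Tb T e 1 * Tb T e 2) := fun i =>
    ((t.bb i 0).mul_right (t.bb i 1)).mul_right (t.bb i 2)
  have a3 := le_sum_wt (ρ := pm σ) (e := e) h t hω h3 s3 (fun w => w 0 + w 1 + w 2 = 0)
    (U := (pm σ (Tb T e 0 * Tb T e 1 * Tb T e 2)).eigenspace 1) (fun w v h1 h2 v0 => root3_inj hω h3 (by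
      rw [End.mem_eigenspace_iff, r_mul, r_mul, mem_Wt.1 h2, map_smul, mem_Wt.1 h2, map_smul, map_smul, mem_Wt.1 h2,
        smul_smul, smul_smul, ← pow_add, ← pow_add, pow_eq_pow_mod _ (show ω ^ 3 = 1 by linear_combination (ω - 1) * hω)] at h1
      simpa [Fin.val_add, add_comm, add_assoc, add_left_comm] using smul_left_injective ℂ v0 h1)) fun i u hu => by
      rw [End.mem_eigenspace_iff] at hu ⊢
      rw [← r_comm (cm i), hu, map_smul]
  have b1 := pm_fix σ (g := Tb T e 0) c0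
  have b3 := Finset.card_le_univ (Finset.univ.filter fun μ => σ (Tb T e 0 * Tb T e 1 * Tb T e 2) μ ≠ μ)
  have b2 := pm_fix σ (g := Tb T e 0 * Tb T e 1 * Tb T e 2) (by
    have c := fun i => t.cube (eb e i).1 (eb e i).2.1 (eb e i).2.2
    rw [((t.bb 0 2).mul_left (t.bb 1 2)).mul_pow, (t.bb 0 1).mul_pow, c, c, c]; simp)
  rw [sum_ev [1, 12, 60, 160, 240, 192, 64] (by decide +kernel), finrank_top, Module.finrank_fintype_fun_eq_card] at a0 a1
  rw [sum_ev [1, 10, 40, 80, 80, 32, 0] (by decide +kernel)] at a2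
  rw [sum_ev [1, 6, 18, 46, 84, 72, 16] (by decide +kernel)] at a3
  simp only [Finset.sum_range_succ, Finset.sum_range_zero, List.getD_cons_zero, List.getD_cons_succ] at a0 a1 a2 a3
  have : Mw (pm σ) T e ω 2 ≤ 3 := by omega
  refine ⟨Tb T e 0, fun e1 => (eb e 0).1 ?_, by omega⟩
  have := t.b_pi (e := e) 0
  rw [e1, map_one] at this
  exact (congrArg (· (e (0, 0))) this).trans (c3_1 (eb e 0).1 (eb e 0).2.2)

variable {G : Type} [Group G] [Finite G] {k V : Type} [Field k] [IsAlgClosed k] [AddCommGroup V] [Module k V]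
  [FiniteDimensional k V] {ρ : G →* End k V} {r b : ℕ} {φ : G →* alternatingGroup (Fin r)}

/-- semisimple elements have small fixed spaces -/
def SSB (ρ : G →* End k V) (b : ℕ) : Prop :=
  ∀ (x : G) (m : ℕ), (m : k) ≠ 0 → x ^ m = 1 → x ≠ 1 → finrank k ((ρ x).eigenspace 1) + b ≤ finrank k V

theorem SSB.cen (c : SSB ρ b) (h : MC φ) (h9 : 9 ≤ r) (hf : Function.Injective ρ)
    (hd : finrank k V * finrank k V < 2 ^ (r - 2)) (hP : PB r (finrank k V) b) (l : ℕ) (hl : l.Prime) (hk : (l : k) ≠ 0) :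
    Cen φ l := by
  classical
  have := Fact.mk hl
  by_contra H
  obtain ⟨N, n⟩ := h.exists_MN H
  have := n.nrm
  have cm := n.comm_ker h h9 hf hk (hd.trans_le (Nat.pow_le_pow_left hl.two_le _))
  let E : (N → k) → Submodule k V := fun χ => ⨅ n : N, (ρ n).eigenspace (χ n)
  have hE : ∀ {χ v}, v ∈ E χ ↔ ∀ n : N, ρ n v = χ n • v := by simp [E]
  let Ω := {χ : N → k // E χ ≠ ⊥}
  have ex : ∀ μ : Ω, ∃ v ≠ 0, ∀ n : N, ρ n v = μ.1 n • v := fun μ => by
    obtain ⟨v, v1, v0⟩ := (Submodule.ne_bot_iff _).1 μ.2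
    exact ⟨v, v0, hE.1 v1⟩
  have fin : Finite Ω := by
    by_contra! H
    obtain ⟨s, hs⟩ := Infinite.exists_subset_card_eq Ω (finrank k V + 1)
    have := card_le_of_wt (fun n : N => ρ n) (fun x : s => x.1.1) (fun x y e => Subtype.ext (Subtype.ext e))
      fun x => ex x.1
    simp [hs] at this
  have := Fintype.ofFinite Ω
  have hs := sum_le_of_wt (fun n : N => ρ n) (fun x : Ω => x.1) Subtype.val_injective (fun x => E x.1)
    fun _ v hv => hE.1 hv
  have lk : ∀ j, ((l ^ j : ℕ) : k) ≠ 0 := fun j => by simpa using fun e => absurd e hk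
  have top : ∀ U : Submodule k V, (∀ μ : Ω, E μ.1 ≤ U) → ⊤ ≤ U := fun U hU => by
    rw [← iSup_wt (fun n : N => ρ n) (fun a b => (cm a (n.le a.2) b b.2).map ρ) fun a => by
      obtain ⟨j, hj⟩ := n.isP a
      exact ⟨l ^ j, lk j, by rw [← map_pow, show (a : G) ^ l ^ j = 1 from congrArg Subtype.val hj, map_one]⟩]
    refine iSup_le fun χ => ?_
    by_cases e : E χ = ⊥
    · exact e.le.trans bot_le
    · exact hU ⟨χ, e⟩
  have mv : ∀ g χ, ∀ v ∈ E χ, ρ g v ∈ E fun n => χ (MulAut.conjNormal g⁻¹ n) := fun g χ v hv => hE.2 fun n => by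
    rw [← map_smul, ← hE.1 hv, ← r_mul, ← r_mul]
    simp [mul_assoc]
  let Ω' := {x : (N → k) × Fin (finrank k V) // x.2.1 < finrank k (E x.1)}
  let : MulAction G Ω' :=
    { smul := fun g f => ⟨(fun n => f.1.1 (MulAut.conjNormal g⁻¹ n), f.1.2),
        f.2.trans_le (finrank_le_of_map _ (r_inj ρ g) (mv g _))⟩
      one_smul := fun f => Subtype.ext (Prod.ext (funext fun n => by
        change f.1.1 (MulAut.conjNormal 1⁻¹ n) = _
        simp) rfl)
      mul_smul := fun g g' f => Subtype.ext (Prod.ext (funext fun n => by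
        change f.1.1 (MulAut.conjNormal (g * g')⁻¹ n) = f.1.1 (MulAut.conjNormal g'⁻¹ (MulAut.conjNormal g⁻¹ n))
        simp) rfl) }
  obtain ⟨σ, hσ⟩ : ∃ σ : alternatingGroup (Fin r) →* Perm Ω', ∀ g μ,
      (σ (φ g) μ).1 = (fun n => μ.1.1 (MulAut.conjNormal g⁻¹ n), μ.1.2) :=
    ⟨φ.liftOfSurjective h.surj ⟨MulAction.toPermHom G Ω', fun z hz => Equiv.ext fun μ => Subtype.ext (Prod.ext (funext fun a => by
      change μ.1.1 (MulAut.conjNormal z⁻¹ a) = μ.1.1 a
      exact congrArg μ.1.1 (Subtype.ext ((MulAut.conjNormal_apply z⁻¹ a).trans (by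
        rw [(cm _ (inv_mem hz) a a.2).eq, mul_inv_cancel_right])))) rfl)⟩, fun g μ => by
        rw [MonoidHom.liftOfRightInverse_comp_apply]; rfl⟩
  let q : Ω' ≃ Σ μ : Ω, Fin (finrank k (E μ.1)) :=
    ⟨fun x => ⟨⟨x.1.1, fun e => by have := x.2; rw [e] at this; simp at this⟩, ⟨x.1.2, x.2⟩⟩,
      fun x => ⟨(x.1.1, ⟨x.2, x.2.2.trans_le (Submodule.finrank_le _)⟩), x.2.2⟩, fun _ => rfl, fun _ => rfl⟩
  have := Fintype.ofEquiv _ q.symm
  obtain ⟨g, g1, g2⟩ := hP Ω' σ (by simpa [Fintype.card_congr q] using hs)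
  obtain ⟨g, rfl⟩ := h.surj g
  refine g1 (h.le_ker h9 (L := Subgroup.centralizer N) inferInstance (fun e => n.nc fun z hz =>
    Subgroup.mem_center_iff.2 fun y => ((e ▸ Subgroup.mem_top y : y ∈ Subgroup.centralizer N) z hz).symm) fun a ha => ?_)
  let S : Finset Ω := Finset.univ.filter fun μ => (fun n => μ.1 (MulAut.conjNormal g⁻¹ n)) ≠ μ.1
  obtain ⟨j, hj⟩ := n.isP ((⟨a, ha⟩ : N)⁻¹ * MulAut.conjNormal g⁻¹ ⟨a, ha⟩)
  by_contra e
  have e1 := c _ _ (lk j) (congrArg Subtype.val hj) fun e1 => e (by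
    simp only [Subgroup.coe_mul, Subgroup.coe_inv, MulAut.conjNormal_apply, inv_mul_eq_one, inv_inv] at e1
    conv_rhs => rw [e1]
    group)
  have e2 := Submodule.finrank_mono (top ((ρ ((⟨a, ha⟩ : N)⁻¹ * MulAut.conjNormal g⁻¹ ⟨a, ha⟩ : N)).eigenspace 1 ⊔
      ⨆ ν ∈ S, E ν.1) fun ν => by
    by_cases e : ν ∈ S
    · exact le_sup_of_le_right (le_iSup₂_of_le ν e le_rfl)
    · refine le_sup_of_le_left fun v hv => ?_
      have e' : (fun n => ν.1 (MulAut.conjNormal g⁻¹ n)) = ν.1 := not_not.1 fun e' => e (Finset.mem_filter.2 ⟨by simp, e'⟩)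
      rw [End.mem_eigenspace_iff, Subgroup.coe_mul, r_mul, hE.1 hv, congrFun e', ← hE.1 hv, Subgroup.coe_inv, r_inv, one_smul])
  have e3 := finrank_le_sum S (fun ν => E ν.1) le_rfl
  have e4 := Submodule.finrank_add_le_finrank_add_finrank
    ((ρ ((⟨a, ha⟩ : N)⁻¹ * MulAut.conjNormal g⁻¹ ⟨a, ha⟩ : N)).eigenspace 1) (⨆ ν ∈ S, E ν.1)
  have e5 : ∑ ν ∈ S, finrank k (E ν.1) ≤ (Finset.univ.filter fun μ => σ (φ g) μ ≠ μ).card := by
    rw [Finset.sum_congr rfl fun ν _ => (Finset.card_fin (finrank k (E ν.1))).symm, ← Finset.card_sigma]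
    refine Finset.card_le_card_of_injOn q.symm (fun x hx => ?_) q.symm.injective.injOn
    simp only [Finset.coe_filter, Finset.mem_univ, true_and, Set.mem_ofPred_eq]
    exact fun e => (Finset.mem_filter.1 (Finset.mem_sigma.1 hx).1).2 (congrArg Prod.fst ((hσ g _).symm.trans (congrArg Subtype.val e)))
  rw [finrank_top] at e2
  omega

theorem SSB.no (c : SSB ρ b) (h : MC φ) (h9 : 9 ≤ r) (h3 : (3 : k) ≠ 0) (hK : ∀ l : ℕ, l.Prime → (l : k) ≠ 0 → Cen φ l)
    {d : ℕ} (hd : 2 * d < b) (H : ∀ (a b c : Fin r) (x g : G) (ω : k) (j : Fin 3), a ≠ b → a ≠ c → b ≠ c →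
      (φ x).1 = c3 a b c → x ^ 3 = 1 → g * x * g⁻¹ = x ^ 2 → ω ^ 2 + ω + 1 = 0 → j ≠ 0 →
      finrank k ((ρ x).eigenspace (ω ^ j.val)) ≤ d) : False := by
  obtain ⟨a, b', d', x, g, h4, h5, h6, hx, x3, hg⟩ := h.exists_t h9 (hK 3 Nat.prime_three (by exact_mod_cast h3))
  have r3 : ρ x ^ 3 = 1 := by rw [← map_pow, x3, map_one]
  obtain ⟨ω, hω⟩ := exists_omega k
  have top : ⊤ ≤ ⨆ j ∈ (Finset.univ : Finset (Fin 3)), (ρ x).eigenspace (ω ^ j.val) := by
    rw [← iSup_wt (fun _ : Unit => ρ x) (fun _ _ => Commute.refl _) fun _ => ⟨3, by exact_mod_cast h3, r3⟩]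
    refine iSup_le fun χ w hw => ?_
    by_cases w0 : w = 0
    · simp [w0]
    have := (Submodule.mem_iInf _).1 hw ()
    obtain ⟨j, hj⟩ := root3 hω (eig_pow (End.mem_eigenspace_iff.1 this) w0 r3)
    exact Submodule.mem_iSup_of_mem j (Submodule.mem_iSup_of_mem (Finset.mem_univ _) (hj ▸ this))
  have e2 := finrank_le_sum _ _ top
  rw [Fin.sum_univ_three, finrank_top, Fin.val_zero, pow_zero] at e2
  have := c x 3 (by exact_mod_cast h3) x3 fun e => by
    rw [e, map_one] at hx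
    exact h4 ((congrArg (· a) hx).trans (c3_1 h4 h6))
  have := H _ _ _ x g ω 1 h4 h5 h6 hx x3 hg hω (by decide)
  have := H _ _ _ x g ω 2 h4 h5 h6 hx x3 hg hω (by decide)
  omega

theorem SSB.no18 {φ : G →* alternatingGroup (Fin 18)} (c : SSB ρ 110) (h : MC φ) (hf : Function.Injective ρ)
    (h3 : (3 : k) ≠ 0) (hd : finrank k V = 248) : False := by
  have hK := c.cen h (by omega) hf (by rw [hd]; norm_num) (hd ▸ pb18)
  refine c.no h (by omega) h3 hK (d := 41) (by omega) fun a b c x g ω j h1 h2 h4 hx x3 hg hω j0 => ?_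
  have := h.eig_ind (by omega) hK h1 h2 h4 hx x3 hg (fun e => j0 (root3_inj hω h3 (by simpa using e))) (B := id) (D := 248)
    (fun _ _ _ => le_rfl) (fun G _ π T V _ _ _ ρ h t hs' hd => six_le h t hs' (by simp) h3 hω hd h1 h2 h4 j0) 248 V ρ hd le_rfl
  simp only [id] at this
  omega

end Cfsg.Agent.H23.Wg
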