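import Mathlib
import Cfsg.Agent.H23.Ex6
import Cfsg.Agent.H23.Ex8
import Cfsg.Agent.H12.SS3
import Cfsg.Agent.H12.SpF4
import Cfsg.Agent.H12.WeylE8
import Cfsg.Agent.H12.Tb
import Cfsg.Agent.H12.Orders

/-! Alternating sections of groups of type `E₈`. -/

set_option autoImplicit false
set_option linter.unusedSectionVars false
set_option linter.unusedVariables false
set_option maxRecDepth 100000

namespace Cfsg.Agent.H23.Wg

open Cfsg.Lie Cfsg.Agent.H12 Matrix Module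

theorem le_card_of_pairs (S : Finset ℕ) (L : List (ℕ × ℕ))
    (hL : L.Pairwise fun p q => p.1 ≠ q.1 ∧ p.1 ≠ q.2 ∧ p.2 ≠ q.1 ∧ p.2 ≠ q.2) (h : ∀ p ∈ L, p.1 ∈ S ∨ p.2 ∈ S) :
    L.length ≤ S.card := by
  let f : ℕ × ℕ → ℕ := fun p => if p.1 ∈ S then p.1 else p.2
  have h1 : (L.map f).Nodup := List.pairwise_map.2 (hL.imp fun h => by simp only [f]; split_ifs <;> simp [h])
  rw [← List.length_map f, ← List.toFinset_card_of_nodup h1]
  refine Finset.card_le_card fun a ha => ?_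
  obtain ⟨p, hp, rfl⟩ := List.mem_map.1 (List.mem_toFinset.1 ha)
  simp only [f]
  split_ifs with e
  exacts [e, (h p hp).resolve_left e]

section Root

variable {D : ChevalleyDatum} [Good D] {K : Type*} [Field K]

open Classical in
/-- the roots not in the kernel of a character -/
noncomputable def nv (χ : Chr D K) : Finset ℕ := (Finset.range D.nroots).filter fun r => chv χ r ≠ 1

theorem mem_nv {χ : Chr D K} {r : ℕ} : r ∈ nv χ ↔ r < D.nroots ∧ chv χ r ≠ 1 := by simp [nv]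

theorem card_nv_le (χ : Chr D K) (i : Fin D.rank) : (nv (chrW χ ((rsOf D).sL i))).card ≤ (nv χ).card :=
  Finset.card_le_card_of_injOn (D.reflectRoot i) (fun r hr => by
    obtain ⟨h1, h2⟩ := mem_nv.1 hr
    exact mem_nv.2 ⟨refl_lt i.2 h1, chv_chrW_sL χ i h1 ▸ h2⟩) fun r hr s hs e => by
      rw [← refl_refl i.2 (mem_nv.1 hr).1, e, refl_refl i.2 (mem_nv.1 hs).1]

theorem climb {J Q : ℕ → Prop} {t : ℕ} (hQ : ∀ r < D.nroots, Q r → r = t ∨ ∃ i < D.rank, J i ∧ Q (D.reflectRoot i r) ∧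
    r < D.reflectRoot i r) {P : Chr D K → Prop} (hP : ∀ χ (i : Fin D.rank), J i → P (chrW χ ((rsOf D).sL i)) → P χ)
    (h0 : ∀ χ, chv χ t ≠ 1 → P χ) (r : ℕ) (hr : r < D.nroots) (h1 : Q r) (χ : Chr D K) (h2 : chv χ r ≠ 1) : P χ := by
  induction h : D.nroots - r using Nat.strong_induction_on generalizing r χ with
  | _ n ih =>
  obtain rfl | ⟨i, hi, h3, h4, h5⟩ := hQ r hr h1
  · exact h0 χ h2
  · have := refl_lt hi hr
    exact hP χ ⟨i, hi⟩ h3 (ih _ (by omega) _ this h4 _ (by rwa [chv_chrW_sL _ _ this, refl_refl hi hr]) rfl)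

theorem chv_single (χ : Chr D K) (i : Fin D.rank) {r : ℕ} (h : ∀ j : Fin D.rank, j ≠ i → chv χ (D.simple j) = 1 ∨ al D r j = 0) :
    chv χ r = chv χ (D.simple i) ^ al D r i := by
  have : Multiplicative.ofAdd (av D r) = ∏ j : Fin D.rank, Multiplicative.ofAdd (av D (D.simple j)) ^ al D r j := by
    apply Multiplicative.toAdd.injective
    rw [toAdd_prod]
    simp only [toAdd_zpow, toAdd_ofAdd, av_simple]
    funext j
    simp [Finset.sum_apply, Pi.single_apply, av]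
  rw [chv, this, map_prod, Finset.prod_eq_single i (fun j _ hj => ?_) (by simp), map_zpow, chv]
  rcases h j hj with e | e
  · rw [map_zpow, ← chv, e, _root_.one_zpow]
  · rw [e, zpow_zero, map_one]

theorem zpow_ne {Γ : Type*} [Group Γ] {c : Γ} (h : c ^ (2 : ℤ) ≠ 1) {k : ℤ} (hk : k = 1 ∨ k = -1 ∨ k = 2 ∨ k = -2) : c ^ k ≠ 1 :=
  fun e => h (by
    rcases hk with rfl | rfl | rfl | rfl
    · rw [zpow_one] at e; simp [e]
    · rw [_root_.zpow_neg, zpow_one, inv_eq_one] at e; simp [e]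
    · exact e
    · rwa [_root_.zpow_neg, inv_eq_one] at e)

/-- roots with given coefficients -/
def fl (q : (ℕ → ℤ) → Bool) : List ℕ := (List.range 240).filter fun r => q (fastE8.al r)

/-- pairs of roots differing by the root `b` -/
def prs (q : (ℕ → ℤ) → Bool) (i b : ℕ) : List (ℕ × ℕ) :=
  (b, b) :: (239 - b, 239 - b) :: (fl fun a => q a && a i == 1).zip (fl fun a => q a && a i == -1)

theorem prs_mem {χ : Chr chevE8 K} {q : (ℕ → ℤ) → Bool} {i b : ℕ} (hb : b < 240) (h : chv χ b ≠ 1)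
    (hq : ∀ p ∈ (prs q i b).tail.tail, p.1 < 240 ∧ p.2 < 240 ∧ ∀ j < 8, fastE8.al p.1 j = fastE8.al p.2 j + fastE8.al b j) :
    ∀ p ∈ prs q i b, p.1 ∈ nv χ ∨ p.2 ∈ nv χ := by
  simp only [prs, List.forall_mem_cons, or_self]
  refine ⟨mem_nv.2 ⟨hb, h⟩, mem_nv.2 ⟨show _ < 240 by omega, ?_⟩, fun p hp => ?_⟩
  · have : chevE8.neg b = 239 - b := (congrFun (congrArg Tab.neg tbE8) b).trans (by
      simp [Fast.tab, Fast.neg, Bool.cond_eq_ite, show fastE8.n = 240 from rfl, hb])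
    rw [← this, chv_neg χ hb]
    exact inv_ne_one.2 h
  · obtain ⟨h1, h2, h3⟩ := hq p hp
    by_contra! H
    have := chv_of_av χ (q := p.1) (s := p.2) (r := b) (a := 1) (funext fun j => by rw [one_smul]; exact h3 j j.2)
    rw [not_not.1 fun e => H.1 (mem_nv.2 ⟨h1, e⟩), not_not.1 fun e => H.2 (mem_nv.2 ⟨h2, e⟩), one_mul, zpow_one] at this
    exact h this.symm

theorem refl_E8 : chevE8.reflectRoot = fastE8.tab.refl := congrArg Tab.refl tbE8

theorem simple_E8 : chevE8.simple = fastE8.simple := congrArg Tab.simple tbE8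

theorem nv_E8 {χ : Chr chevE8 K} (h : χ ≠ 1) : 110 ≤ (nv χ).card := by
  obtain ⟨i, hi⟩ : ∃ i : Fin chevE8.rank, chv χ (chevE8.simple i) ≠ 1 := by
    by_contra! H
    exact h (chr_ext H)
  refine climb (J := fun _ => True) (Q := fun _ => True) (t := 239) (P := fun χ => 110 ≤ (nv χ).card) ?_
    (fun χ i _ h => h.trans (card_nv_le χ i)) (fun χ h0 => ?_) _ (simple_lt i.2) trivial χ hi
  · rw [refl_E8]
    exact (show ∀ r < 240, True → r = 239 ∨ ∃ i < 8, True ∧ True ∧ r < fastE8.tab.refl i r by decide +kernel)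
  have p0 := fun (χ : Chr chevE8 K) h0 => prs_mem (χ := χ) (q := fun _ => true) (i := 7) (b := 239) (by norm_num) h0 (by decide +kernel)
  by_cases h1 : ∀ j : Fin chevE8.rank, j ≠ ⟨7, by decide⟩ → chv χ (chevE8.simple j) = 1
  · have e := fun r => chv_single χ ⟨7, by decide⟩ (r := r) fun j hj => .inl (h1 j hj)
    refine le_trans (by decide +kernel) (le_card_of_pairs _ ((fl fun a => a 7 != 0).map fun r => (r, r)) (by decide +kernel)
      (List.forall_mem_map.2 fun r hr => .inl ?_))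
    obtain ⟨h2, h3⟩ := (show ∀ r ∈ fl fun a => a 7 != 0, r < 240 ∧ (fastE8.al r 7 = 1 ∨ fastE8.al r 7 = -1 ∨
      fastE8.al r 7 = 2 ∨ fastE8.al r 7 = -2) by decide +kernel) r hr
    exact mem_nv.2 ⟨h2, e r ▸ zpow_ne (by rw [e] at h0; exact h0) h3⟩
  push Not at h1
  obtain ⟨j, hj, h1⟩ := h1
  have f7 : ∀ i < 7, fastE8.tab.refl i 239 = 239 := by decide +kernel
  refine climb (J := (· < 7)) (Q := (fastE8.al · 7 = 0)) (t := 226) (P := fun χ => chv χ 239 ≠ 1 → 110 ≤ (nv χ).card) ?_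
    (fun χ i hi h h0 => (h (by rwa [chv_chrW_sL _ _ (by decide), refl_E8, f7 i hi])).trans (card_nv_le χ i))
    (fun χ h1 h0 => ?_) _ (simple_lt j.2) ?_ χ h1 h0
  · rw [refl_E8]
    exact (show ∀ r < 240, fastE8.al r 7 = 0 → r = 226 ∨ ∃ i < 8, i < 7 ∧ fastE8.al (fastE8.tab.refl i r) 7 = 0 ∧
      r < fastE8.tab.refl i r by decide +kernel)
  rotate_left
  · rw [simple_E8]
    exact (show ∀ j < 8, j ≠ 7 → fastE8.al (fastE8.simple j) 7 = 0 by decide +kernel) j j.2 fun e => hj (Fin.ext e)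
  have p1 := fun (χ : Chr chevE8 K) h0 => prs_mem (χ := χ) (q := (· 7 == 0)) (i := 0) (b := 226) (by norm_num) h0 (by decide +kernel)
  by_cases h2 : ∀ j : Fin chevE8.rank, 0 < j.1 → j.1 < 7 → chv χ (chevE8.simple j) = 1
  · have e := fun r (hr : fastE8.al r 7 = 0) => chv_single χ ⟨0, by decide⟩ (r := r) fun j hj => (em (j.1 < 7)).imp
      (h2 j (Nat.pos_of_ne_zero fun e => hj (Fin.ext e))) fun e => by
        rw [show j.1 = 7 from le_antisymm (Nat.le_of_lt_succ j.2) (not_lt.1 e)]; exact hr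
    refine le_trans (by decide +kernel) (le_card_of_pairs _ (prs (fun _ => true) 7 239 ++
      (fl fun a => a 7 == 0 && a 0 != 0).map fun r => (r, r)) (by decide +kernel)
      (List.forall_mem_append.2 ⟨p0 χ h0, List.forall_mem_map.2 fun r hr => .inl ?_⟩))
    obtain ⟨h2, h4, h3⟩ := (show ∀ r ∈ fl fun a => a 7 == 0 && a 0 != 0, r < 240 ∧ fastE8.al r 7 = 0 ∧ (fastE8.al r 0 = 1 ∨
      fastE8.al r 0 = -1 ∨ fastE8.al r 0 = 2 ∨ fastE8.al r 0 = -2) by decide +kernel) r hr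
    exact mem_nv.2 ⟨h2, e r h4 ▸ zpow_ne (by rw [e _ (by decide +kernel)] at h1; exact h1) h3⟩
  push Not at h2
  obtain ⟨j, hj, hj', h2⟩ := h2
  refine climb (J := fun i => 0 < i ∧ i < 7) (Q := fun r => fastE8.al r 7 = 0 ∧ fastE8.al r 0 = 0) (t := 159)
    (P := fun χ => chv χ 239 ≠ 1 → chv χ 226 ≠ 1 → 110 ≤ (nv χ).card) ?_
    (fun χ i hi h h0 h1 => (h (by rwa [chv_chrW_sL _ _ (by decide), refl_E8, f7 i hi.2]) (by
      rwa [chv_chrW_sL _ _ (by decide), refl_E8, (show ∀ i < 7, 0 < i → fastE8.tab.refl i 226 = 226 by decide +kernel)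
        i hi.2 hi.1])).trans (card_nv_le χ i)) (fun χ h2 h0 h1 => ?_) _ (simple_lt j.2) ?_ χ h2 h0 h1
  · rw [refl_E8]
    exact (show ∀ r < 240, fastE8.al r 7 = 0 ∧ fastE8.al r 0 = 0 → r = 159 ∨ ∃ i < 8, (0 < i ∧ i < 7) ∧
      (fastE8.al (fastE8.tab.refl i r) 7 = 0 ∧ fastE8.al (fastE8.tab.refl i r) 0 = 0) ∧
      r < fastE8.tab.refl i r by decide +kernel)
  · exact le_trans (by decide +kernel) (le_card_of_pairs _ (prs (fun _ => true) 7 239 ++ (prs (· 7 == 0) 0 226 ++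
      prs (fun a => a 7 == 0 && a 0 == 0) 5 159)) (by decide +kernel) (List.forall_mem_append.2 ⟨p0 χ h0,
        List.forall_mem_append.2 ⟨p1 χ h1, prs_mem (by norm_num) h2 (by decide +kernel)⟩⟩))
  · rw [simple_E8]
    exact (show ∀ j < 7, 0 < j → fastE8.al (fastE8.simple j) 7 = 0 ∧ fastE8.al (fastE8.simple j) 0 = 0 by decide +kernel) j hj' hj

end Root

theorem no16 {U A B : Matrix (Fin 8) (Fin 8) ℤ} (hB : B * (U + Uᵀ) = 1) (hA : Aᵀ * (U + Uᵀ) * A = U + Uᵀ)
    (hc : A.charpoly = Polynomial.X ^ 8 + 1) : False := by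
  have h8 : A ^ 8 = -1 := eq_neg_of_add_eq_zero_left (by simpa [hc] using aeval_self_charpoly A)
  obtain ⟨C, hC⟩ : ∃ C, C = U + Uᵀ := ⟨_, rfl⟩
  have hb : ∀ {R : Type} [CommRing R] {C A : Matrix (Fin 8) (Fin 8) R}, Aᵀ * C * A = C → ∀ x y,
      (A *ᵥ x) ⬝ᵥ C *ᵥ (A *ᵥ y) = x ⬝ᵥ C *ᵥ y := fun h x y => by
    rw [← vecMul_transpose, ← dotProduct_mulVec, mulVec_mulVec, mulVec_mulVec, h]
  have hT : ∀ (M : Matrix (Fin 8) (Fin 8) ℤ) x y, x ⬝ᵥ Mᵀ *ᵥ y = y ⬝ᵥ M *ᵥ x := fun M x y => by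
    rw [mulVec_transpose, dotProduct_comm, dotProduct_mulVec]
  rw [← hC] at hA hB
  have hi : ∀ i, (A ^ i)ᵀ * C * A ^ i = C := fun i => by
    induction i with
    | zero => simp
    | succ i ih => rw [pow_succ, transpose_mul, mul_assoc Aᵀ, ← mul_assoc _ _ A, mul_assoc Aᵀ, ih, hA]
  have hg : ∀ v i j, i + j = 8 → v ⬝ᵥ C *ᵥ (A ^ j *ᵥ v) = -(v ⬝ᵥ C *ᵥ (A ^ i *ᵥ v)) := fun v i j h => by
    rw [← hb (hi i), mulVec_mulVec _ (A ^ i), ← pow_add, h, h8, neg_mulVec, one_mulVec, mulVec_neg, dotProduct_neg, ← hT, hC,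
      transpose_add, transpose_transpose, add_comm]
  let N := ∑ i ∈ Finset.range 8, A ^ i
  have hN : ∀ v, v ⬝ᵥ C *ᵥ (N *ᵥ v) = 2 * (v ⬝ᵥ U *ᵥ v) := fun v => by
    have : v ⬝ᵥ C *ᵥ (A ^ 0 *ᵥ v) = 2 * (v ⬝ᵥ U *ᵥ v) := by rw [pow_zero, one_mulVec, hC, add_mulVec, dotProduct_add, hT, two_mul]
    have h4 := hg v 4 4 rfl
    simp only [N, Finset.sum_range_succ, Finset.sum_range_zero, zero_add, add_mulVec, mulVec_add, dotProduct_add, this,
      hg v 1 7 rfl, hg v 2 6 rfl, hg v 3 5 rfl]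
    omega
  have hAN : (A - 1) * N = -2 := by rw [mul_geom_sum, h8]; norm_num
  let f := (Int.castRingHom (ZMod 2)).mapMatrix (m := Fin 8)
  have h2 : ∀ M : Matrix (Fin 8) (Fin 8) (ZMod 2), -M = M := fun M => ext fun i j => ZMod.neg_eq_self_mod_two _
  have h7 : (f A + 1) ^ 7 = f N := by
    rw [(Commute.one_right _).add_pow, map_sum]
    refine Finset.sum_congr rfl fun i hi => ?_
    rw [← map_natCast (algebraMap (ZMod 2) _), (show ∀ i ∈ Finset.range 8, ((Nat.choose 7 i : ℕ) : ZMod 2) = 1 by decide) i hi]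
    simp
  have h0 : (f A + 1) * f N = 0 := by
    rw [← h2 1, ← sub_eq_add_neg, ← map_one f, ← map_sub, ← map_mul, hAN, map_neg,
      ← one_add_one_eq_two (R := Matrix (Fin 8) (Fin 8) ℤ), map_add, map_one]
    nth_rw 2 [← h2 1]
    simp
  have hA' : (f A)ᵀ * f C * f A = f C := by rw [show (f A)ᵀ = f Aᵀ from rfl, ← map_mul, ← map_mul, hA]
  have h9 : f N = 0 := by
    by_contra H
    obtain ⟨v, hv⟩ : ∃ v, f N *ᵥ v ≠ 0 := not_forall.1 fun h => H (ext_iff_mulVec.2 fun v => (h v).trans (zero_mulVec v).symm)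
    let W := LinearMap.ker ((dotProductBilin (ZMod 2) (ZMod 2)).flip (f C *ᵥ (f N *ᵥ v)))
    have hW : ∀ x, x ∈ W ↔ x ⬝ᵥ f C *ᵥ (f N *ᵥ v) = 0 := fun x => Iff.rfl
    have h1 : ∀ x, toLin' (f A + 1) x ∈ W := fun x => by
      have : f A *ᵥ (f N *ᵥ v) = f N *ᵥ v := by
        rw [mulVec_mulVec, eq_neg_of_add_eq_zero_left (by rwa [add_mul, one_mul] at h0 : f A * f N + f N = 0), h2]
      rw [hW, toLin'_apply, add_mulVec, add_dotProduct, one_mulVec]
      nth_rw 1 [← this]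
      rw [hb hA', CharTwo.add_self_eq_zero]
    have h3 : v ∈ W := by
      obtain ⟨u, rfl⟩ : ∃ u : Fin 8 → ℤ, Int.castRingHom (ZMod 2) ∘ u = v := ⟨fun i => (v i).cast, funext fun i => by simp⟩
      have e : ∀ M, f M *ᵥ (Int.castRingHom (ZMod 2) ∘ u) = Int.castRingHom (ZMod 2) ∘ (M *ᵥ u) := fun M =>
        funext fun i => (RingHom.map_mulVec _ M u i).symm
      rw [hW, mulVec_mulVec, ← map_mul, e, ← RingHom.map_dotProduct, ← mulVec_mulVec, hN, map_mul]
      exact mul_eq_zero_of_left rfl _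
    have h5 : finrank (ZMod 2) W ≤ 7 := Nat.le_of_lt_succ ((Submodule.finrank_lt (s := W) fun e => hv (by
      rw [← one_mulVec (f N *ᵥ v), ← map_one f, ← hB, map_mul, ← mulVec_mulVec,
        dotProduct_eq_zero _ fun x => (dotProduct_comm _ _).trans ((hW x).1 (e ▸ trivial)), mulVec_zero])).trans_eq (by simp))
    let g := (toLin' (f A + 1)).restrict (p := W) (q := W) fun x _ => h1 x
    have e : ∀ n, ((g ^ n) ⟨v, h3⟩).1 = (f A + 1) ^ n *ᵥ v := fun n => by
      rw [Module.End.pow_restrict, LinearMap.coe_restrict_apply, ← toLin'_pow, toLin'_apply]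
    have := Module.End.ker_pow_le_ker_pow_finrank g 8 (show ⟨v, h3⟩ ∈ _ from Subtype.ext (by rw [e, pow_succ', h7, h0]; simp))
    obtain ⟨m, hm⟩ := Nat.exists_eq_add_of_le' h5
    exact hv (by rw [← h7, ← e, hm, pow_add, Module.End.mul_apply, LinearMap.mem_ker.1 this, map_zero]; rfl)
  choose P hP using fun i j => (ZMod.intCast_zmod_eq_zero_iff_dvd (N i j) 2).1 (congrFun (congrFun h9 i) j)
  have h5 : (1 - A) * of P = 1 := smul_right_injective _ (two_ne_zero (α := ℤ)) (by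
    simp only
    rw [← Matrix.mul_smul, ← show N = (2 : ℤ) • of P from ext hP, ← neg_sub, neg_mul, hAN, neg_neg, two_smul, one_add_one_eq_two])
  have h6 := congrArg det h5
  have h3 := eval_charpoly_eq (M := A) 1
  rw [one_smul, hc] at h3
  rw [det_mul, ← h3] at h6
  simp at h6
  omega

theorem cM_form {D : ChevalleyDatum} [Good D] (h : ∀ r < D.nroots, ∀ j < D.rank, (tb D).co r j = al D r j) (w : (rsOf D).W) :
    ((rsOf D).cM w)ᵀ * (of fun i j : Fin D.rank => D.cartan i (D.simple j)) * (rsOf D).cM w =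
      of fun i j : Fin D.rank => D.cartan i (D.simple j) := by
  ext l k
  rw [Matrix.mul_assoc]
  refine Eq.trans ?_ ((congrFun ((rsOf D).rwt_vecMul w ((rsOf D).simple k)) l).trans (rwt_eq _ _))
  rw [mul_apply, vecMul, dotProduct]
  refine Finset.sum_congr rfl fun i _ => (mul_comm _ _).trans (congrArg (· * _) ?_)
  rw [rwt_eq, ← cf_av i.2 (w • (rsOf D).simple k).2, H12.cf, Fintype.linearCombination_apply, mul_apply]
  exact Finset.sum_congr rfl fun j _ => by rw [cM_apply, h _ (w • (rsOf D).simple k).2 j j.2, mul_comm]; rfl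

theorem not_dvd_E8 (w : (rsOf chevE8).W) : ¬ ((17 : ℕ) : ℤ) ∣ ((3 : ℤ) • 1 - (rsOf chevE8).cM w).det := fun h => by
  have h1 := cyclotomic_dvd_charpoly w (by norm_num) (by rw [card_W_E8]; norm_num) h
  rw [show orderOf ((3 : ℤ) : ZMod 17) = 2 ^ (3 + 1) from orderOf_eq_prime_pow (by decide) (by decide)] at h1
  have h2 := Polynomial.eq_of_monic_of_dvd_of_natDegree_le (Polynomial.cyclotomic.monic _ ℤ) (charpoly_monic _) h1 (by
    rw [charpoly_natDegree_eq_dim, Polynomial.natDegree_cyclotomic, Fintype.card_fin]; decide)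
  let U : Matrix (Fin 8) (Fin 8) ℤ := of fun i j => if i = j then 1 else if i < j then fastE8.cartan i (fastE8.simple j) else 0
  have hU : U + Uᵀ = of fun i j : Fin 8 => fastE8.cartan i (fastE8.simple j) := by decide +kernel
  refine no16 (A := (rsOf chevE8).cM w) (U := U) (B := !![4, 5, 7, 10, 8, 6, 4, 2; 5, 8, 10, 15, 12, 9, 6, 3;
    7, 10, 14, 20, 16, 12, 8, 4; 10, 15, 20, 30, 24, 18, 12, 6; 8, 12, 16, 24, 20, 15, 10, 5; 6, 9, 12, 18, 15, 12, 8, 4;
    4, 6, 8, 12, 10, 8, 6, 3; 2, 3, 4, 6, 5, 4, 3, 2]) (by decide +kernel) ?_ (h2.trans ?_)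
  · rw [hU, ← simple_E8, ← show chevE8.cartan = fastE8.cartan from congrArg Tab.cartan tbE8]
    exact cM_form (tbE8 ▸ (show ∀ r < 240, ∀ j < 8, fastE8.co r j = fastE8.al r j by decide +kernel)) w
  · rw [Polynomial.cyclotomic_prime_pow_eq_geom_sum Nat.prime_two]
    simp [Finset.sum_range_succ, add_comm]

theorem no19 {K : Type*} [Field K] [Finite K] (hK : Nat.card K ≡ 1 [MOD 17]) {L : Subgroup (chevE8.group K)}
    {ψ : L →* alternatingGroup (Fin 19)} (hψ : Function.Surjective ψ) : False := by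
  have : Fact (Nat.Prime 17) := ⟨by norm_num⟩
  obtain ⟨S, s1, s2⟩ := H17.sylIn_grp (X := grpRGD chevE8 K) RGD.T_le_grp (H17.not_dvd_relIndex_T (l := 17)
    (fun r => by rw [grpRGD, StSys.rgd_U, StSys.card_U grpNC grpNM]; exact hK) (by rw [card_W_E8]; norm_num))
  rw [grpRGD_top] at s2
  have key : ∀ P : Subgroup L, IsPGroup 17 P → ∃ d : chevE8.group K, ∀ x ∈ P, ∃ c, hP chevE8 K c = d * x.1 * d⁻¹ := fun P hP => by
    obtain ⟨d, -, d2⟩ := s2.exists_conj_mem (P := P.map L.subtype) le_top (hP.map _)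
    exact ⟨d, fun x hx => (StSys.hProd_range grpNC grpSt_r3).ge (s1 (d2 _ ⟨x, hx, rfl⟩))⟩
  obtain ⟨x, g, -, x1, x2, x3⟩ := exists_eigen hψ (l := 17) (c := 3)
    (a := ⟨List.formPerm [0, 1, 2, 3, 4, 5, 6, 7, 8, 9, 10, 11, 12, 13, 14, 15, 16],
      Equiv.Perm.mem_alternatingGroup.2 (by decide +kernel)⟩)
    (b := ⟨List.formPerm [1, 3, 9, 10, 13, 5, 15, 11, 16, 14, 8, 7, 4, 12, 2, 6] * Equiv.swap 17 18,
      Equiv.Perm.mem_alternatingGroup.2 (by decide +kernel)⟩)
    (fun e => absurd (congrArg Subtype.val e) (by decide +kernel)) (Subtype.ext (by decide +kernel))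
    (Subtype.ext (by decide +kernel)) fun P hP _ x hx y hy => by
      obtain ⟨d, hd⟩ := key P hP
      obtain ⟨u, hu⟩ := hd x hx
      obtain ⟨v, hv⟩ := hd y hy
      refine Subtype.ext ((MulAut.conj d).injective ?_)
      simp only [Subgroup.coe_mul, map_mul, MulAut.conj_apply]
      rw [← hu, ← hv, ← map_mul, mul_comm, map_mul]
  obtain ⟨d, hd⟩ := key _ (H17.isPGroup_zpowers_of_pow x2)
  obtain ⟨c, hc⟩ := hd x (Subgroup.mem_zpowers x)
  have hi := hP_injective (hT_ker_E8 (F := K))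
  obtain ⟨n, w, hn, e⟩ := RGD.exists_rep_conj (X := grpRGD chevE8 K) (g := d * g.1 * d⁻¹)
    ((StSys.hProd_range grpNC grpSt_r3).le ⟨c, rfl⟩) ((StSys.hProd_range grpNC grpSt_r3).le ⟨c ^ 3, rfl⟩)
    (grpRGD_top (D := chevE8) (F := K) ▸ trivial) (by
      rw [map_pow, hc, conj_pow, ← Subgroup.coe_pow, ← x3]; simp [mul_assoc])
  have h1 := pow_det_of_mT (A := (3 : ℤ) • 1 - (rsOf chevE8).cM w) (c := c) (by
    rw [mT_sub, mT_smul, mT_one, hi ((StSys.Rep.conj_hProd grpSt_r3 hn c).symm.trans e), mul_inv_eq_one]; rfl)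
  have h2 : orderOf c = 17 := orderOf_eq_prime (hi (by rw [map_pow, hc, conj_pow, ← Subgroup.coe_pow, x2]; simp)) fun e =>
    x1 (Subtype.ext (by simpa [e] using hc.symm))
  exact not_dvd_E8 w (h2 ▸ orderOf_dvd_iff_zpow_eq_one.2 h1)

theorem eig_dgM {D : ChevalleyDatum} [Good D] {k : Type*} [Field k] (χ : Chr D k) :
    finrank k (End.eigenspace (toLin' (dgM χ)) 1) + (nv χ).card ≤ D.rank + D.nroots := by
  classical
  let g : End.eigenspace (toLin' (dgM χ)) 1 →ₗ[k] ({a : D.Idx // ∀ s, a = .inr s → s.1 ∉ nv χ} → k) :=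
    (LinearMap.funLeft k k Subtype.val).comp (Submodule.subtype _)
  have := LinearMap.finrank_le_finrank_of_injective (f := g) ((injective_iff_map_eq_zero g).2 fun x hx =>
    Subtype.ext (funext fun a => by_contra fun h0 => h0 (congrFun hx ⟨a, ?_⟩)))
  · rw [Module.finrank_fintype_fun_eq_card, Fintype.card_subtype] at this
    have h1 := Finset.card_filter_add_card_filter_not (s := Finset.univ) fun a : D.Idx => ∀ s, a = .inr s → s.1 ∉ nv χ
    have h2 : (nv χ).card ≤ (Finset.univ.filter fun a : D.Idx => ¬ ∀ s, a = .inr s → s.1 ∉ nv χ).card := by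
      refine Finset.card_le_card_of_surjOn (Sum.elim (fun _ => 0) Fin.val) fun r hr => ⟨.inr ⟨r, (mem_nv.1 hr).1⟩, ?_, rfl⟩
      exact Finset.mem_filter.2 ⟨Finset.mem_univ _, fun h => h _ rfl hr⟩
    rw [Finset.card_univ, Fintype.card_sum, Fintype.card_fin, Fintype.card_fin] at h1
    omega
  rintro s rfl hs
  have := congrFun (End.mem_eigenspace_iff.1 x.2) (.inr s)
  simp only [toLin'_apply, dgM, mulVec_diagonal, one_smul] at this
  exact (mem_nv.1 hs).2 (Units.val_eq_one.1 ((mul_eq_right₀ h0).1 this))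

variable (D : ChevalleyDatum) [Good D] (k : Type*) [Field k] in
/-- the adjoint module -/
noncomputable def adM : D.group k →* End k (D.Idx → k) :=
  (toLinAlgEquiv' (R := k) (n := D.Idx)).toMulEquiv.toMonoidHom.comp ((Units.coeHom _).comp (D.group k).subtype)

theorem adM_injective {D : ChevalleyDatum} [Good D] {k : Type*} [Field k] : Function.Injective (adM D k) := fun _ _ e =>
  Subtype.ext (Units.ext ((toLinAlgEquiv' (R := k) (n := D.Idx)).injective e))

theorem eig_adM {D : ChevalleyDatum} [Good D] {k : Type} [Field k] (g : D.group k) (c : Fin D.rank → kˣ) :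
    finrank k ((adM D k (g * hP D k c * g⁻¹)).eigenspace 1) + (nv (hT D k c)).card ≤ D.rank + D.nroots := by
  refine le_trans (add_le_add_left (finrank_le_of_map (adM D k g⁻¹) (Function.LeftInverse.injective (g := adM D k g) fun v => by
    rw [← End.mul_apply, ← map_mul]; simp) fun v hv => ?_) _) (eig_dgM (hT D k c))
  rw [End.mem_eigenspace_iff, one_smul] at hv ⊢
  rw [show toLin' (dgM (hT D k c)) = adM D k (hP D k c) from congrArg (fun u : GL _ k => toLin' u.1) (hProd_grp c).symm]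
  conv_rhs => rw [← hv]
  simp only [← End.mul_apply, ← map_mul]
  group

theorem no18' {K : Type} [Field K] [Fintype K] (h3 : (3 : K) ≠ 0)
    {L : Subgroup (chevE8.group K)} {ψ : L →* alternatingGroup (Fin 18)} (hψ : Function.Surjective ψ) : False := by
  obtain ⟨N, hN⟩ := exists_MC hψ
  obtain ⟨p, _, _, _, ⟨Z⟩⟩ := exists_frob K
  let k := AlgebraicClosure K
  have hj : Function.Injective ((fieldHom chevE8 Z.ι).comp (L.subtype.comp N.subtype)) :=
    (fieldHom_injective _).comp (Subtype.val_injective.comp Subtype.val_injective)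
  have hd : finrank k (chevE8.Idx → k) = 248 := by rw [Module.finrank_fintype_fun_eq_card, Fintype.card_sum]; simp; rfl
  refine SSB.no18 (ρ := (adM chevE8 k).comp ((fieldHom chevE8 Z.ι).comp (L.subtype.comp N.subtype))) (fun x m hm x1 x2 => ?_) hN
    (adM_injective.comp hj) (map_ofNat Z.ι 3 ▸ (map_ne_zero Z.ι).2 h3) hd
  obtain ⟨g, -, -, c, -, -, -, e⟩ := (Z.ss hT_ker_E8).1 x.1.1 (Nat.Coprime.coprime_dvd_left
    (orderOf_dvd_of_pow_eq_one (by rw [← Subgroup.coe_pow, ← Subgroup.coe_pow, x1]; rfl))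
    ((Nat.Prime.coprime_iff_not_dvd Fact.out).2 fun e => hm ((CharP.cast_eq_zero_iff k p m).2 e)).symm)
  have h2 := nv_E8 (χ := hT chevE8 k c) fun e' => x2 (hj (by
    rw [show c = 1 from hT_ker_E8.le e', map_one, mul_one, mul_inv_cancel] at e
    exact e.trans (map_one _).symm))
  exact hd ▸ le_trans (add_le_add_right h2 _) (e ▸ eig_adM g c :)

theorem e8_bound {F : Type*} [Field F] [Finite F] (p : ℕ) [hp : Fact p.Prime] [CharP F p] {H : Type*} [Group H]
    {j : H →* chevE8.group F} (hj : Function.Injective j) {N : Subgroup H} [N.Normal] {r : ℕ}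
    (e : H ⧸ N ≃* alternatingGroup (Fin r)) : r ≤ 17 + if p = 3 then 1 else 0 := by
  have := Fintype.ofFinite F
  obtain ⟨k, -, hk⟩ := FiniteField.card F p
  let K := FiniteField.Extension F p 16
  have hK : Nat.card K = (p ^ (k : ℕ)) ^ 16 := by rw [FiniteField.natCard_extension, Nat.card_eq_fintype_card, hk]
  have key : ∀ m ≤ r, ∃ (L : Subgroup (chevE8.group K)) (ψ : L →* alternatingGroup (Fin m)), Function.Surjective ψ := fun m hm => by
    obtain ⟨M, φ, hφ⟩ := H17.exists_alt_sec hm e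
    have hi : Function.Injective ((fieldHom chevE8 (algebraMap F K)).comp (j.comp M.subtype)) :=
      (fieldHom_injective _).comp (hj.comp Subtype.val_injective)
    exact ⟨_, φ.comp (MonoidHom.ofInjective hi).symm.toMonoidHom, hφ.comp (MonoidHom.ofInjective hi).symm.surjective⟩
  by_contra h
  split_ifs at h with h5
  · obtain ⟨L, ψ, hψ⟩ := key 19 (by omega)
    exact no19 (hK ▸ H17.pow_modEq_one hp.out (by norm_num) (by omega) dvd_rfl) hψ
  · obtain ⟨L, ψ, hψ⟩ := key 18 (by omega)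
    have : CharP K p := charP_of_injective_algebraMap (algebraMap F K).injective p
    have := Fintype.ofFinite K
    exact no18' (fun e => h5 ((Nat.prime_dvd_prime_iff_eq hp.out Nat.prime_three).1 ((CharP.cast_eq_zero_iff K p 3).1 e))) hψ

end Cfsg.Agent.H23.Wg
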