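import Cfsg.Agent.GO.Fg0
import Cfsg.Agent.H1.G2a

/-! The group `4² : 2²` satisfies the presentation `FR 0 0 0`. -/

set_option autoImplicit false

namespace Cfsg.Agent.GO.Fg

open Cfsg.Agent.H19.Gt Cfsg.Agent.H1.G2

theorem fM_card {G : Type*} [Group G] {H : Subgroup G}
    {τ : Multiplicative (ZMod 4) × Multiplicative (ZMod 4) →* G} {u v : G} (gs : Gs H τ u v) :
    Nat.card H = 64 := by
  have gz : Gz H τ u v (Multiplicative.ofAdd 2) :=
    ⟨gs, inferInstance, IsPGroup.of_card (n := 2) (by simp), by decide, by decide⟩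
  let f : (Multiplicative (ZMod 4) × Multiplicative (ZMod 4)) × Fin 4 → H := fun p =>
    ⟨τ p.1 * ![1, u, v, u * v] p.2, (gs.mem _).2 ⟨p.1.1, p.1.2, by
      obtain ⟨⟨x, y⟩, k⟩ := p
      fin_cases k <;> simp⟩⟩
  have k0 : ∀ (x y x' y') (g : G), τ (x, y) * g = τ (x', y') * g → ((x, y) : _ × _) = (x', y') :=
    fun x y x' y' g e => gs.inj (mul_right_cancel e)
  have nu := gz.ne_u
  have nv := gz.ne_v
  have nw := gz.ne_w
  have hf : Function.Bijective f := by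
    constructor
    · rintro ⟨⟨x, y⟩, k⟩ ⟨⟨x', y'⟩, k'⟩ e
      have e1 : τ (x, y) * ![1, u, v, u * v] k = τ (x', y') * ![1, u, v, u * v] k' := congrArg Subtype.val e
      have e2 : τ (x, y) * (![1, u, v, u * v] k * (![1, u, v, u * v] k')⁻¹) = τ (x', y') := by
        rw [← mul_assoc, e1, mul_inv_cancel_right]
      have : k = k' := by
        fin_cases k <;> fin_cases k' <;>
          simp only [Fin.zero_eta, Fin.mk_one, Fin.reduceFinMk, Matrix.cons_val, Matrix.cons_val_zero,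
            Matrix.cons_val_one, mul_inv_rev, gs.ui, gs.vi, inv_one, one_mul, mul_one, ← gs.uv, mul_assoc,
            gs.uu', gs.vv', gs.vu', gs.uu, gs.vv] at e2 ⊢ <;>
          first
          | exact (nu _ _ _ _ e2).elim
          | exact (nv _ _ _ _ e2).elim
          | exact (nw _ _ _ _ e2).elim
      subst this
      rw [k0 _ _ _ _ _ e1]
    · rintro ⟨s, hs⟩
      obtain ⟨x, y, rfl | rfl | rfl | rfl⟩ := (gs.mem _).1 hs
      exacts [⟨((x, y), 0), Subtype.ext (mul_one _)⟩, ⟨((x, y), 1), rfl⟩, ⟨((x, y), 2), rfl⟩, ⟨((x, y), 3), rfl⟩]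
  rw [← Nat.card_eq_of_bijective f hf]
  simp

theorem fM {G : Type*} [Group G] {H : Subgroup G}
    {τ : Multiplicative (ZMod 4) × Multiplicative (ZMod 4) →* G} {u v : G} (h : H19.Gt.Gs H τ u v) :
    ∃ f y g x : G, f ∈ H ∧ y ∈ H ∧ g ∈ H ∧ x ∈ H ∧ FR 0 0 0 f y g x ∧ Nat.card H = 64 := by
  refine ⟨τ (.ofAdd 1, 1) * v, τ (.ofAdd 2, 1), τ (.ofAdd 1, 1), τ (.ofAdd 1, 1) * u,
    (h.mem _).2 ⟨_, _, .inr (.inr (.inl rfl))⟩, h.tS _ _, h.tS _ _, (h.mem _).2 ⟨_, _, .inr (.inl rfl)⟩,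
    ?_, fM_card h⟩
  constructor
  all_goals simp only [pow_succ, pow_zero, mul_zero, one_mul, mul_one, mul_assoc, h.ut', h.vt', h.ut, h.vt,
    h.uu', h.vv', h.vu', h.uu, h.vv, tm', tm, ← h.uv, mul_left_inj, h.teq, h.teq1, ne_eq]
  all_goals decide

end Cfsg.Agent.GO.Fg
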