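import Mathlib
import Cfsg.Agent.H11.Exc

/-! The elliptic quadratic space of dimension six over the field with two elements as a sum of three anisotropic planes. -/

set_option autoImplicit false
set_option maxRecDepth 100000
set_option synthInstance.maxSize 2048
set_option linter.unusedSimpArgs false

namespace Cfsg.Agent.H23.Sz
open Cfsg H11 Module

abbrev U := (Fin 2 ⊕ Fin 2) ⊕ Fin 2 → ZMod 2
abbrev q : U → ZMod 2 := quadFormMinus 2 (ZMod 2) 1 1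
noncomputable abbrev B : U →ₗ[ZMod 2] U →ₗ[ZMod 2] ZMod 2 := bMinus 2 (ZMod 2) 1 1
noncomputable abbrev O := Isom B q

theorem hab : ∀ z₁ z₂ : ZMod 2, z₁ ^ 2 + 1 * z₁ * z₂ + 1 * z₂ ^ 2 = 0 → z₁ = 0 ∧ z₂ = 0 := by decide
theorem hq : IsQuad B q := isQuad_minus 2 (ZMod 2) 1 1
theorem hB : B.SeparatingLeft := bMinus_sep 2 hab
theorem hex : NonExc B q := nonExc_minus hab 2

def B' (u v : U) : ZMod 2 := q (u + v) + q u + q v

theorem z2 : ∀ c : ZMod 2, c = 0 ∨ c = 1 := by decide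
theorem zz2 : ∀ c : ZMod 2, c + c = 0 := by decide
theorem vv (x : U) : x + x = 0 := funext fun _ => zz2 _
theorem vn (x : U) : -x = x := neg_eq_of_add_eq_zero_left (vv x)
theorem vs (x y : U) : x - y = x + y := by rw [sub_eq_add_neg, vn]

theorem BB (u v : U) : B u v = B' u v := by
  rw [B', hq.add']
  generalize q u = a; generalize q v = b; generalize B u v = c
  revert a b c; decide

def vc (x₀ x₁ y₀ y₁ z₀ z₁ : ZMod 2) : U := Sum.elim (Sum.elim ![x₀, x₁] ![y₀, y₁]) ![z₀, z₁]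
def a1 : U := vc 0 0 0 0 1 0
def b1 : U := vc 0 0 0 0 0 1
def a2 : U := vc 1 0 1 0 0 0
def b2 : U := vc 1 1 0 1 0 0
def a3 : U := vc 0 1 0 1 0 0
def b3 : U := vc 1 1 1 0 0 0

theorem qv : q a1 = 1 ∧ q b1 = 1 ∧ q (a1 + b1) = 1 ∧ q a2 = 1 ∧ q b2 = 1 ∧ q (a2 + b2) = 1 ∧ q a3 = 1 ∧ q b3 = 1 ∧
    q (a3 + b3) = 1 := by decide

theorem bv' : (B' a1 b1 = 1 ∧ B' a1 a2 = 0 ∧ B' a1 b2 = 0 ∧ B' a1 a3 = 0 ∧ B' a1 b3 = 0 ∧ B' b1 a2 = 0 ∧ B' b1 b2 = 0 ∧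
    B' b1 a3 = 0 ∧ B' b1 b3 = 0 ∧ B' a2 b2 = 1 ∧ B' a2 a3 = 0 ∧ B' a2 b3 = 0 ∧ B' b2 a3 = 0 ∧ B' b2 b3 = 0 ∧ B' a3 b3 = 1) ∧
    (B' b1 a1 = 1 ∧ B' a2 a1 = 0 ∧ B' b2 a1 = 0 ∧ B' a3 a1 = 0 ∧ B' b3 a1 = 0 ∧ B' a2 b1 = 0 ∧ B' b2 b1 = 0 ∧
    B' a3 b1 = 0 ∧ B' b3 b1 = 0 ∧ B' b2 a2 = 1 ∧ B' a3 a2 = 0 ∧ B' b3 a2 = 0 ∧ B' a3 b2 = 0 ∧ B' b3 b2 = 0 ∧ B' b3 a3 = 1) := by
  decide

theorem bv : (B a1 b1 = 1 ∧ B a1 a2 = 0 ∧ B a1 b2 = 0 ∧ B a1 a3 = 0 ∧ B a1 b3 = 0 ∧ B b1 a2 = 0 ∧ B b1 b2 = 0 ∧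
    B b1 a3 = 0 ∧ B b1 b3 = 0 ∧ B a2 b2 = 1 ∧ B a2 a3 = 0 ∧ B a2 b3 = 0 ∧ B b2 a3 = 0 ∧ B b2 b3 = 0 ∧ B a3 b3 = 1) ∧
    (B b1 a1 = 1 ∧ B a2 a1 = 0 ∧ B b2 a1 = 0 ∧ B a3 a1 = 0 ∧ B b3 a1 = 0 ∧ B a2 b1 = 0 ∧ B b2 b1 = 0 ∧
    B a3 b1 = 0 ∧ B b3 b1 = 0 ∧ B b2 a2 = 1 ∧ B a3 a2 = 0 ∧ B b3 a2 = 0 ∧ B a3 b2 = 0 ∧ B b3 b2 = 0 ∧ B b3 a3 = 1) := by
  simp only [BB]; exact bv'

theorem bb (x : U) : B x x = 0 := by rw [hq.diag', show (2 : ZMod 2) = 0 from rfl, zero_mul]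

theorem span' : ∀ v : U, v = B' b1 v • a1 + B' a1 v • b1 + B' b2 v • a2 + B' a2 v • b2 + B' b3 v • a3 + B' a3 v • b3 := by
  decide +kernel

theorem span (v : U) : v = B b1 v • a1 + B a1 v • b1 + B b2 v • a2 + B a2 v • b2 + B b3 v • a3 + B a3 v • b3 := by
  simp only [BB]; exact span' v

theorem oext {g h : O} (e1 : g.1 a1 = h.1 a1) (e2 : g.1 b1 = h.1 b1) (e3 : g.1 a2 = h.1 a2) (e4 : g.1 b2 = h.1 b2)
    (e5 : g.1 a3 = h.1 a3) (e6 : g.1 b3 = h.1 b3) : g = h := Subtype.ext (LinearEquiv.ext fun v => by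
  rw [span v]; simp only [map_add, map_smul, e1, e2, e3, e4, e5, e6])

instance finO : Finite O :=
  Finite.of_injective (fun g : O => (g.1 : U → U)) fun _ _ e => Subtype.ext (DFunLike.coe_injective e)

theorem oB (g : O) (x y : U) : B (g.1 x) (g.1 y) = B x y := g.2.1 x y
theorem oq (g : O) (x : U) : q (g.1 x) = q x := g.2.2 x
theorem omul (g h : O) (x : U) : (g * h).1 x = g.1 (h.1 x) := rfl
theorem oone (x : U) : (1 : O).1 x = x := rfl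
theorem oinv (g : O) (x : U) : (g⁻¹).1 (g.1 x) = x := by rw [← omul, inv_mul_cancel, oone]
theorem oinv' (g : O) (x : U) : g.1 ((g⁻¹).1 x) = x := by rw [← omul, mul_inv_cancel, oone]

noncomputable def r (v : U) : O := hq.reflO v

theorem rf {u : U} (hu : q u = 1) (x : U) : (r u).1 x = x + B u x • u := by
  rw [r, hq.reflO_apply, hu, inv_one, one_mul, vs]

noncomputable def dk (g : O) : ZMod 2 := dick g.1

theorem dk_mul (g h : O) : dk (g * h) = dk g + dk h := hq.dick_mul hB g h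
theorem dk_inv (g : O) : dk g⁻¹ = dk g := hq.dick_inv hB g
theorem dk_one : dk 1 = 0 := dick_one
theorem dk_r {u : U} (hu : q u = 1) : dk (r u) = 1 := hq.dick_reflO hB (by rw [hu]; exact one_ne_zero)
theorem dk_pow {g : O} (h : dk g = 0) (n : ℕ) : dk (g ^ n) = 0 := by
  induction n with
  | zero => rw [pow_zero, dk_one]
  | succ n ih => rw [pow_succ, dk_mul, ih, h, add_zero]
theorem dk_iff (g : O) : g ∈ commutator O ↔ dk g = 0 := hq.mem_commutator_iff_of_char_two hB hex rfl g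

noncomputable def s1 : O := r (a1 + b1) * r a1
noncomputable def s2 : O := r (a2 + b2) * r a2
noncomputable def s3 : O := r (a3 + b3) * r a3
noncomputable def io : O := r a2 * r a3
noncomputable def ka : O := r a1 * r a2
theorem t1 : q (a2 + a3) = 0 := by decide
theorem t2 : B (a2 + a3) (b2 + b3) = 0 := by rw [BB]; decide
theorem t3 : q (a1 + a2) = 0 := by decide
theorem t4 : B (a1 + a2) (b1 + b2) = 0 := by rw [BB]; decide
theorem t5 : q (b2 + b3) = 0 := by decide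
theorem t6 : q (b1 + b2) = 0 := by decide
noncomputable def ta : O := hq.eich t1 t2
noncomputable def tb : O := hq.eich t3 t4

theorem dks : dk s1 = 0 ∧ dk s2 = 0 ∧ dk s3 = 0 ∧ dk io = 0 ∧ dk ka = 0 ∧ dk ta = 0 ∧ dk tb = 0 := by
  have := qv
  refine ⟨?_, ?_, ?_, ?_, ?_, (dk_iff _).1 (hq.eich_mem_commutator hB hex _ _), (dk_iff _).1 (hq.eich_mem_commutator hB hex _ _)⟩ <;>
  simp only [s1, s2, s3, io, ka, dk_mul, dk_r, this, zz2]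

theorem ad (x y : U) : x + (x + y) = y := by rw [← add_assoc, vv, zero_add]
theorem ad' (x y : U) : y + (x + y) = x := by rw [add_comm x, ad]

theorem val : (s1.1 a1 = b1 ∧ s1.1 b1 = a1 + b1 ∧ s1.1 a2 = a2 ∧ s1.1 b2 = b2 ∧ s1.1 a3 = a3 ∧ s1.1 b3 = b3) ∧
    (s2.1 a1 = a1 ∧ s2.1 b1 = b1 ∧ s2.1 a2 = b2 ∧ s2.1 b2 = a2 + b2 ∧ s2.1 a3 = a3 ∧ s2.1 b3 = b3) ∧
    (s3.1 a1 = a1 ∧ s3.1 b1 = b1 ∧ s3.1 a2 = a2 ∧ s3.1 b2 = b2 ∧ s3.1 a3 = b3 ∧ s3.1 b3 = a3 + b3) ∧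
    ((r a1).1 a1 = a1 ∧ (r a1).1 b1 = a1 + b1 ∧ (r a1).1 a2 = a2 ∧ (r a1).1 b2 = b2 ∧ (r a1).1 a3 = a3 ∧ (r a1).1 b3 = b3) ∧
    ((r a2).1 a1 = a1 ∧ (r a2).1 b1 = b1 ∧ (r a2).1 a2 = a2 ∧ (r a2).1 b2 = a2 + b2 ∧ (r a2).1 a3 = a3 ∧ (r a2).1 b3 = b3) ∧
    ((r a3).1 a1 = a1 ∧ (r a3).1 b1 = b1 ∧ (r a3).1 a2 = a2 ∧ (r a3).1 b2 = b2 ∧ (r a3).1 a3 = a3 ∧ (r a3).1 b3 = a3 + b3) ∧
    (ta.1 a1 = a1 ∧ ta.1 b1 = b1 ∧ ta.1 a2 = a3 ∧ ta.1 b2 = b3 ∧ ta.1 a3 = a2 ∧ ta.1 b3 = b2) ∧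
    (tb.1 a1 = a2 ∧ tb.1 b1 = b2 ∧ tb.1 a2 = a1 ∧ tb.1 b2 = b1 ∧ tb.1 a3 = a3 ∧ tb.1 b3 = b3) := by
  obtain ⟨q1, q2, q3, q4, q5, q6, q7, q8, q9⟩ := qv
  simp only [s1, s2, s3, ta, tb, omul, rf q1, rf q3, rf q4, rf q6, rf q7, rf q9, hq.eich_apply, t5, t6, BB, vs]
  refine ⟨?_, ?_, ?_, ?_, ?_, ?_, ?_, ?_⟩ <;> decide +kernel

theorem rel : (s1 ^ 3 = 1 ∧ s2 ^ 3 = 1 ∧ s3 ^ 3 = 1) ∧ (s1 * s2 = s2 * s1 ∧ s1 * s3 = s3 * s1 ∧ s2 * s3 = s3 * s2) ∧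
    (io * s1 = s1 * io ∧ s2 * io * s2 = io ∧ s3 * io * s3 = io ∧ io * io = 1) ∧
    (ta * s1 = s1 * ta ∧ ta * s2 = s3 * ta ∧ ta * s3 = s2 * ta) ∧ s1 * ka * s1 = ka ∧ tb * s2 = s1 * tb ∧
    s3 * r a2 = r a2 * s3 ∧ r a3 * r a2 = io := by
  have v := val
  refine ⟨⟨?_, ?_, ?_⟩, ⟨?_, ?_, ?_⟩, ⟨?_, ?_, ?_, ?_⟩, ⟨?_, ?_, ?_⟩, ?_, ?_, ?_, ?_⟩ <;>
  refine oext ?_ ?_ ?_ ?_ ?_ ?_ <;>
  simp only [pow_succ, pow_zero, one_mul, io, ka, omul, oone, v, map_add, ad, ad', add_assoc, vv, add_zero, add_comm b1 a1,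
    add_comm b2 a2, add_comm b3 a3]

theorem ne : a1 ≠ b1 ∧ a1 ≠ a1 + b1 ∧ b1 ≠ a1 + b1 ∧ a2 ≠ b2 ∧ a2 ≠ a2 + b2 ∧ b2 ≠ a2 + b2 ∧ a3 ≠ b3 ∧ a3 ≠ a3 + b3 ∧
    b3 ≠ a3 + b3 := by decide

theorem d1 : ∀ v, B' a2 v = 0 → B' b2 v = 0 → B' a3 v = 0 → B' b3 v = 0 → q v = 1 → v = a1 ∨ v = b1 ∨ v = a1 + b1 := by
  decide +kernel
theorem d2 : ∀ v, B' a1 v = 0 → B' b1 v = 0 → q v = 1 →
    v = a2 ∨ v = b2 ∨ v = a2 + b2 ∨ v = a3 ∨ v = b3 ∨ v = a3 + b3 := by decide +kernel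
theorem d3 : ∀ v, B' a1 v = 0 → B' b1 v = 0 → q v = 1 → B' a2 v = 1 → v = b2 ∨ v = a2 + b2 := by decide +kernel
theorem d4 : ∀ v, B' a1 v = 0 → B' b1 v = 0 → B' a2 v = 0 → B' b2 v = 0 → q v = 1 → v = a3 ∨ v = b3 ∨ v = a3 + b3 := by
  decide +kernel
theorem d5 : ∀ v, B' a1 v = 0 → B' b1 v = 0 → B' a2 v = 0 → B' b2 v = 0 → B' a3 v = 1 → v = b3 ∨ v = a3 + b3 := by
  decide +kernel
theorem d6 : ∀ w, ∃ d, q d = 1 ∧ B' d w = 0 := by decide +kernel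
theorem d7 : ∀ v, q v = 0 → v ≠ 0 → ∀ w, q w = 0 → B' v w = 0 → w ≠ 0 → w ≠ v →
    (∃ c, q c = 1 ∧ B' c v = 0 ∧ B' c w = 1) ∧ ∃ d, q d = 1 ∧ B' d v = 0 ∧ B' d w = 0 := by decide +kernel
theorem d8 : (Finset.univ.filter fun v : U => q v = 0 ∧ v ≠ 0).card = 27 := by decide +kernel
theorem d9 : (Finset.univ.filter fun v : U => B' a1 v = 0 ∧ B' b1 v = 0).card = 16 := by decide +kernel

theorem fixp {w : U} (h : s1.1 w = w) : B a1 w = 0 ∧ B b1 w = 0 := by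
  have e1 := oB s1 a1 w
  have e2 := oB s1 b1 w
  rw [h, val.1.1] at e1
  rw [h, val.1.2.1, map_add, LinearMap.add_apply] at e2
  revert e1 e2; generalize B a1 w = a; generalize B b1 w = b; revert a b; decide

theorem pfix {w : U} (h1 : B a1 w = 0) (h2 : B b1 w = 0) : s1.1 w = w := by
  rw [span w]; simp only [h1, h2, map_add, map_smul, val, zero_smul, map_zero]

theorem pwf {g : O} {v : U} (h : g.1 v = v) (n : ℕ) : (g ^ n).1 v = v := by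
  induction n with
  | zero => rfl
  | succ n ih => rw [pow_succ, omul, h, ih]

theorem c1 {g : O} (h : g * s1 = s1 * g) : ∃ i < 3, (s1 ^ i * g).1 a1 = a1 ∧ (s1 ^ i * g).1 b1 = b1 := by
  have v := val
  have k : ∀ w, s1.1 w = w → B' w (g.1 a1) = 0 := fun w hw => by
    have : s1.1 ((g⁻¹).1 w) = (g⁻¹).1 w := by
      rw [← omul, ← (Commute.inv_left h).eq, omul, hw]
    rw [← BB, ← oinv' g w, oB, hq.comm, (fixp this).1]
  have e : ∀ i, (s1 ^ i * g).1 a1 = a1 → (s1 ^ i * g).1 a1 = a1 ∧ (s1 ^ i * g).1 b1 = b1 := fun i e => ⟨e, by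
    rw [← v.1.1, ← omul, ((Commute.refl s1).pow_left i |>.mul_left h).eq, omul, e]⟩
  rcases d1 _ (k _ v.1.2.2.1) (k _ v.1.2.2.2.1) (k _ v.1.2.2.2.2.1) (k _ v.1.2.2.2.2.2) (by rw [oq, qv.1]) with a | a | a
  · exact ⟨0, by omega, e _ (by rw [omul, a]; rfl)⟩
  · exact ⟨2, by omega, e _ (by simp only [pow_succ, pow_zero, one_mul, omul, a, v, map_add, ad'])⟩
  · exact ⟨1, by omega, e _ (by simp only [pow_succ, pow_zero, one_mul, omul, a, v, map_add, ad'])⟩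

theorem pb {g : O} {u : U} (h : g.1 u = u) (w : U) : B' u (g.1 w) = B' u w := by
  rw [← BB, ← BB, ← oB g u w, h]

theorem c2 {g : O} (e1 : g.1 a1 = a1) (e2 : g.1 b1 = b1) : ∃ j < 3, ∃ m < 2, (s2 ^ j * ta ^ m * g).1 a2 = a2 := by
  have v := val
  rcases d2 (g.1 a2) (by rw [pb e1]; decide) (by rw [pb e2]; decide) (by rw [oq]; decide) with a | a | a | a | a | a
  exacts [⟨0, by omega, 0, by omega, by simp only [pow_zero, one_mul, a]⟩,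
    ⟨2, by omega, 0, by omega, by simp only [pow_succ, pow_zero, one_mul, mul_one, omul, a, v, map_add, ad']⟩,
    ⟨1, by omega, 0, by omega, by simp only [pow_succ, pow_zero, one_mul, mul_one, omul, a, v, map_add, ad']⟩,
    ⟨0, by omega, 1, by omega, by simp only [pow_succ, pow_zero, one_mul, mul_one, omul, a, v, map_add, ad']⟩,
    ⟨2, by omega, 1, by omega, by simp only [pow_succ, pow_zero, one_mul, mul_one, omul, a, v, map_add, ad']⟩,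
    ⟨1, by omega, 1, by omega, by simp only [pow_succ, pow_zero, one_mul, mul_one, omul, a, v, map_add, ad']⟩]

theorem c3 {g : O} (e1 : g.1 a1 = a1) (e2 : g.1 b1 = b1) (e3 : g.1 a2 = a2) : ∃ l < 2, (r a2 ^ l * g).1 b2 = b2 := by
  have v := val
  rcases d3 (g.1 b2) (by rw [pb e1]; decide) (by rw [pb e2]; decide) (by rw [oq]; decide) (by rw [pb e3]; decide) with a | a
  exacts [⟨0, by omega, by simp only [pow_zero, one_mul, a]⟩,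
    ⟨1, by omega, by simp only [pow_succ, pow_zero, one_mul, mul_one, omul, a, v, map_add, ad]⟩]

theorem c4 {g : O} (e1 : g.1 a1 = a1) (e2 : g.1 b1 = b1) (e3 : g.1 a2 = a2) (e4 : g.1 b2 = b2) :
    ∃ k < 3, (s3 ^ k * g).1 a3 = a3 := by
  have v := val
  rcases d4 (g.1 a3) (by rw [pb e1]; decide) (by rw [pb e2]; decide) (by rw [pb e3]; decide) (by rw [pb e4]; decide)
    (by rw [oq]; decide) with a | a | a
  exacts [⟨0, by omega, by simp only [pow_zero, one_mul, a]⟩,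
    ⟨2, by omega, by simp only [pow_succ, pow_zero, one_mul, mul_one, omul, a, v, map_add, ad']⟩,
    ⟨1, by omega, by simp only [pow_succ, pow_zero, one_mul, mul_one, omul, a, v, map_add, ad']⟩]

theorem c5 {g : O} (e1 : g.1 a1 = a1) (e2 : g.1 b1 = b1) (e3 : g.1 a2 = a2) (e4 : g.1 b2 = b2) (e5 : g.1 a3 = a3) :
    ∃ n < 2, r a3 ^ n * g = 1 := by
  have v := val
  rcases d5 (g.1 b3) (by rw [pb e1]; decide) (by rw [pb e2]; decide) (by rw [pb e3]; decide) (by rw [pb e4]; decide)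
    (by rw [pb e5]; decide) with a | a
  · exact ⟨0, by omega, by rw [pow_zero, one_mul]; exact oext e1 e2 e3 e4 e5 a⟩
  · refine ⟨1, by omega, oext ?_ ?_ ?_ ?_ ?_ ?_⟩ <;>
    simp only [pow_one, omul, oone, e1, e2, e3, e4, e5, a, v, map_add, ad]

theorem cls {g : O} (h : g * s1 = s1 * g) (hd : dk g = 0) :
    ∃ l < 2, ∃ k < 3, ∃ j < 3, ∃ m < 2, ∃ i < 3, g = io ^ l * s3 ^ k * s2 ^ j * ta ^ m * s1 ^ i := by
  have v := val
  have R := rel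
  have D := dks
  obtain ⟨i, hi, e1, e2⟩ := c1 (Commute.inv_left h).eq
  obtain ⟨j, hj, m, hm, e3⟩ := c2 e1 e2
  set g2 := s2 ^ j * ta ^ m * (s1 ^ i * g⁻¹) with hg2
  have f1 : g2.1 a1 = a1 := by rw [hg2, omul, e1, omul, pwf v.2.2.2.2.2.2.1.1, pwf v.2.1.1]
  have f2 : g2.1 b1 = b1 := by rw [hg2, omul, e2, omul, pwf v.2.2.2.2.2.2.1.2.1, pwf v.2.1.2.1]
  obtain ⟨l, hl, e4⟩ := c3 f1 f2 e3
  have k1 : (r a2 ^ l * g2).1 a1 = a1 := by rw [omul, f1, pwf v.2.2.2.2.1.1]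
  have k2 : (r a2 ^ l * g2).1 b1 = b1 := by rw [omul, f2, pwf v.2.2.2.2.1.2.1]
  have k3 : (r a2 ^ l * g2).1 a2 = a2 := by rw [omul, e3, pwf v.2.2.2.2.1.2.2.1]
  obtain ⟨k, hk, e5⟩ := c4 k1 k2 k3 e4
  obtain ⟨n, hn, e6⟩ := c5 (g := s3 ^ k * (r a2 ^ l * g2)) (by rw [omul, k1, pwf v.2.2.1.1])
    (by rw [omul, k2, pwf v.2.2.1.2.1]) (by rw [omul, k3, pwf v.2.2.1.2.2.1]) (by rw [omul, e4, pwf v.2.2.1.2.2.2.1]) e5
  have e7 := congrArg dk e6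
  simp only [hg2, dk_mul, dk_pow D.1, dk_pow D.2.1, dk_pow D.2.2.1, dk_pow D.2.2.2.2.2.1, dk_inv, hd, dk_one, add_zero,
    zero_add] at e7
  refine ⟨l, hl, k, hk, j, hj, m, hm, i, hi, ?_⟩
  have e8 : g = r a3 ^ n * (s3 ^ k * r a2 ^ l) * s2 ^ j * ta ^ m * s1 ^ i := by
    rw [← mul_inv_eq_one, ← inv_eq_one, mul_inv_rev, inv_inv, ← e6, hg2]; simp only [mul_assoc]
  rw [e8, (Commute.pow_pow R.2.2.2.2.2.2.1 k l).eq, ← mul_assoc]
  congr 4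
  interval_cases n <;> interval_cases l <;>
    simp only [pow_zero, pow_one, dk_one, dk_r qv.2.2.2.1, dk_r qv.2.2.2.2.2.2.1, mul_one, R.2.2.2.2.2.2.2] at e7 ⊢ <;>
    exact absurd e7 (by decide)

/-- the group of order 27 -/
noncomputable def A : Subgroup O where
  carrier := {g | ∃ i j k : ℕ, g = s1 ^ i * s2 ^ j * s3 ^ k}
  one_mem' := ⟨0, 0, 0, by simp⟩
  mul_mem' := by
    rintro _ _ ⟨i, j, k, rfl⟩ ⟨i', j', k', rfl⟩
    obtain ⟨-, ⟨c12, c13, c23⟩, -⟩ := rel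
    refine ⟨i + i', j + j', k + k', ?_⟩
    have e1 := (Commute.pow_pow c12 i' j).eq
    have e2 := (Commute.pow_pow c13 i' k).eq
    have e3 := (Commute.pow_pow c23 j' k).eq
    calc _ = s1 ^ i * s2 ^ j * (s3 ^ k * s1 ^ i') * s2 ^ j' * s3 ^ k' := by simp only [mul_assoc]
      _ = s1 ^ i * (s2 ^ j * s1 ^ i') * (s3 ^ k * s2 ^ j') * s3 ^ k' := by rw [← e2]; simp only [mul_assoc]
      _ = _ := by rw [← e1, ← e3]; simp only [pow_add, mul_assoc]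
  inv_mem' := by
    rintro _ ⟨i, j, k, rfl⟩
    obtain ⟨⟨p1, p2, p3⟩, ⟨c12, c13, c23⟩, -⟩ := rel
    refine ⟨2 * i, 2 * j, 2 * k, ?_⟩
    have h : ∀ (x : O) n, x ^ 3 = 1 → (x ^ n)⁻¹ = x ^ (2 * n) := fun x n e => by
      rw [inv_eq_iff_mul_eq_one, ← pow_add, show n + 2 * n = 3 * n by ring, pow_mul, e, one_pow]
    rw [mul_inv_rev, mul_inv_rev, h _ _ p1, h _ _ p2, h _ _ p3, ← (Commute.pow_pow c12 _ _).eq,
      ← ((Commute.pow_pow c13 _ _).mul_left (Commute.pow_pow c23 _ _)).eq]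

theorem sA : s1 ∈ A ∧ s2 ∈ A ∧ s3 ∈ A := ⟨⟨1, 0, 0, by simp⟩, ⟨0, 1, 0, by simp⟩, ⟨0, 0, 1, by simp⟩⟩

theorem A_le {K : Subgroup O} (h1 : s1 ∈ K) (h2 : s2 ∈ K) (h3 : s3 ∈ K) : A ≤ K := by
  rintro _ ⟨i, j, k, rfl⟩
  exact mul_mem (mul_mem (pow_mem h1 _) (pow_mem h2 _)) (pow_mem h3 _)

theorem A3 {g : O} (h : g ∈ A) : g ^ 3 = 1 := by
  obtain ⟨i, j, k, rfl⟩ := h
  obtain ⟨⟨p1, p2, p3⟩, ⟨c12, c13, c23⟩, -⟩ := rel
  have h : ∀ (x : O) n, x ^ 3 = 1 → (x ^ n) ^ 3 = 1 := fun x n e => by rw [← pow_mul, mul_comm, pow_mul, e, one_pow]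
  rw [((Commute.pow_pow c13 _ _).mul_left (Commute.pow_pow c23 _ _)).mul_pow, (Commute.pow_pow c12 _ _).mul_pow,
    h _ _ p1, h _ _ p2, h _ _ p3, one_mul, one_mul]

theorem A4 {g : O} (h : g ∈ A) (h4 : g ^ 4 = 1) : g = 1 := by rwa [pow_succ, A3 h, one_mul] at h4

noncomputable def T : Subgroup O := Subgroup.centralizer {s1} ⊓ commutator O

theorem mem_T {g : O} : g ∈ T ↔ g * s1 = s1 * g ∧ dk g = 0 := by
  rw [T, Subgroup.mem_inf, Subgroup.mem_centralizer_singleton_iff, dk_iff]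

theorem T_nm {g : O} (hg : g ∈ T) {a : O} (ha : a ∈ A) : g * a * g⁻¹ ∈ A := by
  obtain ⟨l, -, k, -, j, -, m, -, i, -, rfl⟩ := cls (mem_T.1 hg).1 (mem_T.1 hg).2
  obtain ⟨-, -, ⟨i1, i2, i3, -⟩, ⟨u1, u2, u3⟩, -⟩ := rel
  have n : ∀ x : O, x * s1 * x⁻¹ ∈ A → x * s2 * x⁻¹ ∈ A → x * s3 * x⁻¹ ∈ A → x ∈ Subgroup.normalizer (A : Set O) :=
    fun x h1 h2 h3 => Subgroup.mem_normalizer_fintype fun y hy =>
      A_le (K := A.comap (MulAut.conj x).toMonoidHom) h1 h2 h3 hy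
  have n1 := n io (by rw [i1, mul_inv_cancel_right]; exact sA.1)
    (by rw [show io * s2 * io⁻¹ = s2⁻¹ by rw [mul_inv_eq_iff_eq_mul, eq_inv_mul_iff_mul_eq, ← mul_assoc, i2]]
        exact inv_mem sA.2.1)
    (by rw [show io * s3 * io⁻¹ = s3⁻¹ by rw [mul_inv_eq_iff_eq_mul, eq_inv_mul_iff_mul_eq, ← mul_assoc, i3]]
        exact inv_mem sA.2.2)
  have n2 := n ta (by rw [u1, mul_inv_cancel_right]; exact sA.1) (by rw [u2, mul_inv_cancel_right]; exact sA.2.2)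
    (by rw [u3, mul_inv_cancel_right]; exact sA.2.1)
  have n3 := @Subgroup.le_normalizer _ _ A
  exact (Subgroup.mem_normalizer_iff.1 (mul_mem (mul_mem (mul_mem (mul_mem (pow_mem n1 l) (pow_mem (n3 sA.2.2) k))
    (pow_mem (n3 sA.2.1) j)) (pow_mem n2 m)) (pow_mem (n3 sA.1) i)) a).1 ha

theorem two_le {G : Type*} [Group G] [Finite G] {H K : Subgroup G} (h : H ≤ K) {x : G} (h1 : x ∈ K) (h2 : x ∉ H) :
    2 * Nat.card H ≤ Nat.card K := by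
  obtain ⟨d, hd⟩ := Subgroup.card_dvd_of_le h
  have p : 0 < Nat.card K := Nat.card_pos
  rcases d with _ | _ | d
  · omega
  · exact absurd (Subgroup.eq_of_le_of_card_ge h (by omega) ▸ h1) h2
  · rw [hd]; nlinarith

theorem inj3 {g : O} {a b : U} (e1 : g.1 a = b) (e2 : g.1 b = a + b) (n1 : a ≠ b) (n2 : a ≠ a + b) (n3 : b ≠ a + b)
    (i j : Fin 3) (h : (g ^ i.1).1 a = (g ^ j.1).1 a) : i = j := by
  fin_cases i <;> fin_cases j <;> simp only [pow_succ, pow_zero, one_mul, omul, oone, e1, e2] at h ⊢ <;>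
    first | exact absurd h n1 | exact absurd h n2 | exact absurd h n3 | exact absurd h.symm n1 | exact absurd h.symm n2 |
      exact absurd h.symm n3

theorem card_A : 27 ≤ Nat.card A := by
  have v := val
  have N := ne
  obtain ⟨-, ⟨c12, c13, c23⟩, -⟩ := rel
  have := Nat.card_le_card_of_injective (fun x : Fin 3 × Fin 3 × Fin 3 =>
    (⟨s1 ^ x.1.1 * s2 ^ x.2.1.1 * s3 ^ x.2.2.1, _, _, _, rfl⟩ : A)) (by
      rintro ⟨i, j, k⟩ ⟨i', j', k'⟩ e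
      have e := congrArg Subtype.val e
      have f1 : ∀ i j k : ℕ, (s1 ^ i * s2 ^ j * s3 ^ k).1 a1 = (s1 ^ i).1 a1 := fun i j k => by
        rw [omul, omul, pwf v.2.2.1.1, pwf v.2.1.1]
      have f2 : ∀ i j k : ℕ, (s1 ^ i * s2 ^ j * s3 ^ k).1 a2 = (s2 ^ j).1 a2 := fun i j k => by
        rw [(Commute.pow_pow c12 _ _).eq, omul, omul, pwf v.2.2.1.2.2.1, pwf v.1.2.2.1]
      have f3 : ∀ i j k : ℕ, (s1 ^ i * s2 ^ j * s3 ^ k).1 a3 = (s3 ^ k).1 a3 := fun i j k => by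
        rw [((Commute.pow_pow c13 _ _).mul_left (Commute.pow_pow c23 _ _)).eq, omul, omul, pwf v.2.1.2.2.2.2.1,
          pwf v.1.2.2.2.2.1]
      simp only at e
      rw [inj3 v.1.1 v.1.2.1 N.1 N.2.1 N.2.2.1 i i' (by rw [← f1 _ j k, e, f1]),
        inj3 v.2.1.2.2.1 v.2.1.2.2.2.1 N.2.2.2.1 N.2.2.2.2.1 N.2.2.2.2.2.1 j j' (by rw [← f2 i _ k, e, f2]),
        inj3 v.2.2.1.2.2.2.2.1 v.2.2.1.2.2.2.2.2 N.2.2.2.2.2.2.1 N.2.2.2.2.2.2.2.1 N.2.2.2.2.2.2.2.2 k k'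
          (by rw [← f3 i j _, e, f3])])
  simpa using this

theorem card_T : Nat.card T = 108 := by
  have v := val
  have N := ne
  have D := dks
  obtain ⟨-, ⟨c12, c13, c23⟩, ⟨i1, i2, i3, i4⟩, ⟨u1, u2, u3⟩, -⟩ := rel
  have m1 : s1 ∈ T := mem_T.2 ⟨rfl, D.1⟩
  have m2 : s2 ∈ T := mem_T.2 ⟨c12.symm, D.2.1⟩
  have m3 : s3 ∈ T := mem_T.2 ⟨c13.symm, D.2.2.1⟩
  have m4 : io ∈ T := mem_T.2 ⟨i1, D.2.2.2.1⟩
  have m5 : ta ∈ T := mem_T.2 ⟨u1, D.2.2.2.2.2.1⟩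
  refine le_antisymm ?_ ?_
  · have := Nat.card_le_card_of_surjective (fun x : Fin 2 × Fin 3 × Fin 3 × Fin 2 × Fin 3 =>
      (⟨io ^ x.1.1 * s3 ^ x.2.1.1 * s2 ^ x.2.2.1.1 * ta ^ x.2.2.2.1.1 * s1 ^ x.2.2.2.2.1,
        mul_mem (mul_mem (mul_mem (mul_mem (pow_mem m4 _) (pow_mem m3 _)) (pow_mem m2 _)) (pow_mem m5 _))
          (pow_mem m1 _)⟩ : T)) fun g => by
      obtain ⟨l, hl, k, hk, j, hj, m, hm, i, hi, e⟩ := cls (mem_T.1 g.2).1 (mem_T.1 g.2).2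
      exact ⟨⟨⟨l, hl⟩, ⟨k, hk⟩, ⟨j, hj⟩, ⟨m, hm⟩, ⟨i, hi⟩⟩, Subtype.ext e.symm⟩
    simpa using this
  · let N2 := Subgroup.normalizer ((Subgroup.zpowers s2 : Subgroup O) : Set O)
    have n : ∀ x : O, x * s2 * x⁻¹ ∈ Subgroup.zpowers s2 → x ∈ N2 := fun x h =>
      Subgroup.mem_normalizer_fintype fun y hy =>
        (Subgroup.zpowers_le (H := (Subgroup.zpowers s2).comap (MulAut.conj x).toMonoidHom)).2 h hy
    have h1 := two_le (H := A) (K := T ⊓ N2) (x := io)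
      (A_le ⟨m1, n _ (by rw [c12, mul_inv_cancel_right]; exact Subgroup.mem_zpowers _)⟩
        ⟨m2, n _ (by rw [mul_inv_cancel_right]; exact Subgroup.mem_zpowers _)⟩
        ⟨m3, n _ (by rw [← c23, mul_inv_cancel_right]; exact Subgroup.mem_zpowers _)⟩)
      ⟨m4, n _ (by
        rw [show io * s2 * io⁻¹ = s2⁻¹ by rw [mul_inv_eq_iff_eq_mul, eq_inv_mul_iff_mul_eq, ← mul_assoc, i2]]
        exact inv_mem (Subgroup.mem_zpowers _))⟩ fun h => by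
        have := congrArg (fun g : O => g.1 b2) (A4 h (by rw [show 4 = 2 * 2 from rfl, pow_mul, sq io, i4, one_pow]))
        simp only [io, omul, oone, v] at this
        exact N.2.2.2.2.2.1 this.symm
    have h2 := two_le (H := T ⊓ N2) (K := T) (x := ta) inf_le_left m5 fun h => by
      have := (Subgroup.mem_normalizer_iff.1 h.2 s2).1 (Subgroup.mem_zpowers _)
      rw [u2, mul_inv_cancel_right] at this
      obtain ⟨k, hk⟩ := (mem_powers_iff_mem_zpowers).2 this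
      have e := pwf v.2.1.2.2.2.2.1 k
      simp only at hk
      rw [hk, v.2.2.1.2.2.2.2.1] at e
      exact N.2.2.2.2.2.2.1 e.symm
    have := card_A
    omega

theorem cW {g : O} (h : g * s1 = s1 * g) (e3 : g.1 a2 = a2) (e4 : g.1 b2 = b2) (e5 : g.1 a3 = a3) (e6 : g.1 b3 = b3) :
    g ∈ A := by
  have v := val
  obtain ⟨i, -, e1, e2⟩ := c1 h
  have : s1 ^ i * g = 1 := oext e1 e2 (by rw [omul, e3, pwf v.1.2.2.1]; rfl) (by rw [omul, e4, pwf v.1.2.2.2.1]; rfl)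
    (by rw [omul, e5, pwf v.1.2.2.2.2.1]; rfl) (by rw [omul, e6, pwf v.1.2.2.2.2.2]; rfl)
  rw [eq_inv_of_mul_eq_one_right this]
  exact inv_mem (pow_mem sA.1 i)

theorem trans {v w : U} (hv : q v = 0) (v0 : v ≠ 0) (hw : q w = 0) (w0 : w ≠ 0) : ∃ g : O, dk g = 0 ∧ g.1 v = w := by
  obtain ⟨g, hg, e⟩ := hq.witt_one hB v0 w0 (hw.trans hv.symm)
  rcases z2 (dk ⟨g, hg⟩) with h | h
  · exact ⟨_, h, e⟩
  · obtain ⟨d, h1, h2⟩ := d6 w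
    refine ⟨r d * ⟨g, hg⟩, by rw [dk_mul, h, dk_r h1]; rfl, ?_⟩
    rw [omul, show (⟨g, hg⟩ : O).1 v = w from e, rf h1, BB, h2, zero_smul, add_zero]

theorem hyper {t : O} (hd : dk t = 0) (h : ∀ v w, t.1 v ≠ v → t.1 w ≠ w → t.1 (v + w) = v + w) : t = 1 := by
  by_contra hn
  obtain ⟨v, hv⟩ : ∃ v, t.1 v ≠ v := by
    by_contra hc
    push Not at hc
    exact hn (Subtype.ext (LinearEquiv.ext hc))
  have : movS t.1 = Submodule.span (ZMod 2) {t.1 v - v} := by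
    refine le_antisymm (fun y hy => ?_) ((Submodule.span_singleton_le_iff_mem _ _).2 (mem_movS.2 ⟨v, rfl⟩))
    obtain ⟨x, rfl⟩ := mem_movS.1 hy
    by_cases e : t.1 x = x
    · rw [e, sub_self]; exact zero_mem _
    · have := h v x hv e
      rw [map_add] at this
      rw [show t.1 x - x = t.1 v - v by
        rw [vs, vs, ← ad (t.1 v) (t.1 x), this, add_assoc, add_assoc, vv, add_zero]]
      exact Submodule.mem_span_singleton_self _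
  rw [dk, dick, this, finrank_span_singleton (sub_ne_zero.2 hv)] at hd
  exact absurd hd (by decide)

theorem li {a c : U} (h : B a c = 1) : LinearIndependent (ZMod 2) ![a, c] := LinearIndependent.pair_iff.2 fun s t e => by
  have e1 := congrArg (B a) e
  have e2 := congrArg (B c) e
  simp only [map_add, map_smul, bb, h, hq.comm c a, smul_eq_mul, mul_zero, mul_one, zero_add, add_zero, map_zero] at e1 e2
  exact ⟨e2, e1⟩

theorem adapt {σ : O} (h3 : σ ^ 3 = 1) {a b : U} (hab : B a b = 1)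
    (h1 : ∀ x, σ.1 x + x = 0 ∨ σ.1 x + x = a ∨ σ.1 x + x = b ∨ σ.1 x + x = a + b) (ha : ∃ x, σ.1 x + x = a)
    (hb : ∃ x, σ.1 x + x = b) : ∃ g : O, g * σ * g⁻¹ = s1 := by
  have c3 : ∀ x, σ.1 (σ.1 (σ.1 x)) = x := fun x => by
    have := congrArg (fun g : O => g.1 x) h3
    simpa only [pow_succ, pow_zero, one_mul, omul, oone] using this
  have k : ∀ m, (∃ x, σ.1 x + x = m) → m ≠ 0 → σ.1 m ≠ 0 ∧ σ.1 m ≠ m ∧ ∃ x, σ.1 x + x = σ.1 m := by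
    rintro _ ⟨x, rfl⟩ m0
    refine ⟨fun e => m0 (σ.1.map_eq_zero_iff.1 e), fun e => m0 ?_, σ.1 x, (map_add _ _ _).symm⟩
    rw [map_add, add_comm (σ.1 x), add_left_inj] at e
    have := c3 x
    rw [e] at this
    rw [this, vv]
  have a0 : a ≠ 0 := fun e => by rw [e, map_zero, LinearMap.zero_apply] at hab; exact absurd hab (by decide)
  obtain ⟨n1, n2, x, hx⟩ := k a ha a0
  obtain ⟨n3, n4, y, hy⟩ := k _ ⟨x, hx⟩ n1
  have hc : σ.1 a = b ∨ σ.1 a = a + b := by have := h1 x; rw [hx] at this; tauto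
  have n5 : σ.1 (σ.1 a) ≠ a := fun e => n2 (by have := c3 a; rwa [e] at this)
  have hd : σ.1 (σ.1 a) = a + σ.1 a := by
    have := h1 y
    rw [hy] at this
    rcases hc with e | e
    · rw [← e] at this; tauto
    · rw [← e] at this; rw [e, ad, ← e]; tauto
  have Bc : B a (σ.1 a) = 1 := by
    rcases hc with e | e <;> rw [e]
    exacts [hab, by rw [map_add, bb, hab, zero_add]]
  have h2 : ∀ x, σ.1 x + x = 0 ∨ σ.1 x + x = a ∨ σ.1 x + x = σ.1 a ∨ σ.1 x + x = a + σ.1 a := fun x => by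
    have := h1 x
    rcases hc with e | e <;> rw [e]
    exacts [this, by rw [ad]; tauto]
  have qa : q a = 1 := by
    have e := hq.add' a (σ.1 a)
    rw [← hd, oq, oq, Bc, zz2, zero_add] at e
    exact e
  obtain ⟨g, hg, e⟩ := hq.witt_family hB ![a, σ.1 a] ![a1, b1] (li Bc) (li bv.1.1) (fun i j => by
    fin_cases i <;> fin_cases j <;> simp [bb, Bc, bv, hq.comm (σ.1 a) a]) fun i => by
      fin_cases i <;> simp [qv, qa, oq]
  have e1 : g a = a1 := e 0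
  have e2 : g (σ.1 a) = b1 := e 1
  refine ⟨⟨g, hg⟩, ?_⟩
  set s := (⟨g, hg⟩ : O) * σ * (⟨g, hg⟩ : O)⁻¹ with hs
  have f : ∀ x, s.1 (g x) = g (σ.1 x) := fun x => by
    rw [hs, omul, show g x = (⟨g, hg⟩ : O).1 x from rfl, oinv]; rfl
  have f1 : s.1 a1 = b1 := by rw [← e1, f, e2]
  have f2 : s.1 b1 = a1 + b1 := by rw [← e2, f, hd, map_add, e1, e2]
  have f3 : ∀ w, B a1 w = 0 → B b1 w = 0 → s.1 w = w := fun w p1 p2 => by
    obtain ⟨x, rfl⟩ := g.surjective w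
    have u1 := oB s a1 (g x)
    have u2 := oB s b1 (g x)
    rw [f1, p1] at u1
    rw [f2, p2, map_add, LinearMap.add_apply, u1, add_zero] at u2
    have u3 : B a1 (s.1 (g x) + g x) = 0 := by rw [map_add, u2, p1, add_zero]
    have u4 : B b1 (s.1 (g x) + g x) = 0 := by rw [map_add, u1, p2, add_zero]
    have u5 : s.1 (g x) + g x = 0 := by
      rw [f, ← map_add] at u3 u4 ⊢
      rcases h2 x with e | e | e | e <;> rw [e] at u3 u4 ⊢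
      · exact map_zero _
      · rw [e1, bv.2.1] at u4; exact absurd u4 (by decide)
      · rw [e2, bv.1.1] at u3; exact absurd u3 (by decide)
      · rw [map_add, e1, e2, map_add, bb, bv.1.1] at u3; exact absurd u3 (by decide)
    rw [← ad' (s.1 (g x)) (g x), u5, add_zero]
  have v := val
  have w := bv
  exact oext (f1.trans v.1.1.symm) (f2.trans v.1.2.1.symm) (by rw [f3 _ w.1.2.1 w.1.2.2.2.2.2.1, v.1.2.2.1])
    (by rw [f3 _ w.1.2.2.1 w.1.2.2.2.2.2.2.1, v.1.2.2.2.1]) (by rw [f3 _ w.1.2.2.2.1 w.1.2.2.2.2.2.2.2.1, v.1.2.2.2.2.1])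
    (by rw [f3 _ w.1.2.2.2.2.1 w.1.2.2.2.2.2.2.2.2.1, v.1.2.2.2.2.2])

end Cfsg.Agent.H23.Sz
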