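import Mathlib
import Cfsg.Agent.H23.Sz1
import Cfsg.Agent.H3.XM
import Cfsg.Agent.L1.ES
import Cfsg.Agent.S0287
import Cfsg.Agent.S0288
import Cfsg.Agent.S1265

/-! Coordinates on an involution centraliser of shape `2^{1+6}.Ω⁻₆(2)`. -/

set_option autoImplicit false
set_option linter.unusedSimpArgs false

namespace Cfsg.Agent.H23.Sz
open Cfsg H11 H3 Subgroup L1ES

theorem exists_rho {V : Type*} [AddCommGroup V] [Module (ZMod 2) V] [Finite V] {β C : V →ₗ[ZMod 2] V →ₗ[ZMod 2] ZMod 2}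
    {p : V → ZMod 2} (h : EX.ND β) (hC : IsQuad C p) (hp : ∀ v, p v = β v v) {H : Type*} [Group H] (Q : Subgroup H) [Q.Normal]
    (hc : centralizer (Q : Set H) ≤ Q) (ψ : Q ≃* EX β) : ∃ ρ : H →* Isom C p, ρ.ker = Q ∧
      ∀ g (x y : Q), y.1 = g * x * g⁻¹ → (ψ y).v = (ρ g).1 (ψ x).v := by
  let Φ : H →* MulAut (EX β) := (MulAut.congr ψ).toMonoidHom.comp MulAut.conjNormal
  have hΦ : ∀ g (x y : Q), y.1 = g * x * g⁻¹ → Φ g (ψ x) = ψ y := fun g x y e => by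
    simp only [Φ, MonoidHom.comp_apply, MulEquiv.coe_toMonoidHom, MulAut.congr_apply, MulEquiv.trans_apply,
      MulEquiv.symm_apply_apply]
    exact congrArg ψ (Subtype.ext (by rw [e]; rfl))
  let L : H →* (V ≃ₗ[ZMod 2] V) := (LinearMap.GeneralLinearGroup.generalLinearEquiv (ZMod 2) V).toMonoidHom.comp
    (h.lin.comp Φ).toHomUnits
  have hL : ∀ g v, L g v = h.lin (Φ g) v := fun _ _ => rfl
  refine ⟨L.codRestrict _ fun g => hC.mem_isom.2 fun v => by rw [hL, hp, hp, h.lin_q], ?_, fun g x y e => ?_⟩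
  · ext g
    rw [MonoidHom.mem_ker]
    constructor
    · intro e
      obtain ⟨x, hx⟩ := h.inner (α := Φ g) (LinearMap.ext fun v => by
        rw [← hL]; exact congrArg (fun s : Isom C p => s.1 v) e)
      obtain ⟨u, rfl⟩ := ψ.surjective x
      refine (mul_mem_cancel_left (inv_mem u.2)).1 (hc fun y hy => ?_)
      have := hΦ g ⟨y, hy⟩ ⟨_, Normal.conj_mem inferInstance y hy g⟩ rfl
      rw [← hx, MulAut.conj_apply, ← map_inv, ← map_mul, ← map_mul] at this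
      have e2 : u.1 * y * u.1⁻¹ = g * y * g⁻¹ := congrArg Subtype.val (ψ.injective this)
      calc y * (u.1⁻¹ * g) = u.1⁻¹ * (u.1 * y * u.1⁻¹) * g := by group
        _ = _ := by rw [e2]; group
    · intro hg
      refine Subtype.ext (LinearEquiv.ext fun v => ?_)
      have : Φ g = MulAut.conj (ψ ⟨g, hg⟩) := MulEquiv.ext fun x => by
        obtain ⟨u, rfl⟩ := ψ.surjective x
        rw [hΦ g u (⟨g, hg⟩ * u * ⟨g, hg⟩⁻¹) rfl, map_mul, map_mul, map_inv]; rfl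
      exact (hL g v).trans (by rw [this, h.lin_conj]; rfl)
  · rw [← hΦ g x y e, ← h.lin_v]; rfl

theorem card_O : Nat.card O = 51840 := by
  have e1 := S0288.result (F := ZMod 2) (q := 2) (by simp) 3 (by omega) 1 1 hab
  change Nat.card (isometryGroup (ZMod 2) q) = _ at e1
  rw [← Nat.card_congr (oEquiv hq).toEquiv, e1]
  decide

theorem card_com : Nat.card (commutator O) = 25920 := by
  have e1 := (commutator O).card_mul_index
  rw [hq.index_commutator_of_char_two hB hex rfl (by simp), card_O] at e1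
  omega

variable {G : Type*} [Group G]

structure Co (z : G) (P : Subgroup G) (π : G → U) (ρ : G → O) : Prop extends ES z P where
  card : Nat.card P = 128
  add : ∀ x ∈ P, ∀ y ∈ P, π (x * y) = π x + π y
  ker : ∀ x ∈ P, π x = 0 ↔ x = 1 ∨ x = z
  surj : ∀ v, ∃ x ∈ P, π x = v
  sq0 : ∀ x ∈ P, x * x = 1 ↔ q (π x) = 0
  cm0 : ∀ x ∈ P, ∀ y ∈ P, x * y = y * x ↔ B (π x) (π y) = 0
  mul : ∀ g h, g * z = z * g → h * z = z * h → ρ (g * h) = ρ g * ρ h
  act : ∀ g, g * z = z * g → ∀ x ∈ P, π (g * x * g⁻¹) = (ρ g).1 (π x)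
  rk : ∀ g, g * z = z * g → (ρ g = 1 ↔ g ∈ P)
  rd : ∀ g, g * z = z * g → dk (ρ g) = 0
  rs : ∀ σ, dk σ = 0 → ∃ g, g * z = z * g ∧ ρ g = σ

theorem Co.move {z : G} {P : Subgroup G} {π : G → U} {ρ : G → O} (h : Co z P π ρ) (g : O) :
    Co z P (fun x => g.1 (π x)) fun x => g * ρ x * g⁻¹ where
  toES := h.toES
  card := h.card
  add x hx y hy := by rw [h.add x hx y hy, map_add]
  ker x hx := by rw [← h.ker x hx, g.1.map_eq_zero_iff]
  surj v := let ⟨x, a, b⟩ := h.surj ((g⁻¹).1 v); ⟨x, a, by rw [b, oinv']⟩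
  sq0 x hx := by rw [oq, h.sq0 x hx]
  cm0 x hx y hy := by rw [oB, h.cm0 x hx y hy]
  mul a b ha hb := by rw [h.mul a b ha hb]; group
  act a ha x hx := by rw [h.act a ha x hx, omul, omul, oinv]
  rk a ha := by rw [← h.rk a ha, mul_inv_eq_one, mul_eq_left]
  rd a ha := by rw [dk_mul, dk_mul, dk_inv, h.rd a ha, add_zero, zz2]
  rs σ hσ := by
    obtain ⟨a, ha, e⟩ := h.rs (g⁻¹ * σ * g) (by rw [dk_mul, dk_mul, dk_inv, hσ, add_zero, zz2])
    exact ⟨a, ha, by rw [e]; group⟩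

theorem exists_co [Finite G] {z : G} (hz : orderOf z = 2) (Q : Subgroup (centralizer ({z} : Set G))) [Q.Normal]
    (hF : generalizedFittingSubgroup (centralizer ({z} : Set G)) = Q) (hQ : IsExtraspecial 2 Q) (hcard : Nat.card Q = 2 ^ 7)
    (e : (centralizer ({z} : Set G)) ⧸ Q ≃* Omega (ZMod 2) q) :
    ∃ π ρ, Co z (Q.map (centralizer ({z} : Set G)).subtype) π ρ := by
  have hc : centralizer (Q : Set (centralizer ({z} : Set G))) ≤ Q := hF ▸ S1265.result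
  have cq : Nat.card ((centralizer ({z} : Set G)) ⧸ Q) = 25920 :=
    (Nat.card_congr (e.trans (omegaEquiv hq)).toEquiv).trans card_com
  have rg : ∀ {X : Type} [Group X] (ρ : centralizer ({z} : Set G) →* X), ρ.ker = Q → Nat.card ρ.range = 25920 :=
    fun ρ k => by rw [← index_ker, k, index_eq_card, cq]
  obtain ⟨z0, h0, -⟩ := exists_xs_top hQ
  by_cases k : 0 < dl (⊤ : Subgroup Q)
  · have c := hcard.trans (bP_card 3).symm
    obtain ⟨ψ⟩ := (h0.gi_sign (bP_nd 3).xs (by rwa [card_top, card_top]) (iff_of_true k (bP_dl 3))).iso_top c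
    obtain ⟨ρ, k1, -⟩ := exists_rho (bP_nd 3) (isQuad_plus 3 (ZMod 2)) (fun _ => rfl) Q hc ψ
    have e1 := S0287.result (F := ZMod 2) (q := 2) (by simp) 3 (by omega)
    have d := card_subgroup_dvd_card ρ.range
    rw [rg ρ k1, ← Nat.card_congr (oEquiv (isQuad_plus 3 (ZMod 2))).toEquiv, e1] at d
    exact absurd d (by decide)
  have c := hcard.trans (bM_card 2).symm
  obtain ⟨ψ⟩ := (h0.gi_sign (bM_nd 2).xs (by rwa [card_top, card_top]) (iff_of_false k (bM_dl 2))).iso_top c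
  have hp : ∀ v, q v = bM 2 v v := fun v => by simp [bM, quadFormMinus, pow_two]
  obtain ⟨ρ, k1, k2⟩ := exists_rho (bM_nd 2) hq hp Q hc ψ
  have rd : ∀ g, dk (ρ g) = 0 := fun g => by
    let f := (QuotientGroup.lift Q ((hq.dickHom hB).comp ρ) fun x hx => by
      rw [MonoidHom.mem_ker, MonoidHom.comp_apply, show ρ x = 1 from k1.ge hx, map_one]).comp (e.trans (omegaEquiv hq)).symm.toMonoidHom
    have := Abelianization.commutator_subset_ker f
    rw [hq.commutator_perfect hB (by simp)] at this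
    have e2 := this (mem_top ((e.trans (omegaEquiv hq)) (QuotientGroup.mk g)))
    rw [MonoidHom.mem_ker, MonoidHom.comp_apply, MulEquiv.coe_toMonoidHom, MulEquiv.symm_apply_apply] at e2
    exact e2
  have rr : ρ.range = commutator O := eq_of_le_of_card_ge (by rintro _ ⟨g, rfl⟩; exact (dk_iff _).2 (rd g))
    (by rw [rg ρ k1, card_com])
  have mC : ∀ {x : G}, x ∈ centralizer ({z} : Set G) ↔ x * z = z * x := mem_centralizer_singleton_iff
  have z1 : z ≠ 1 := by rintro rfl; simp at hz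
  have zz : z * z = 1 := by rw [← pow_two, ← hz, pow_orderOf_eq_one]
  have zQ : (⟨z, mC.2 rfl⟩ : centralizer ({z} : Set G)) ∈ Q := hc fun x _ => Subtype.ext (mC.1 x.2)
  have zψ : ψ ⟨_, zQ⟩ = EX.z := (EX.of_v ((bM_nd 2).cen fun y => by
    obtain ⟨y, rfl⟩ := ψ.surjective y
    rw [← map_mul, ← map_mul]
    exact congrArg ψ (Subtype.ext (Subtype.ext (mC.1 y.1.2).symm)))).resolve_left fun e =>
      z1 (congrArg (·.1.1) ((MulEquiv.map_eq_one_iff ψ).1 e))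
  have inj : Function.Injective fun y : Q => y.1.1 := fun _ _ e => Subtype.ext (Subtype.ext e)
  let π : G → U := Function.extend (fun y : Q => y.1.1) (fun y => (ψ y).v) 0
  have hπ : ∀ y : Q, π y.1.1 = (ψ y).v := fun y => inj.extend_apply _ _ y
  let ρ' : G → O := Function.extend Subtype.val ρ 1
  have hρ : ∀ y : centralizer ({z} : Set G), ρ' y.1 = ρ y := fun y => Subtype.val_injective.extend_apply _ _ y
  have ex : ∀ x ∈ Q.map (centralizer ({z} : Set G)).subtype, ∃ y : Q, y.1.1 = x := by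
    rintro _ ⟨y, hy, rfl⟩; exact ⟨⟨y, hy⟩, rfl⟩
  have ker : ∀ y : Q, (ψ y).v = 0 ↔ y.1.1 = 1 ∨ y.1.1 = z := fun y =>
    ⟨fun a => (EX.of_v a).imp (fun b => congrArg (·.1.1) ((MulEquiv.map_eq_one_iff ψ).1 b))
      fun b => congrArg (·.1.1) (ψ.injective (b.trans zψ.symm)), by
        rintro (a | a)
        · rw [show y = 1 from inj a, map_one]; rfl
        · rw [show y = ⟨_, zQ⟩ from inj a, zψ]; rfl⟩
  have cm : ∀ x y : Q, x.1.1 * y.1.1 = y.1.1 * x.1.1 ↔ B (ψ x).v (ψ y).v = 0 := fun x y => by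
    have e1 := hq.add' (ψ x).v (ψ y).v
    simp only [hp, map_add, LinearMap.add_apply] at e1
    rw [show x.1.1 * y.1.1 = y.1.1 * x.1.1 ↔ ψ x * ψ y = ψ y * ψ x by
      rw [← map_mul, ← map_mul, ψ.injective.eq_iff]; exact ⟨fun a => inj a, fun a => congrArg (·.1.1) a⟩, EX.comm_iff]
    revert e1
    generalize bM 2 (ψ x).v (ψ x).v = a; generalize bM 2 (ψ x).v (ψ y).v = b; generalize bM 2 (ψ y).v (ψ x).v = c
    generalize bM 2 (ψ y).v (ψ y).v = d; generalize B (ψ x).v (ψ y).v = f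
    revert a b c d f; decide
  refine ⟨π, ρ', ⟨z1, zz, ⟨_, zQ, rfl⟩, ?_, ?_, fun x hx h => ?_, fun x hx y hy => ?_, fun x hx => ?_⟩,
    (card_map_of_injective (subtype_injective _)).trans hcard, fun x hx y hy => ?_, fun x hx => ?_, fun v => ?_,
    fun x hx => ?_, fun x hx y hy => ?_, fun g h hg hh => ?_, fun g hg x hx => ?_, fun g hg => ?_, fun g hg => ?_,
    fun σ hσ => ?_⟩
  · rintro _ ⟨x, -, rfl⟩; exact mC.1 x.2
  · rintro c hc _ ⟨x, hx, rfl⟩
    exact ⟨_, Normal.conj_mem inferInstance x hx ⟨c, mC.2 hc⟩, rfl⟩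
  · obtain ⟨x, rfl⟩ := ex x hx
    refine (ker x).1 (hB _ fun v => ?_)
    obtain ⟨y, hy⟩ := ψ.surjective ⟨v, 0⟩
    have := (cm x y).1 (h _ ⟨y.1, y.2, rfl⟩)
    rwa [hy] at this
  · obtain ⟨x, rfl⟩ := ex x hx
    obtain ⟨y, rfl⟩ := ex y hy
    rcases (ker ((y * x)⁻¹ * (x * y))).1 (by simp only [map_mul, map_inv, EX.mul_v, EX.inv_v]; abel) with a | a
    · exact .inl (inv_mul_eq_one.1 a).symm
    · exact .inr (inv_mul_eq_iff_eq_mul.1 a)
  · obtain ⟨x, rfl⟩ := ex x hx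
    exact (ker (x * x)).1 (by rw [map_mul, EX.mul_v, vv])
  · obtain ⟨x, rfl⟩ := ex x hx
    obtain ⟨y, rfl⟩ := ex y hy
    exact (hπ (x * y)).trans (by rw [map_mul, EX.mul_v, hπ, hπ])
  · obtain ⟨x, rfl⟩ := ex x hx
    rw [hπ, ker]
  · obtain ⟨y, hy⟩ := ψ.surjective ⟨v, 0⟩
    exact ⟨y.1.1, ⟨y.1, y.2, rfl⟩, by rw [hπ, hy]⟩
  · obtain ⟨x, rfl⟩ := ex x hx
    rw [hπ, hp, show x.1.1 * x.1.1 = 1 ↔ ψ x * ψ x = 1 by
      rw [← map_mul, MulEquiv.map_eq_one_iff]; exact ⟨fun a => inj a, fun a => congrArg (·.1.1) a⟩, EX.sq]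
    exact ⟨fun a => congrArg EX.a a, fun a => by rw [a]; rfl⟩
  · obtain ⟨x, rfl⟩ := ex x hx
    obtain ⟨y, rfl⟩ := ex y hy
    rw [hπ, hπ, cm]
  · exact (hρ (⟨g, mC.2 hg⟩ * ⟨h, mC.2 hh⟩)).trans (by rw [map_mul, ← hρ, ← hρ])
  · obtain ⟨x, rfl⟩ := ex x hx
    exact (hπ ⟨_, Normal.conj_mem inferInstance x.1 x.2 ⟨g, mC.2 hg⟩⟩).trans (by
      rw [k2 ⟨g, mC.2 hg⟩ x _ rfl, hπ, ← hρ])
  · rw [show ρ' g = ρ ⟨g, mC.2 hg⟩ from hρ ⟨g, _⟩, ← MonoidHom.mem_ker, k1]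
    exact (mem_map_iff_mem (subtype_injective _) (x := ⟨g, mC.2 hg⟩)).symm
  · exact (congrArg dk (hρ ⟨g, mC.2 hg⟩)).trans (rd _)
  · obtain ⟨g, hg⟩ := rr.ge ((dk_iff σ).2 hσ)
    exact ⟨g.1, mC.1 g.2, (hρ g).trans hg⟩

end Cfsg.Agent.H23.Sz
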