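import Mathlib
import Cfsg.Agent.H23.Sz2

/-! Conjugates of the extraspecial group in a group of Suzuki type. -/

set_option autoImplicit false
set_option linter.unusedSimpArgs false
set_option linter.unusedSectionVars false

namespace Cfsg.Agent.H23.Sz
open Cfsg H11 Subgroup L1ES

variable {G : Type*} [Group G]

local notation "C[" z "]" => centralizer ({z} : Set _)

theorem mC {z x : G} : x ∈ C[z] ↔ x * z = z * x := mem_centralizer_singleton_iff
theorem cmul {z g h : G} (a : g * z = z * g) (b : h * z = z * h) : g * h * z = z * (g * h) := (Commute.mul_left a b).eq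
theorem cinv {z g : G} (a : g * z = z * g) : g⁻¹ * z = z * g⁻¹ := (Commute.inv_left a).eq
theorem cpow {z g : G} (a : g * z = z * g) (n : ℕ) : g ^ n * z = z * g ^ n := (Commute.pow_left a n).eq
theorem cj_of {g x : G} (a : g * x = x * g) : g * x * g⁻¹ = x := by rw [a, mul_inv_cancel_right]
theorem of_cj {g x : G} (a : g * x * g⁻¹ = x) : g * x = x * g := mul_inv_eq_iff_eq_mul.1 a

theorem lift3 {N : Subgroup G} [Finite N] (hN : ¬ 3 ∣ Nat.card N) {y y' : G} (h : y ^ 3 = 1) (h' : y' ^ 3 = 1)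
    (hn : ∀ x ∈ N, y * x * y⁻¹ ∈ N) (e : y * y'⁻¹ ∈ N) : ∃ n ∈ N, n * y' * n⁻¹ = y := by
  classical
  haveI := Fintype.ofFinite N
  haveI : Fact (Nat.Prime 3) := ⟨by norm_num⟩
  let f : N → N := fun n => ⟨y * n * y'⁻¹, by
    rw [show y * n * y'⁻¹ = y * n * y⁻¹ * (y * y'⁻¹) by group]; exact mul_mem (hn _ n.2) e⟩
  have f3 : ∀ n, f (f (f n)) = n := fun n => Subtype.ext (by
    show y * (y * (y * n * y'⁻¹) * y'⁻¹) * y'⁻¹ = n
    rw [show y * (y * (y * n * y'⁻¹) * y'⁻¹) * y'⁻¹ = y ^ 3 * n * (y' ^ 3)⁻¹ by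
      simp only [pow_succ, pow_zero, one_mul, mul_inv_rev, mul_assoc], h, h']
    group)
  obtain ⟨n, hn⟩ := Equiv.Perm.exists_fixed_point_of_prime (p := 3) (n := 1) (σ := ⟨f, fun n => f (f n), f3, f3⟩)
    (by rwa [← Nat.card_eq_fintype_card]) (Equiv.ext f3)
  have : y * n * y'⁻¹ = n := congrArg Subtype.val hn
  exact ⟨n, n.2, by rw [mul_inv_eq_iff_eq_mul, ← mul_inv_eq_iff_eq_mul.1 this]⟩

theorem rel_dvd [Finite G] {N K H : Subgroup G} (h1 : N ≤ H) (h2 : K ≤ H) (h : K ≤ normalizer (N : Set G)) :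
    K.relIndex N ∣ K.relIndex H := by
  have e1 := H3.card_sup_mul_card_inf h
  have e2 := H3.card_inf_mul_relIndex K N
  have e3 := H3.card_mul_relIndex (le_sup_right : K ≤ N ⊔ K)
  rw [← relIndex_mul_relIndex K (N ⊔ K) H le_sup_right (sup_le h1 h2)]
  refine Dvd.dvd.mul_right (dvd_of_eq ?_) _
  rw [← e2, ← e3, inf_comm N] at e1
  have p1 : 0 < Nat.card K := Nat.card_pos
  have p2 : 0 < Nat.card ↥(K ⊓ N) := Nat.card_pos
  refine Nat.eq_of_mul_eq_mul_left (Nat.mul_pos p1 p2) ?_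
  linarith

variable {z : G} {P : Subgroup G} {π : G → U} {ρ : G → O}

namespace Co
variable (h : Co z P π ρ)
include h

theorem r1 : ρ 1 = 1 := (h.rk 1 (by simp)).2 (one_mem _)
theorem rinv {g : G} (a : g * z = z * g) : ρ g⁻¹ = (ρ g)⁻¹ :=
  eq_inv_of_mul_eq_one_left (by rw [← h.mul _ _ (cinv a) a, inv_mul_cancel, h.r1])
theorem rpow {g : G} (a : g * z = z * g) (n : ℕ) : ρ (g ^ n) = ρ g ^ n := by
  induction n with
  | zero => rw [pow_zero, pow_zero, h.r1]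
  | succ n ih => rw [pow_succ, pow_succ, h.mul _ _ (cpow a n) a, ih]
theorem rcj {g x : G} (a : g * z = z * g) (b : x * z = z * x) : ρ (g * x * g⁻¹) = ρ g * ρ x * (ρ g)⁻¹ := by
  rw [h.mul _ _ (cmul a b) (cinv a), h.mul _ _ a b, h.rinv a]
theorem rP {x : G} (a : x ∈ P) : ρ x = 1 := (h.rk x (h.cz x a)).2 a
theorem req {g k : G} (a : g * z = z * g) (b : k * z = z * k) (e : ρ g = ρ k) : g * k⁻¹ ∈ P :=
  (h.rk _ (cmul a (cinv b))).1 (by rw [h.mul _ _ a (cinv b), h.rinv b, e, mul_inv_cancel])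
theorem p1 : π 1 = 0 := (h.ker 1 (one_mem _)).2 (.inl rfl)
theorem pz : π z = 0 := (h.ker z h.zm).2 (.inr rfl)
theorem pinv {x : G} (a : x ∈ P) : π x⁻¹ = π x := by
  have := h.add _ (inv_mem a) _ a
  rw [inv_mul_cancel, h.p1] at this
  rw [← ad' (π x⁻¹) (π x), ← this, add_zero]
theorem peq {x y : G} (a : x ∈ P) (b : y ∈ P) (e : π x = π y) : y = x ∨ y = x * z :=
  ((h.ker _ (mul_mem (inv_mem a) b)).1 (by rw [h.add _ (inv_mem a) _ b, h.pinv a, e, vv])).imp
    (fun e => (inv_mul_eq_one.1 e).symm) fun e => inv_mul_eq_iff_eq_mul.1 e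
theorem p4 {x : G} (a : x ∈ P) : x ^ 4 = 1 := by
  rw [show 4 = 2 * 2 from rfl, pow_mul, sq x]
  rcases h.sq x a with e | e <;> rw [e]
  exacts [one_pow 2, (sq z).trans h.zz]
theorem sqz {x : G} (a : x ∈ P) (e : q (π x) = 1) : x * x = z :=
  (h.sq x a).resolve_left fun k => absurd (((h.sq0 x a).1 k).symm.trans e) (by decide)
theorem cmz {x y : G} (a : x ∈ P) (b : y ∈ P) (e : B (π x) (π y) = 1) : x * y = y * x * z :=
  (h.cm x a y b).resolve_left fun k => absurd (((h.cm0 x a y b).1 k).symm.trans e) (by decide)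

/-- an element of order three fixing the image of `x` centralises `x` -/
theorem fix3 {y x : G} (yz : y * z = z * y) (y3 : y ^ 3 = 1) (a : x ∈ P) (e : (ρ y).1 (π x) = π x) : y * x = x * y := by
  rcases h.peq a (h.nm y yz x a) (by rw [h.act y yz x a, e]) with k | k
  · exact of_cj k
  · have k1 : y * x = x * z * y := mul_inv_eq_iff_eq_mul.1 k
    have k2 : ∀ w, y * (x * w) = x * (y * (z * w)) := fun w => by
      rw [← mul_assoc, k1, mul_assoc x, ← yz]; simp only [mul_assoc]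
    have k3 : ∀ w, z * (y * w) = y * (z * w) := fun w => by rw [← mul_assoc, ← yz, mul_assoc]
    have k4 : ∀ w, z * (z * w) = w := fun w => by rw [← mul_assoc, h.zz, one_mul]
    have : y ^ 3 * (x * 1) = x * (y ^ 3 * (z * 1)) := by simp only [pow_succ, pow_zero, one_mul, mul_assoc, k2, k3, k4]
    rw [y3] at this
    exact absurd (by simpa using this) h.z1

variable [Finite G]

theorem cj3 (K : Subgroup G) {y y' : G} (m : y ∈ K) (m' : y' ∈ K) (a : y * z = z * y) (a' : y' * z = z * y')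
    (c : y ^ 3 = 1) (c' : y' ^ 3 = 1) (e : ρ y = ρ y') : ∃ n ∈ P, n ∈ K ∧ n * y' * n⁻¹ = y := by
  obtain ⟨n, hn, k⟩ := lift3 (N := P ⊓ K) (fun d => by
    have := d.trans (card_dvd_of_le (inf_le_left : P ⊓ K ≤ P))
    rw [h.card] at this; exact absurd this (by decide)) c c'
    (fun x hx => mem_inf.2 ⟨h.nm y a x hx.1, K.mul_mem (K.mul_mem m hx.2) (K.inv_mem m)⟩)
    (mem_inf.2 ⟨h.req a a' e, K.mul_mem m (K.inv_mem m')⟩)
  exact ⟨n, hn.1, hn.2, k⟩

/-- lifting a conjugation between elements of order three -/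
theorem cj3' (K : Subgroup G) {y y' g : G} (m : y ∈ K) (m' : y' ∈ K) (mg : g ∈ K) (a : y * z = z * y) (a' : y' * z = z * y')
    (b : g * z = z * g) (c : y ^ 3 = 1) (c' : y' ^ 3 = 1) (e : ρ g * ρ y' = ρ y * ρ g) :
    ∃ k ∈ K, k * z = z * k ∧ ρ k = ρ g ∧ k * y' * k⁻¹ = y := by
  obtain ⟨n, n1, n2, k⟩ := h.cj3 K m (mul_mem (mul_mem mg m') (inv_mem mg)) a (cmul (cmul b a') (cinv b)) c
    (by rw [conj_pow, c']; group) (by rw [h.rcj b a', e, mul_inv_cancel_right])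
  exact ⟨n * g, mul_mem n2 mg, cmul (h.cz n n1) b, by rw [h.mul _ _ (h.cz n n1) b, h.rP n1, one_mul], by rw [← k]; group⟩

omit [Finite G] in
theorem fixs {s s' : G} (a : s ∈ P) (a' : s' ∈ P) (s0 : π s ≠ 0) {σ : O} (d : dk σ = 0) (e : σ.1 (π s) = π s') :
    ∃ g, g * z = z * g ∧ ρ g = σ ∧ g * s * g⁻¹ = s' := by
  obtain ⟨g, gz, rfl⟩ := h.rs σ d
  rcases h.peq (h.nm g gz s a) a' (by rw [h.act g gz s a, e]) with k | k
  · exact ⟨g, gz, rfl, k.symm⟩
  · obtain ⟨u, hu, e'⟩ := h.toES.exists_conj a (fun e => s0 (e ▸ h.p1)) (fun e => s0 (e ▸ h.pz))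
    refine ⟨g * u, cmul gz (h.cz u hu), by rw [h.mul _ _ gz (h.cz u hu), h.rP hu, mul_one], ?_⟩
    calc g * u * s * (g * u)⁻¹ = g * (u * s * u⁻¹) * g⁻¹ := by group
      _ = g * s * (z * g⁻¹) := by rw [e']; group
      _ = _ := by rw [← cinv gz, k]; group

noncomputable def hom (L : Subgroup G) (hL : ∀ x ∈ L, x * z = z * x) : L →* O :=
  MonoidHom.mk' (fun x => ρ x.1) fun a b => h.mul _ _ (hL _ a.2) (hL _ b.2)

theorem idx {s : G} (a : s ∈ P) (ss : s * s = 1) (n1 : s ≠ 1) (n2 : s ≠ z) : ¬ 4 ∣ (C[s]).relIndex C[z] := by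
  have s0 : π s ≠ 0 := fun e => ((h.ker s a).1 e).elim n1 n2
  letI : MulAction O U := MulAction.compHom U O.subtype
  letI : MulAction C[z] U := MulAction.compHom U (h.hom C[z] fun _ => mC.1)
  have sm : ∀ (g : C[z]) (v : U), g • v = (ρ g.1).1 v := fun _ _ => rfl
  have e1 : (MulAction.stabilizer C[z] (π s)).index = 27 := by
    rw [MulAction.index_stabilizer, ← d8, ← Set.ncard_coe_finset]
    congr 1
    ext v
    simp only [Finset.coe_filter, Finset.mem_univ, true_and, Set.mem_setOf_eq]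
    constructor
    · rintro ⟨g, rfl⟩
      exact ⟨by simp only [sm]; rw [oq, ← h.sq0 s a, ss], fun e => s0 ((ρ g.1).1.map_eq_zero_iff.1 e)⟩
    · rintro ⟨b, c⟩
      obtain ⟨σ, d, e⟩ := trans ((h.sq0 s a).1 ss) s0 b c
      obtain ⟨g, gz, rfl⟩ := h.rs σ d
      exact ⟨⟨g, mC.2 gz⟩, e⟩
  have le : (C[s]).subgroupOf C[z] ≤ MulAction.stabilizer C[z] (π s) := fun g hg => by
    rw [MulAction.mem_stabilizer_iff, sm, ← h.act _ (mC.1 g.2) s a, cj_of (show g.1 * s = s * g.1 from mC.1 (mem_subgroupOf.1 hg))]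
  have e2 : ((C[s]).subgroupOf C[z]).relIndex (MulAction.stabilizer C[z] (π s)) ∣ 2 := by
    obtain ⟨u, hu, e'⟩ := h.toES.exists_conj a n1 n2
    refine relIndex_dvd_two_iff.2 ⟨⟨u, mC.2 (h.cz u hu)⟩, by rw [MulAction.mem_stabilizer_iff, sm, h.rP hu]; rfl,
      fun b hb => ?_⟩
    have bz := mC.1 b.2
    rcases h.peq a (h.nm _ bz s a) (by rw [h.act _ bz s a, ← sm, hb]) with k | k
    · exact .inr (mC.2 (of_cj k))
    · refine .inl (mC.2 (of_cj ?_))
      calc b.1 * u * s * (b.1 * u)⁻¹ = b.1 * (u * s * u⁻¹) * b.1⁻¹ := by group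
        _ = b.1 * s * (z * b.1⁻¹) := by rw [e']; group
        _ = _ := by rw [← cinv bz, ← mul_assoc, k, mul_assoc, h.zz, mul_one]
  rw [relIndex, ← relIndex_mul_index le, e1]
  intro d
  have := d.trans (Nat.mul_dvd_mul_right e2 27)
  exact absurd this (by decide)

theorem sym {g : G} (a : g * z * g⁻¹ ∈ P) (n : g * z * g⁻¹ ≠ z) : g⁻¹ * z * g ∈ P := by
  set t := g⁻¹ * z * g with ht
  have i1 := h.idx a (by rw [show g * z * g⁻¹ * (g * z * g⁻¹) = g * (z * z) * g⁻¹ by group, h.zz]; group)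
    (fun e => h.z1 (by simpa using e)) n
  have mp : ∀ x : G, (C[g * x * g⁻¹]).map (MulAut.conj g⁻¹).toMonoidHom = C[x] := fun x => by
    ext y
    rw [mem_cj, mC, mC, inv_inv]
    exact ⟨fun e => by
      calc y * x = g⁻¹ * (g * y * g⁻¹ * (g * x * g⁻¹)) * g := by group
        _ = _ := by rw [e]; group, fun e => by
      calc g * y * g⁻¹ * (g * x * g⁻¹) = g * (y * x) * g⁻¹ := by group
        _ = _ := by rw [e]; group⟩
  have zt : z = g * t * g⁻¹ := by rw [ht]; group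
  have e0 : (C[z]).map (MulAut.conj g⁻¹).toMonoidHom = C[t] := by rw [← mp t, ← zt]
  rw [← relIndex_map_map_of_injective (f := (MulAut.conj g⁻¹).toMonoidHom) _ _ (MulAut.conj g⁻¹).injective, mp, e0] at i1
  have e1 := H3.card_inf_mul_relIndex C[z] C[t]
  have e2 := H3.card_inf_mul_relIndex C[t] C[z]
  have e3 : Nat.card C[t] = Nat.card C[z] := by rw [← e0, card_cj]
  rw [e3, ← e2, inf_comm] at e1
  rw [Nat.eq_of_mul_eq_mul_left Nat.card_pos e1, ← inf_relIndex_right] at i1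
  have d1 := rel_dvd (N := P) (K := C[t] ⊓ C[z]) (H := C[z]) (fun x hx => mC.2 (h.cz x hx)) inf_le_right
    fun x hx => mem_normalizer_fintype fun y hy => h.nm x (mC.1 hx.2) y hy
  have d2 : (C[t] ⊓ C[z]).relIndex P ∣ 2 ^ 7 := by
    rw [show 2 ^ 7 = Nat.card P by rw [h.card]; rfl]; exact relIndex_dvd_card _ _
  obtain ⟨k, -, hk⟩ := (Nat.dvd_prime_pow Nat.prime_two).1 d2
  have d3 : (C[t] ⊓ C[z]).relIndex P ∣ 2 := by
    rw [hk] at d1 ⊢
    rcases k with _ | _ | k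
    exacts [by norm_num, by norm_num, absurd ((Dvd.intro (2 ^ k) (by ring)).trans d1) i1]
  obtain ⟨u, hu, e⟩ := relIndex_dvd_two_iff.1 d3
  have tz : t * z = z * t := by
    calc t * z = g⁻¹ * (z * (g * z * g⁻¹)) * g := by rw [ht]; group
      _ = _ := by rw [← h.cz _ a, ht]; group
  refine (h.rk t tz).1 (hyper (h.rd t tz) fun v w hv hw => ?_)
  obtain ⟨x, hx, rfl⟩ := h.surj v
  obtain ⟨y, hy, rfl⟩ := h.surj w
  have k : ∀ x ∈ P, x ∈ C[t] ⊓ C[z] → (ρ t).1 (π x) = π x := fun x hx m => by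
    rw [← h.act t tz x hx, cj_of (mC.1 m.1).symm]
  have m1 := (e x hx).resolve_right fun m => hv (k x hx m)
  have m2 := (e _ (inv_mem hy)).resolve_right fun m => hw (k y hy (inv_mem_iff.1 m))
  rw [← h.add x hx y hy]
  exact k _ (mul_mem hx hy) (by simpa using mul_mem m1 (inv_mem m2))

omit [Finite G] in
theorem inter {s : G} {R : Subgroup G} (hR : ES s R) (a : s ∈ P) (n : s ≠ z) {x : G} (x1 : x ∈ P) (x2 : x ∈ R) :
    x = 1 ∨ x = z ∨ x = s ∨ x = s * z := by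
  have s0 : π s ≠ 0 := fun e => ((h.ker s a).1 e).elim hR.z1 n
  by_cases w0 : π x = 0
  · rcases (h.ker x x1).1 w0 with e | e <;> simp [e]
  by_cases w1 : π x = π s
  · rcases h.peq a x1 w1.symm with e | e <;> simp [e]
  have xx : x * x = 1 := (h.sq x x1).elim id fun e => (hR.sq x x2).resolve_right fun e' => n (e'.symm.trans e)
  obtain ⟨⟨c, c1, c2, c3⟩, d, d1, d2, d3⟩ := d7 _ ((h.sq0 s a).1 hR.zz) s0 _ ((h.sq0 x x1).1 xx)
    (by rw [← BB, ← h.cm0 s a x x1, hR.cz x x2]) w0 w1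
  obtain ⟨g, gz, e1, e2⟩ := h.fixs a a s0 (σ := r c * r d) (by rw [dk_mul, dk_r c1, dk_r d1]; rfl)
    (by rw [omul, rf d1, BB, d2, zero_smul, add_zero, rf c1, BB, c2, zero_smul, add_zero])
  have y1 := h.nm g gz x x1
  have y2 := hR.nm g (of_cj e2) x x2
  have := (h.cm0 _ y1 x x1).1 ((h.cm _ y1 x x1).elim id fun e => (hR.cm _ y2 x x2).resolve_right fun e' =>
    n (mul_left_cancel (e'.symm.trans e)))
  rw [h.act g gz x x1, e1, omul, rf d1, BB d, d3, zero_smul, add_zero, rf c1, BB c, c3, one_smul, map_add,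
    LinearMap.add_apply, bb, BB, c3] at this
  exact absurd this (by decide)

omit [Finite G] in
theorem allc (hx : ∃ g, g * z * g⁻¹ ∈ P ∧ g * z * g⁻¹ ≠ z) {s : G} (a : s ∈ P) (s0 : π s ≠ 0) (s1 : q (π s) = 0) :
    ∃ g, g * z * g⁻¹ = s := by
  obtain ⟨g, b, n⟩ := hx
  have t0 : π (g * z * g⁻¹) ≠ 0 := fun e => ((h.ker _ b).1 e).elim (fun e => h.z1 (by simpa using e)) n
  obtain ⟨σ, d, e⟩ := trans ((h.sq0 _ b).1 (h.toES.conj g).zz) t0 s1 s0
  obtain ⟨k, -, -, e⟩ := h.fixs b a t0 d e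
  exact ⟨k * g, by rw [← e]; group⟩

end Co

end Cfsg.Agent.H23.Sz
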