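import Mathlib
import Cfsg.Agent.H23.Sz1

/-! Involutions of the elliptic orthogonal group in dimension six over the field with two elements. -/

set_option autoImplicit false
set_option maxRecDepth 100000
set_option synthInstance.maxSize 2048
set_option linter.unusedSimpArgs false

namespace Cfsg.Agent.H23.Sz
open Cfsg H11 Module

def taf (w : U) : U := w + B' (b2 + b3) w • (a2 + a3) + B' (a2 + a3) w • (b2 + b3)
def rv (u w : U) : U := w + B' u w • u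
def iof (w : U) : U := rv a2 (rv a3 w)
def s1f (w : U) : U := rv (a1 + b1) (rv a1 w)
def sgf (w : U) : U := rv (a2 + (b2 + b3 + a1)) (rv a2 w)
noncomputable def sg3 : O := r (a2 + (b2 + b3 + a1)) * r a2

theorem rvv {u : U} (hu : q u = 1) (w : U) : (r u).1 w = rv u w := by rw [rf hu, BB, rv]
theorem tav (w : U) : ta.1 w = taf w := by
  simp only [ta, hq.eich_apply, t5, BB, vs, taf, zero_mul, zero_smul, add_zero]
theorem iov (w : U) : io.1 w = iof w := by rw [io, omul, rvv qv.2.2.2.1, rvv qv.2.2.2.2.2.2.1, iof]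
theorem s1v (w : U) : s1.1 w = s1f w := by rw [s1, omul, rvv qv.1, rvv qv.2.2.1, s1f]
theorem sgv (w : U) : sg3.1 w = sgf w := by rw [sg3, omul, rvv qv.2.2.2.1, rvv (by decide), sgf]

theorem rel2 : dk sg3 = 0 ∧ sg3 ^ 3 = 1 ∧ sg3.1 (a2 + a3) = a2 + a3 ∧ io * (sg3 * io * sg3 ^ 2) = sg3 * (sg3 * io * sg3 ^ 2) * sg3 ^ 2 ∧
    sg3 * io ≠ io * sg3 ∧ io ≠ 1 ∧ ta ≠ 1 ∧ r a1 * ta = ta * r a1 ∧ r a1 * io = io * r a1 := by
  refine ⟨by rw [sg3, dk_mul, dk_r qv.2.2.2.1, dk_r (by decide)]; rfl, ?_, by rw [sgv]; decide, ?_, fun e => ?_, fun e => ?_,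
    fun e => ?_, ?_, ?_⟩
  any_goals
    refine oext ?_ ?_ ?_ ?_ ?_ ?_ <;> simp only [pow_succ, pow_zero, one_mul, omul, oone, sgv, iov, tav, rvv qv.1] <;>
      decide +kernel
  all_goals
    have := congrArg (fun g : O => g.1 b2) e
    simp only [omul, oone, sgv, iov, tav] at this
    exact absurd this (by decide +kernel)

theorem e1 : ∀ s, q s = 0 → s ≠ 0 → (∀ x, B' s x = 0 → iof x = x ∨ iof x = x + s) → s = a2 + a3 := by decide +kernel
theorem e2 : ∀ s, q s = 0 → s ≠ 0 → (∀ x, B' s x = 0 → taf x = x ∨ taf x = x + s) → s1f s = s := by decide +kernel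
theorem e3 : ∀ w, taf w = w → ∃ v, w = B' b1 w • a1 + B' a1 w • b1 + (taf v + v) := by decide +kernel
theorem e4 : ∀ w, taf w = w → q w = 0 → ∃ v, taf v + v = w := by decide +kernel
theorem e5 : ∀ v, q (taf v + v) = 0 := by decide +kernel
theorem e6 : ∀ v, iof v = v → ∀ c, iof c = c → (∃ x, iof x + x = v) ∨ (∃ x, iof x + x = s1f v + c) ∨
    (∃ x, iof x + x = s1f (s1f v + c) + c) ∨
    (B' v (s1f v + c) = 1 ∧ ∃ x, v + (s1f v + c) + (iof x + x) = s1f (s1f v + c) + c) ∨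
    (B' c (s1f c + c) = 1 ∧ ∃ x, c + (s1f c + c) + (iof x + x) = v) := by decide +kernel
theorem e7 : ∀ u, q u = 0 → ∀ v, q v = 0 → B' u v = 0 → ∀ w, q w = 0 → B' u w = 0 → B' v w = 0 →
    u = 0 ∨ v = 0 ∨ v = u ∨ w = 0 ∨ w = u ∨ w = v ∨ w = u + v := by decide +kernel
theorem e8 : ∀ v, q v = 0 → v ≠ 0 → ∃ w, q w = 0 ∧ B' v w = 0 ∧ w ≠ 0 ∧ w ≠ v := by decide +kernel
theorem e9 : (Finset.univ.filter fun v : U => B' (a2 + a3) v = 1 ∧ q v = 1).card = 16 := by decide +kernel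
theorem e10 : ∀ n, iof n = n → q n = 0 → ∀ c d : ZMod 2, B' (a1 + c • a2) n = 0 → B' (b1 + d • a2) n = 0 →
    n = 0 ∨ n = a2 + a3 := by decide +kernel
theorem e11 : ∀ v, q (iof v + v) = 1 → iof v + v = a2 ∨ iof v + v = a3 := by decide +kernel
theorem e12 : ∀ w, B' a1 w = 0 → B' b1 w = 0 → B' a2 w = 1 → B' (a2 + a3) w = 0 →
    (w = b2 + b3 ∨ w = b2 + b3 + (a2 + a3)) ∨ rv a2 w = b2 + b3 ∨ rv a2 w = b2 + b3 + (a2 + a3) := by decide +kernel
theorem e13 : ∀ v, B' (a2 + a3) v = 0 →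
    v = B' b1 v • a1 + B' a1 v • b1 + B' b2 v • a2 + B' b3 v • a3 + B' a2 v • (b2 + b3) := by decide +kernel
theorem e14 : ∀ x m, m = 0 ∨ m = a2 + a3 ∨ m = b2 + b3 ∨ m = a2 + a3 + (b2 + b3) → B' x m = q m →
    (m = 0 ↔ B' (a2 + a3) x = 0 ∧ B' (b2 + b3) x = 0) → m = taf x + x := by decide +kernel
theorem e15 : ∀ x, B' a2 x = 0 ∨ B' a3 x = 0 → ∀ m, m = 0 ∨ m = a2 ∨ m = a3 ∨ m = a2 + a3 → B' x m = q m →
    (m = 0 ↔ B' a2 x = 0 ∧ B' a3 x = 0) → m = iof x + x := by decide +kernel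
theorem e16 : ∀ v, iof v = v → ∀ x, B' v (iof x + x) = 0 := by decide +kernel

def Mv (σ : O) (u v : U) : Prop := (u ≠ 0 ∧ v ≠ 0 ∧ u ≠ v) ∧ (∃ x, σ.1 x + x = u) ∧ (∃ x, σ.1 x + x = v) ∧
  ∀ x, σ.1 x + x = 0 ∨ σ.1 x + x = u ∨ σ.1 x + x = v ∨ σ.1 x + x = u + v

theorem Mv.swap {σ : O} {u v : U} (h : Mv σ u v) : Mv σ v u :=
  ⟨⟨h.1.2.1, h.1.1, h.1.2.2.symm⟩, h.2.2.1, h.2.1, fun x => by have := h.2.2.2 x; rw [add_comm v]; tauto⟩

theorem Mv.add {σ : O} {u v : U} (h : Mv σ u v) : Mv σ u (u + v) := by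
  obtain ⟨⟨n1, n2, n3⟩, ⟨x, hx⟩, ⟨y, hy⟩, k⟩ := h
  exact ⟨⟨n1, fun e => n3 (by rw [← ad' u v, e, add_zero]), fun e => n2 (by simpa using e)⟩, ⟨x, hx⟩,
    ⟨x + y, by rw [← hx, ← hy, map_add]; abel⟩, fun w => by have := k w; rw [ad]; tauto⟩

theorem Mv.cj {σ : O} {u v : U} (h : Mv σ u v) (g : O) : Mv (g * σ * g⁻¹) (g.1 u) (g.1 v) := by
  obtain ⟨⟨n1, n2, n3⟩, ⟨x, hx⟩, ⟨y, hy⟩, k⟩ := h
  have e : ∀ x, (g * σ * g⁻¹).1 (g.1 x) + g.1 x = g.1 (σ.1 x + x) := fun x => by rw [omul, oinv, omul, map_add]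
  refine ⟨⟨fun e => n1 (g.1.map_eq_zero_iff.1 e), fun e => n2 (g.1.map_eq_zero_iff.1 e), fun e => n3 (g.1.injective e)⟩,
    ⟨_, hx ▸ e x⟩, ⟨_, hy ▸ e y⟩, fun w => ?_⟩
  obtain ⟨w, rfl⟩ := g.1.surjective w
  rw [e]
  rcases k w with a | a | a | a <;> simp [a]

theorem Mv.det {σ : O} {u v : U} (h : Mv σ u v) (h2 : σ * σ = 1) (x : U) :
    B x (σ.1 x + x) = q (σ.1 x + x) ∧ (σ.1 x + x = 0 ↔ B u x = 0 ∧ B v x = 0) := by
  have s : ∀ x y, B (σ.1 x + x) y = B (σ.1 y + y) x := fun x y => by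
    rw [map_add, map_add, LinearMap.add_apply, LinearMap.add_apply, ← oB σ (σ.1 x) y, ← omul, h2, oone, hq.comm x, hq.comm x]
  obtain ⟨-, ⟨a, rfl⟩, ⟨b, rfl⟩, k⟩ := h
  refine ⟨?_, fun e => ⟨by rw [s, e]; simp, by rw [s, e]; simp⟩, fun ⟨c, d⟩ => hB _ fun y => ?_⟩
  · have := hq.add' x (σ.1 x + x)
    rw [ad', oq] at this
    revert this
    generalize q x = a; generalize q (σ.1 x + x) = b; generalize B x (σ.1 x + x) = c
    revert a b c; decide
  · rw [s]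
    rcases k y with e | e | e | e <;> rw [e]
    exacts [by simp, c, d, by rw [map_add B, LinearMap.add_apply, c, d, add_zero]]

theorem li2 {u v : U} (h : u ≠ 0 ∧ v ≠ 0 ∧ u ≠ v) : LinearIndependent (ZMod 2) ![u, v] :=
  LinearIndependent.pair_iff.2 fun s t e => by
    rcases z2 s with rfl | rfl <;> rcases z2 t with rfl | rfl <;> simp only [zero_smul, one_smul, zero_add, add_zero] at e
    exacts [⟨rfl, rfl⟩, absurd e h.2.1, absurd e h.1, absurd (by rw [← ad' u v, e, add_zero]) h.2.2]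

theorem exMv {σ : O} (h2 : σ * σ = 1) (h1 : σ ≠ 1) (hd : dk σ = 0) : ∃ u v, Mv σ u v := by
  have le : movS σ.1 ≤ LinearMap.ker ((σ.1 : U →ₗ[ZMod 2] U) - LinearMap.id) := fun y hy => by
    obtain ⟨x, rfl⟩ := mem_movS.1 hy
    change σ.1 _ - _ = 0
    rw [map_sub, ← omul, h2, oone, vs, vs, vs, LinearMap.id_apply, add_comm x, vv]
  have e1 := LinearMap.finrank_range_add_finrank_ker ((σ.1 : U →ₗ[ZMod 2] U) - LinearMap.id)
  have e2 := Submodule.finrank_mono le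
  have e3 : finrank (ZMod 2) (movS σ.1) ≠ 0 := fun e => h1 (Subtype.ext (LinearEquiv.ext fun x => sub_eq_zero.1
    ((Submodule.finrank_eq_zero.1 e).le (mem_movS.2 ⟨x, rfl⟩))))
  have e4 : 2 ∣ finrank (ZMod 2) (movS σ.1) := (ZMod.natCast_eq_zero_iff _ _).1 hd
  rw [show finrank (ZMod 2) U = 6 by simp] at e1
  change finrank (ZMod 2) (movS σ.1) + _ = _ at e1
  let b := finBasisOfFinrankEq (ZMod 2) (movS σ.1) (n := 2) (by omega)
  have m : ∀ i, ∃ x, σ.1 x + x = (b i).1 := fun i => by simpa only [vs] using mem_movS.1 (b i).2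
  refine ⟨b 0, b 1, ⟨fun e => b.ne_zero 0 (Subtype.ext e), fun e => b.ne_zero 1 (Subtype.ext e),
    fun e => absurd (b.injective (Subtype.ext e)) (by decide)⟩, m 0, m 1, fun x => ?_⟩
  have := congrArg Subtype.val (b.sum_repr ⟨_, mem_movS.2 ⟨x, vs _ _⟩⟩)
  rw [Fin.sum_univ_two] at this
  change _ = σ.1 x + x at this
  rw [← this]
  generalize b.repr _ 0 = s
  generalize b.repr _ 1 = t
  rcases z2 s with rfl | rfl <;> rcases z2 t with rfl | rfl <;> simp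

theorem cls2 {σ : O} (h2 : σ * σ = 1) (h1 : σ ≠ 1) (hd : dk σ = 0) :
    ∃ g : O, dk g = 0 ∧ (g * σ * g⁻¹ = ta ∨ g * σ * g⁻¹ = io) := by
  have k0 : ∀ {u v}, Mv σ u v → B u v = 0 := fun {u v} h => by
    refine (((h.det h2 v).2).1 ?_).1
    obtain ⟨x, rfl⟩ := h.2.2.1
    rw [map_add, ← omul, h2, oone, add_comm x, vv]
  have k1 : ∀ {u v u' v'}, Mv σ u v → (u' ≠ 0 ∧ v' ≠ 0 ∧ u' ≠ v') → B u' v' = 0 → q u' = q u → q v' = q v →
      ∃ g : O, Mv (g * σ * g⁻¹) u' v' ∧ g * σ * g⁻¹ * (g * σ * g⁻¹) = 1 := fun {u v u' v'} h n b c d => by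
    obtain ⟨g, hg, e⟩ := hq.witt_family hB ![u, v] ![u', v'] (li2 h.1) (li2 n) (fun i j => by
      fin_cases i <;> fin_cases j <;> simp [bb, k0 h, b, hq.comm v u, hq.comm v' u']) fun i => by fin_cases i <;> simp [c, d]
    exact ⟨⟨g, hg⟩, by simpa only [show g u = u' from e 0, show g v = v' from e 1] using h.cj ⟨g, hg⟩,
      by rw [conj_mul, h2]; group⟩
  have k2 : ∀ {u v}, Mv σ u v → q u = 1 → q v = 1 → ∃ g : O, g * σ * g⁻¹ = io := fun h a b => by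
    obtain ⟨g, m, e⟩ := k1 (u' := a2) (v' := a3) h (by decide) (by rw [BB]; decide) (by rw [a]; decide) (by rw [b]; decide)
    have k : ∀ x, B' a2 x = 0 ∨ B' a3 x = 0 → (g * σ * g⁻¹).1 x = io.1 x := fun x hx => add_right_cancel (b := x) (by
      have := m.det e x
      simp only [BB] at this
      rw [iov]; exact e15 x hx _ (m.2.2.2 x) this.1 this.2)
    refine ⟨g, oext ?_ ?_ ?_ ?_ ?_ ?_⟩ <;> exact k _ (by decide)
  obtain ⟨g, e⟩ : ∃ g : O, g * σ * g⁻¹ = ta ∨ g * σ * g⁻¹ = io := by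
    obtain ⟨u, v, h⟩ := exMv h2 h1 hd
    have c := hq.add' u v
    rw [k0 h] at c
    rcases z2 (q u) with a | a <;> rcases z2 (q v) with b | b
    · obtain ⟨g, m, e⟩ := k1 (u' := a2 + a3) (v' := b2 + b3) h (by decide) t2 (t1.trans a.symm) (t5.trans b.symm)
      refine ⟨g, .inl (Subtype.ext (LinearEquiv.ext fun x => add_right_cancel (b := x) ?_))⟩
      have := m.det e x
      simp only [BB] at this
      rw [tav]; exact e14 x _ (m.2.2.2 x) this.1 this.2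
    · exact (k2 h.swap.add b (by rw [add_comm, c, a, b]; rfl)).imp fun _ => .inr
    · exact (k2 h.add a (by rw [c, a, b]; rfl)).imp fun _ => .inr
    · exact (k2 h a b).imp fun _ => .inr
  rcases z2 (dk g) with d | d
  · exact ⟨g, d, e⟩
  · refine ⟨r a1 * g, by rw [dk_mul, d, dk_r qv.1]; rfl, ?_⟩
    rw [show r a1 * g * σ * (r a1 * g)⁻¹ = r a1 * (g * σ * g⁻¹) * (r a1)⁻¹ by group]
    exact e.imp (fun e => by rw [e, rel2.2.2.2.2.2.2.2.1, mul_inv_cancel_right])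
      fun e => by rw [e, rel2.2.2.2.2.2.2.2.2, mul_inv_cancel_right]

def Pv (σ : O) (v : U) : Prop := σ.1 v = v ∨ σ.1 v = v + (a2 + a3)
def Ep (σ : O) : Prop := ∀ v, B (a2 + a3) v = 0 → Pv σ v

theorem Pv.add {σ : O} {v w : U} (a : Pv σ v) (b : Pv σ w) : Pv σ (v + w) := by
  rcases a with a | a <;> rcases b with b | b <;> simp only [Pv, map_add, a, b]
  exacts [.inl trivial, .inr (by abel), .inr (by abel), .inl (by rw [add_add_add_comm, vv, add_zero])]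

theorem Pv.smul {σ : O} {v : U} (a : Pv σ v) (c : ZMod 2) : Pv σ (c • v) := by
  rcases z2 c with rfl | rfl
  exacts [.inl (by simp), by rwa [one_smul]]

theorem Ebas {σ : O} (h1 : Pv σ a1) (h2 : Pv σ b1) (h3 : Pv σ a2) (h4 : Pv σ a3) (h5 : Pv σ (b2 + b3)) : Ep σ := fun v hv => by
  rw [e13 v (BB _ _ ▸ hv)]
  exact ((((h1.smul _).add (h2.smul _)).add (h3.smul _)).add (h4.smul _)).add (h5.smul _)

theorem Ep.sv {σ : O} (h : Ep σ) : σ.1 (a2 + a3) = a2 + a3 :=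
  (h _ (bb _)).resolve_right fun e => absurd (σ.1.map_eq_zero_iff.1 (e.trans (vv _))) (by decide)

theorem Ep.rg {σ : O} (h : Ep σ) : B (a2 + a3) (σ.1 b2) = 1 ∧ q (σ.1 b2) = 1 :=
  ⟨by rw [← h.sv, oB, BB]; decide, by rw [oq]; decide⟩

theorem Ep.inj {σ τ : O} (h : Ep σ) (k : Ep τ) (e : σ.1 b2 = τ.1 b2) : σ = τ := by
  have m : ∀ v, B' (a2 + a3) v = 0 → σ.1 v = τ.1 v := fun v hv => by
    have c := (oB σ v b2).trans (oB τ v b2).symm
    have d := k.rg.1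
    rw [e] at c
    rcases h v (BB _ _ ▸ hv) with a | a <;> rcases k v (BB _ _ ▸ hv) with b | b <;> rw [a, b] at c ⊢ <;>
      rw [map_add B, LinearMap.add_apply, d] at c <;> simp at c
  exact oext (m _ (by decide)) (m _ (by decide)) (m _ (by decide)) e (m _ (by decide))
    (by rw [← ad b2 b3, map_add, map_add τ.1, e, m _ (by decide)])

theorem Eio : Ep io := by
  refine Ebas ?_ ?_ ?_ ?_ ?_ <;> rw [Pv, iov] <;> decide

theorem Ecase {σ : O} (h : σ * io = io * σ) {c d : ZMod 2} (h1 : Pv σ (a1 + c • a2)) (h2 : Pv σ (b1 + d • a2)) :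
    Ep σ ∨ Ep (r a2 * σ) := by
  have k : ∀ v, q (iof v + v) = 1 → σ.1 (iof v + v) = a2 ∨ σ.1 (iof v + v) = a3 := fun v e => by
    have : σ.1 (iof v + v) = iof (σ.1 v) + σ.1 v := by rw [map_add, ← iov, ← iov, ← omul, h, omul]
    rw [this]
    exact e11 _ (by rw [← this, oq, e])
  have k2 := k b2 (by decide)
  have k3 := k b3 (by decide)
  rw [show iof b2 + b2 = a2 by decide] at k2
  rw [show iof b3 + b3 = a3 by decide] at k3
  have p2 : Pv σ a2 := k2.imp_right fun e => by rw [e, ad]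
  have p3 : Pv σ a3 := k3.symm.imp_right fun e => by rw [e, ad']
  have p0 : Pv σ a1 := by simpa only [add_assoc, vv, add_zero] using h1.add (p2.smul c)
  have p1 : Pv σ b1 := by simpa only [add_assoc, vv, add_zero] using h2.add (p2.smul d)
  have sv : σ.1 (a2 + a3) = a2 + a3 :=
    (p2.add p3).resolve_right fun e => absurd (σ.1.map_eq_zero_iff.1 (e.trans (vv _))) (by decide)
  have b0 : B (a2 + a3) (σ.1 (b2 + b3)) = 0 := by rw [← sv, oB, t2]
  have m : ∀ v, Pv σ v → B' v (σ.1 (b2 + b3)) = B' v (b2 + b3) := fun v p => by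
    have := oB σ v (b2 + b3)
    rcases p with e | e <;> rw [e] at this
    · rw [← BB, ← BB, this]
    · rw [← BB, ← BB, ← this, map_add B, LinearMap.add_apply, b0, add_zero]
  have n : ∀ v, Pv σ v → B' a2 v = 0 → Pv (r a2 * σ) v := fun v p e => p.imp
    (fun a => by rw [omul, a, rf qv.2.2.2.1, BB, e, zero_smul, add_zero]) fun a => by
      rw [omul, a, map_add, rf qv.2.2.2.1, BB, e, zero_smul, add_zero, rvv qv.2.2.2.1]; congr 1; decide
  exact (e12 _ (by rw [m _ p0]; decide) (by rw [m _ p1]; decide) (by rw [m _ p2]; decide) (BB _ _ ▸ b0)).imp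
    (Ebas p0 p1 p2 p3) fun e => Ebas (n _ p0 (by decide)) (n _ p1 (by decide)) (n _ p2 (by decide)) (n _ p3 (by decide))
      (by rw [Pv, omul, rvv qv.2.2.2.1]; exact e)

end Cfsg.Agent.H23.Sz
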