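import Cfsg.Agent.FT.BG16a

/-! Translation of `Cfsg.IsTypePWith` to `FT.OfTypeP`. -/

set_option autoImplicit false
set_option linter.unusedSectionVars false
set_option linter.unusedVariables false

namespace Cfsg.Agent.H23

open Cfsg Cfsg.Agent.FT Subgroup
open scoped commutatorElement

variable {G : Type*} [Group G] [Finite G] {M U W₁ W₂ : Subgroup G}

theorem snc_dp (h : IsSelfNormalizingCyclic W₁ W₂) : DP W₁ W₂ (W₁ ⊔ W₂) :=
  dp_sup (fun b hb => mem_cen.2 fun a ha => h.2.2.2.1 a ha b hb) h.2.2.1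

theorem snc_nonempty (h : IsSelfNormalizingCyclic W₁ W₂) : (zhat W₁ W₂).Nonempty := by
  obtain ⟨a, ha, ha1⟩ := exists_ne_one h.1
  obtain ⟨b, hb, hb1⟩ := exists_ne_one h.2.1
  exact ⟨a * b, (snc_dp h).mem_zhat.2 ⟨a, ha, b, hb, ha1, hb1, rfl⟩⟩

theorem snc_cen1 (h : IsSelfNormalizingCyclic W₁ W₂) {z : G} (hz : z ∈ zhat W₁ W₂) : C[z] = W₁ ⊔ W₂ := by
  rw [← h.2.2.2.2.2 {z} (Set.singleton_subset_iff.2 hz) (Set.singleton_nonempty z)]
  ext g
  rw [mem_cen1, Subgroup.mem_set_normalizer_iff]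
  simp only [Set.mem_singleton_iff]
  constructor
  · intro e n
    constructor
    · rintro rfl; rw [e, mul_inv_cancel_right]
    · intro e'
      have : g * n * g⁻¹ = g * z * g⁻¹ := by rw [e', e, mul_inv_cancel_right]
      simpa using this
  · intro e
    have := (e z).1 rfl
    rw [mul_inv_eq_iff_eq_mul] at this
    exact this

theorem snc_ti (h : IsSelfNormalizingCyclic W₁ W₂) : NormedTI (zhat W₁ W₂) (W₁ ⊔ W₂) := by
  have hc : Cyc (W₁ ⊔ W₂) := h.2.2.2.2.1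
  refine ⟨snc_nonempty h, fun a ha g => ⟨fun hg => ?_, fun hg => ?_⟩⟩
  · have hn : g ∈ N(W₁ ⊔ W₂) := by
      refine mem_nrm.2 fun x hx => ?_
      rw [← snc_cen1 h hg, mem_cen1]
      rw [← snc_cen1 h ha, mem_cen1] at hx
      calc g * x * g⁻¹ * (g * a * g⁻¹) = g * (x * a) * g⁻¹ := by group
        _ = g * (a * x) * g⁻¹ := by rw [hx]
        _ = _ := by group
    have h1 : g ∈ N(W₁) := hc.norms_sub le_sup_left (zpowers_le.2 hn) (mem_zpowers g)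
    have h2 : g ∈ N(W₂) := hc.norms_sub le_sup_right (zpowers_le.2 hn) (mem_zpowers g)
    rw [← h.2.2.2.2.2 _ subset_rfl (snc_nonempty h), Subgroup.mem_set_normalizer_iff]
    intro n
    simp only [Set.mem_sdiff, Set.mem_union, SetLike.mem_coe]
    rw [← Subgroup.mem_normalizer_iff.1 hn n, ← Subgroup.mem_normalizer_iff.1 h1 n,
      ← Subgroup.mem_normalizer_iff.1 h2 n]
  · rw [← snc_cen1 h ha, mem_cen1] at hg
    rwa [hg, mul_inv_cancel_right]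

theorem ofTypeP (h : IsTypePWith M W₁ U W₂) : OfTypeP M U (W₁ ⊔ W₂) W₁ W₂ where
  dp := snc_dp h.selfNormalizing
  cyc₁ := h.W₁_cyclic
  hall := ⟨h.W₁_compl.2.1, h.W₁_hall⟩
  ne₁ := h.W₁_ne
  sd := sd_of_isComplIn h.W₁_compl (der_nml M).nrm
  nilU := h.U_nilpotent
  nrmU := h.U_normal
  sdU := sd_of_isComplIn h.U_compl ((der_le M).trans (Fcore_nml M).nrm)
  ncyc := h.H_not_cyclic
  der2_le := h.derived_two_le.trans h.fitting_eq.le
  fit_eq := h.fitting_eq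
  fit_le := h.fitting_le
  cyc₂ := Cyc.mono h.selfNormalizing.2.2.2.2.1 le_sup_right
  ne₂ := h.selfNormalizing.2.1
  le_MF := h.W₂_le.trans inf_le_left
  le_der2 := h.W₂_le.trans inf_le_right
  cent := h.W₂_centralizer
  ti := snc_ti h.selfNormalizing

theorem typeP_W₂_eq {W₂' : Subgroup G} (hW : IsSelfNormalizingCyclic W₁ W₂) (hM : W₂ ≤ M)
    (hP : IsTypePWith M W₁ U W₂') : W₂' = W₂ := by
  have h := ofTypeP hP
  have dp := snc_dp hW
  have hcop : Cop W₁ W₂ := Cyc.cop_of_inf hW.2.2.2.2.1 le_sup_left le_sup_right dp.inf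
  have h1 : W₂ ≤ ⁅M, M⁆ :=
    (h.sd.compl_hall_left' h.hall.hall).le_of_nml (der_nml M).nrm hcop.pi' hM
  have h2 : W₂ ≤ W₂' := h.cent_compl ▸ le_inf h1 dp.cen
  obtain ⟨z, hz⟩ := snc_nonempty hW
  obtain ⟨a, ha, b, hb, ha1, hb1, rfl⟩ := dp.mem_zhat.1 hz
  have e : W₁ ⊔ W₂' = W₁ ⊔ W₂ := by
    rw [← snc_cen1 hW hz, snc_cen1 hP.selfNormalizing (h.dp.mem_zhat.2 ⟨a, ha, b, h2 hb, ha1, hb1, rfl⟩)]
  refine le_antisymm ?_ h2
  have h3 : W₂' ≤ ⁅M, M⁆ ⊓ (W₁ ⊔ W₂) := le_inf h.W₂_le_der (e ▸ le_sup_right)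
  rwa [inf_sup_right (dp.cen.trans (cen_le_nrm _)) h1, h.sd.inf, bot_sup_eq] at h3

end Cfsg.Agent.H23
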